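import Mathlib
import Cfsg.Agent.H29.ASTab6

/-! Finite checks in the Weyl group of `E₆`. -/

set_option autoImplicit false
set_option maxRecDepth 100000

namespace Cfsg.Agent.H29

open Cfsg.Lie

/-- The test for an isometry to lie in the Weyl group. -/
noncomputable def inW6 (M : List (List ℕ)) : Bool :=
  hornA 3 un6 M (ordP 3 0) fun G => allL (kil 3 · [1, 0, 2, 0, 1, 2]) G

/-- The rational points of the alcove modulo `11`. -/
def rep6 : List (List ℕ) := [[1, 0, 1, 1, 1, 2], [1, 1, 0, 1, 1, 1], [1, 1, 0, 1, 1, 2],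
  [1, 1, 1, 1, 0, 1], [2, 0, 1, 1, 1, 1], [2, 1, 1, 1, 0, 1]]

theorem alc6_11 : allAlc [1, 2, 2, 3, 2, 1] 11 (ratL tn6 11 2 rep6) = true := by
  refine allAlc_cons.2 fun x hx => ?_
  replace hx : x < 12 := hx
  interval_cases x <;> decide +kernel

theorem cos6_11 : ∀ a ∈ rep6, srch cn6 tn6 11 2 a (fun M => !inW6 M) = true := by decide +kernel

theorem alc6_5 : allAlc [1, 2, 2, 3, 2, 1] 5
    (ratL tn6 5 2 [[1, 0, 0, 0, 1, 1], [1, 0, 1, 0, 0, 1], [1, 1, 0, 0, 0, 1]]) = true := by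
  decide +kernel

/-- Lattice vectors fixed by the stabiliser of the rational point modulo `5`. -/
def fix6 : List (List ℕ) := [[0, 0, 0, 0, 0, 1], [0, 1, 1, 2, 2, 0], [2, 1, 2, 2, 1, 0]]

theorem stab6_5 : srch cn6 tn6 5 1 [1, 0, 0, 0, 1, 1] (fun M => !inW6 M ||
    ((!polyOK 5 un6 M (ordP 5 4) || polyOK 5 un6 M (ordP 5 0)) &&
      hornA 5 un6 M (ordP 5 0) fun G => allL (fun z => allL (kil 5 · z) G) fix6)) = true := by
  decide +kernel

/-- The centraliser of `a` lies in the Levi subgroup of type `D₅`. -/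
noncomputable def lev6 (a : List ℕ) : Bool :=
  allL (fun x => !kil 5 a x.2.2 || kil 5 [1, 0, 0, 0, 0, 0] x.2.2) tn6 &&
    srch cn6 tn6 5 1 a fun M => !inW6 M || polyOK 5 [[1, 0, 0, 0, 0, 0]] M (ordP 5 0)

theorem lev6_0 : lev6 [1, 0, 0, 0, 1, 1] = true ∧ zN 5 tn6 [1, 0, 0, 0, 1, 1] = 12 := by
  decide +kernel

theorem cube6 : allCube 5 6 (fun a => !(allL (kil 5 a) fix6 && Nat.beq (zN 5 tn6 a) 12) || lev6 a) =
    true := by
  refine allCube_succ.2 fun x hx => allCube_succ.2 fun y hy => ?_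
  interval_cases x <;> interval_cases y <;> decide +kernel

theorem inj6 : ∀ j < chevE6.rank, ∀ r < chevE6.nroots,
    (chevE6.cartan j r - 2) % (5 : ℕ) = 0 → r = chevE6.simple j := by decide +kernel

end Cfsg.Agent.H29
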