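import Mathlib
import Cfsg.Agent.H29.AS6
import Cfsg.Agent.H29.ASChk6

/-! Alternating sections of the groups of type `E₆`. -/

set_option autoImplicit false

namespace Cfsg.Agent.H29

open Equiv Cfsg.Lie H37 H40 H34 Finset

variable {C : Cert chevE6} {f g : Fin chevE6.nroots → ℤ} {v w : Perm (Fin chevE6.nroots)}

theorem th6 : (rd chevE6 rcE6 (⟨71, by decide⟩ : Fin chevE6.nroots)).2.2.2 =
    [1, 2, 2, 3, 2, 1].map (↑) := by decide +kernel

theorem cardW_E6 (C : Cert chevE6) : Nat.card C.S.W = 51840 := card_W_E6 (isCartan_E6 C)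

theorem inW6_of (hw : w ∈ C.S.W) : inW6 (lfN C 165 tabE6 rcE6 w) = true := by
  rw [inW6, hornA_eq, kil_all_iff tabOKE6 tabN6 (by decide) hw _ rfl]
  intro f hf
  have := sum_W_eq (s := 3) (fun j : Fin chevE6.rank => (([1, 0, 2, 0, 1, 2] : List ℕ).getD j 0 : ℕ))
    (fun i => by simp only [C.A_eq]; revert i; decide +kernel) hw hf
  simp only [ev, Int.cast_sum, Int.cast_mul, pev_ordP (show 0 < 3 by decide), mul_sub,
    sum_sub_distrib, zero_add, pow_one] at this ⊢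
  rw [this, sub_self]

theorem comb6_11 (hf : IsAdd C.R f) (hw : w ∈ C.S.W)
    (h1 : ∀ r, (f (w r) : ZMod 11) = (2 : ℕ) * f r) : ∀ r, (f r : ZMod 11) = 0 := by
  by_contra h0
  obtain ⟨u, hu, a, ha, h3, h4⟩ := alc_rat tabOKE6 tabN6 (by decide) hf h1 h0 (by decide) _ th6 alc6_11
  have hw' := mul_mem (mul_mem (inv_mem hu) hw) hu
  have h5 := srch_spec tabOKE6 tabN6 (by decide) hw' h3 h4 (hf.comp hu) (fun r => by simp [h1])
    (cos6_11 a ha)
  simp [inW6_of hw'] at h5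

theorem comb6_5 (hf : IsAdd C.R f) (h0 : ¬ ∀ r, (f r : ZMod 5) = 0)
    (h1 : ∀ r, (f (v r) : ZMod 5) = (2 : ℕ) * f r) :
    ∃ u ∈ C.S.W, Rp C 5 [1, 0, 0, 0, 1, 1] fun r => f (u r) := by
  obtain ⟨u, hu, a, ha, -, h4⟩ := alc_rat tabOKE6 tabN6 (by decide) hf h1 h0 (by decide) _ th6 alc6_5
  have key := fun l : List (Fin 6) => h4.word (by decide) (A := [[2, 0, -1, 0, 0, 0],
    [0, 2, 0, -1, 0, 0], [-1, 0, 2, -1, 0, 0], [0, -1, -1, 2, -1, 0], [0, 0, 0, -1, 2, -1],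
    [0, 0, 0, 0, -1, 2]]) (by decide +kernel) l (hf.comp hu)
  simp only [List.mem_cons, List.not_mem_nil, or_false] at ha
  rcases ha with rfl | rfl | rfl
  · exact ⟨u, hu, h4⟩
  · obtain ⟨w, hw, h⟩ := key [5, 4, 3, 1, 2, 0, 3, 2, 4, 3, 1, 5, 4, 3, 2, 0]
    exact ⟨u * w, mul_mem hu hw, by convert h using 1; exacts [by decide +kernel, rfl]⟩
  · obtain ⟨w, hw, h⟩ := key [0, 2, 3, 1, 4, 3, 2, 0, 5, 4, 3, 1, 2, 3, 4, 5]
    exact ⟨u * w, mul_mem hu hw, by convert h using 1; exacts [by decide +kernel, rfl]⟩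

theorem stab6 (hf : IsAdd C.R f) (h : Rp C 5 [1, 0, 0, 0, 1, 1] f) (hw : w ∈ C.S.W)
    (h1 : ∀ r, (f (w r) : ZMod 5) = f r) : (w ^ 5 = 1 → w = 1) ∧ (IsAdd C.R g →
      (∀ r, (g (w r) : ZMod 5) = (2 : ℕ) * g r) → ∀ z ∈ fix6, (ev C g z : ZMod 5) = 0) := by
  have h5 := srch_spec tabOKE6 tabN6 (by decide) hw rfl h hf (fun r => by simp [h1]) stab6_5
  rw [inW6_of hw, Bool.not_true, Bool.false_or, Bool.and_eq_true, hornA_eq, allL_iff] at h5
  refine ⟨fun h2 => eq_one_of_mod inj6 hw fun g hg r => ?_, fun hg h2 z hz => ?_⟩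
  · rw [polyOK_ord tabOKE6 tabN6 (by decide) hw h2] at h5
    simpa using ord_spec tabOKE6 tabN6 (by decide) hw h5.1 hg r
  · have := (kil_all_iff tabOKE6 tabN6 (by decide) hw _ (by revert z; decide)).1 (h5.2 z hz) g hg
    rwa [ev_eig h2, show ((Nat.ofDigits 2 (ordP 5 0) : ℕ) : ZMod 5) = 1 by decide, one_mul] at this

theorem rc6_eq {r t : Fin chevE6.nroots} (h : (C.R.rc r ⟨0, by decide⟩ : ZMod 5) = C.R.rc t ⟨0, by decide⟩) :
    C.R.rc r ⟨0, by decide⟩ = C.R.rc t ⟨0, by decide⟩ := by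
  simp only [rc_eq C tabOKE6] at h ⊢
  have : ∀ r < 72, -1 ≤ gt rcE6 r 0 ∧ gt rcE6 r 0 ≤ 1 := by decide +kernel
  have h1 := this r r.2
  have h2 := this t t.2
  rw [ZMod.intCast_eq_intCast_iff_dvd_sub] at h
  omega

/-- The root vectors of the Levi subalgebra of type `D₅` on its natural module. -/
def e6E (r : ℕ) : List (Tm0 10) :=
  [[(8, 0, -1), (9, 1, -1)], [(7, 0, 1), (9, 2, -1)], [(7, 1, 1), (8, 2, 1)], [(6, 0, -1), (9, 3, -1)],
    [(6, 1, -1), (8, 3, 1)], [(6, 2, -1), (7, 3, -1)], [(4, 0, 1), (9, 5, -1)], [(4, 1, 1), (8, 5, 1)],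
    [(4, 2, 1), (7, 5, -1)], [(4, 3, 1), (6, 5, 1)], [(5, 0, 1), (9, 4, -1)], [(5, 1, 1), (8, 4, 1)],
    [(5, 2, 1), (7, 4, -1)], [(5, 3, 1), (6, 4, 1)], [(3, 0, 1), (9, 6, 1)], [(3, 1, 1), (8, 6, -1)],
    [(3, 2, 1), (7, 6, 1)], [(2, 0, 1), (9, 7, -1)], [(2, 1, 1), (8, 7, 1)], [(1, 0, 1), (9, 8, 1)],
    [(0, 1, 1), (8, 9, 1)], [(1, 2, 1), (7, 8, 1)], [(0, 2, 1), (7, 9, -1)], [(2, 3, 1), (6, 7, 1)],
    [(1, 3, 1), (6, 8, -1)], [(0, 3, 1), (6, 9, 1)], [(3, 5, 1), (4, 6, 1)], [(2, 5, 1), (4, 7, -1)],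
    [(1, 5, 1), (4, 8, 1)], [(0, 5, 1), (4, 9, -1)], [(3, 4, 1), (5, 6, 1)], [(2, 4, 1), (5, 7, -1)],
    [(1, 4, 1), (5, 8, 1)], [(0, 4, 1), (5, 9, -1)], [(2, 6, -1), (3, 7, -1)], [(1, 6, -1), (3, 8, 1)],
    [(0, 6, -1), (3, 9, -1)], [(1, 7, 1), (2, 8, 1)], [(0, 7, 1), (2, 9, -1)],
    [(0, 8, -1), (1, 9, -1)]].getD (if r < 16 then 40 else r - 16) []

/-- The weights of the natural module. -/
def e6W (a : Fin 10) (i : ℕ) : ℤ :=
  gt [[-1, 0, 0, 0, 0, 1], [-1, 0, 0, 0, 1, -1], [-1, 0, 0, 1, -1, 0], [-1, 1, 1, -1, 0, 0],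
    [-1, -1, 1, 0, 0, 0], [0, 1, -1, 0, 0, 0], [0, -1, -1, 1, 0, 0], [0, 0, 0, -1, 1, 0],
    [0, 0, 0, 0, -1, 1], [0, 0, 0, 0, 0, -1]] a i

/-- The coroots on the natural module. -/
def e6H (i : ℕ) : List (Tm0 10) := (List.finRange 10).map fun a => (a, a, e6W a i)

theorem chkR_e6 : ∀ r < 72, gt rcE6 r 0 = 0 → chkR chevE6 e6H e6E r = true := fun r hr => by
  interval_cases r <;> decide +kernel

variable {L : Type*} [Field L]

theorem lev6_spec {ζ : Lˣ} (hζ : IsPrimitiveRoot ζ 5) {h x : chevE6.group L} (hf : Lab C ζ h f)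
    {a : List ℕ} (hl : a.length = 6) (ha : Rp C 5 a f) (h1 : lev6 a = true) (hx : Commute h x) :
    ∃ A, (x, A) ∈ relG (rhoT chevE6 e6H e6E L) := by
  rw [lev6, Bool.and_eq_true, allL_iff] at h1
  have h2 : Rp C 5 [1, 0, 0, 0, 0, 0] fun r => C.R.rc r ⟨0, by decide⟩ := rp_unit ⟨0, by decide⟩
  have hX : ∀ r, C.R.rc r ⟨0, by decide⟩ = 0 → ∀ t, C.xg L r t ∈
      (relG (rhoT chevE6 e6H e6E L)).map (MonoidHom.fst _ _) := fun r hr t => by
    obtain ⟨A, hA⟩ := xg_mem_rel (C := C) r.2 (chkR_e6 r r.2 (by rwa [rc_eq C tabOKE6] at hr)) t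
    exact ⟨_, hA, rfl⟩
  obtain ⟨⟨_, A⟩, hA, rfl⟩ := hf.cent_le hζ (fun r hr => hX r (by
      have := h1.1 _ (mem_tabN tabOKE6 tabN6 r)
      rw [kil_iff.2 ((ha.dotN_rn tabOKE6 tabN6 (by decide) hf.1 r).trans hr), Bool.not_true,
        Bool.false_or, kil_iff, h2.dotN_rn tabOKE6 tabN6 (by decide) (isAdd_rc _)] at this
      exact (rc6_eq (t := C.R.simple ⟨1, by decide⟩) (by simpa [C.R.rc_simple] using this)).trans
        (by simp [C.R.rc_simple])))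
    (fun n hn h3 => N_mem_levi _ (fun c => by
      obtain ⟨A, hA⟩ := tg_mem_rel (C := C) (H := e6H) (E := e6E) e6W (by decide +kernel)
        (by decide +kernel) c
      exact ⟨_, hA, rfl⟩) hX _ n hn rfl fun r => rc6_eq (by
      have hw := (C.split L).ν_mem n hn
      have h5 := srch_spec tabOKE6 tabN6 (by decide) hw hl ha hf.1 (fun r => by simp [h3]) h1.2
      rw [inW6_of hw, Bool.not_true, Bool.false_or] at h5
      have := polyOK_spec tabOKE6 tabN6 (by decide) hw h5 (List.mem_singleton_self _) rfl h2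
        (isAdd_rc _) r
      rwa [pev_ordP (by decide), sub_eq_zero, zero_add, pow_one] at this)) hx
  exact ⟨A, hA⟩

variable (C) {Γ : Type*} [Fintype L] [Group Γ] [Finite Γ] (j : Γ →* chevE6.group L)
  (hj : Function.Injective j)
include C hj

theorem e6_no13 (hL : Fintype.card L ≡ 1 [MOD 11]) (π : Γ →* alternatingGroup (Fin 13))
    (hπ : Function.Surjective π) : 11 ∣ Nat.card π.ker := by
  by_contra h
  let x : alternatingGroup (Fin 13) :=
    ⟨c[0, 1, 2, 3, 4, 5, 6, 7, 8, 9, 10], Perm.mem_alternatingGroup.2 (by decide +kernel)⟩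
  let y : alternatingGroup (Fin 13) := ⟨c[1, 2, 4, 8, 5, 10, 9, 7, 3, 6] * c[11, 12],
    Perm.mem_alternatingGroup.2 (by decide +kernel)⟩
  have e1 : y * x * y⁻¹ = x ^ 2 := by decide +kernel
  obtain ⟨P, h1, h2, h3, h4⟩ := lift_elab hπ h (S := {x})
    (by simp only [Set.mem_singleton_iff, forall_eq]; decide +kernel) (by simp)
  obtain ⟨a, ha, hax⟩ := h3 x rfl
  obtain ⟨g, -, hg⟩ := h4 y (by simp [e1, pow_mem (Subgroup.mem_closure_singleton_self x)])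
  obtain ⟨j', hj', h9⟩ := toral0 C hL (by rw [cardW_E6]; decide) j hj (P := P)
    fun x => ⟨1, Subtype.ext (by simpa using h1 x x.2)⟩
  obtain ⟨ζ, hζ⟩ := exists_prim hL
  obtain ⟨f, hf⟩ := exists_lab hζ (by decide) (h9 a ha) (by rw [← map_pow, h1 a ha, map_one])
  obtain ⟨w, hw, hw'⟩ := exists_act' C j' g
  have := (hf.eq_one_iff hζ).2 (comb6_11 hf.1 hw (hw' hζ 2 hf hf
    (hg a ha _ (pow_mem ha 2) (by rw [map_pow, hax, e1]))))
  revert hax
  rw [hj' (this.trans (map_one j').symm), map_one]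
  decide +kernel

theorem e6_no12 (hL : Fintype.card L ≡ 1 [MOD 5 ^ 2]) (h12 : ((12 : ℕ) : L) ≠ 0)
    (π : Γ →* alternatingGroup (Fin 12)) (hπ : Function.Surjective π) : 5 ∣ Nat.card π.ker := by
  by_contra h
  let x : alternatingGroup (Fin 12) :=
    ⟨c[0, 1, 2, 3, 4], Perm.mem_alternatingGroup.2 (by decide +kernel)⟩
  let z : alternatingGroup (Fin 12) :=
    ⟨c[5, 6, 7, 8, 9], Perm.mem_alternatingGroup.2 (by decide +kernel)⟩
  let y : alternatingGroup (Fin 12) :=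
    ⟨c[1, 2, 4, 3] * c[6, 7, 9, 8], Perm.mem_alternatingGroup.2 (by decide +kernel)⟩
  let y' : alternatingGroup (Fin 12) :=
    ⟨c[1, 2, 4, 3] * c[10, 11], Perm.mem_alternatingGroup.2 (by decide +kernel)⟩
  let y'' : alternatingGroup (Fin 12) := ⟨c[0, 5] * c[1, 6] * c[2, 7] * c[3, 8] * c[4, 9] * c[10, 11],
    Perm.mem_alternatingGroup.2 (by decide +kernel)⟩
  have e1 : y * x * y⁻¹ = x ^ 2 := by decide +kernel
  have e2 : y * z * y⁻¹ = z ^ 2 := by decide +kernel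
  have e3 : y' * x * y'⁻¹ = x ^ 2 := by decide +kernel
  have e4 : y' * z * y'⁻¹ = z := by decide +kernel
  have e5 : y'' * x * y''⁻¹ = z := by decide +kernel
  have e6 : y'' * z * y''⁻¹ = x := by decide +kernel
  have hx : x ∈ Subgroup.closure {x, z} := Subgroup.subset_closure (by simp)
  have hz : z ∈ Subgroup.closure {x, z} := Subgroup.subset_closure (by simp)
  obtain ⟨P, h1, h2, h3, h4⟩ := lift_elab hπ h (S := {x, z})
    (by simp only [Set.mem_insert_iff, Set.mem_singleton_iff, forall_eq_or_imp, forall_eq]; decide +kernel)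
    (by simp only [Set.mem_insert_iff, Set.mem_singleton_iff, forall_eq_or_imp, forall_eq]; decide +kernel)
  obtain ⟨a, ha, hax⟩ := h3 x (by simp)
  obtain ⟨b, hb, hbz⟩ := h3 z (by simp)
  obtain ⟨g, -, hg⟩ := h4 y (by simp [e1, e2, pow_mem hx, pow_mem hz])
  obtain ⟨g', -, hg'⟩ := h4 y' (by simp [e3, e4, hz, pow_mem hx])
  obtain ⟨g'', -, hg''⟩ := h4 y'' (by simp [e5, e6, hx, hz])
  have h5 := hg b hb _ (pow_mem hb 2) (by rw [map_pow, hbz, e2])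
  obtain ⟨j₁, hj₁, h9⟩ := toral C hL (by rw [cardW_E6]; decide) (by rw [cardW_E6]; decide) (k := 2)
    (fun f hf h0 v _ hv w hw h5 h6 => by
      obtain ⟨u, hu, h7⟩ := comb6_5 hf h0 hv
      have := (stab6 (g := f) (hf.comp hu) h7 (mul_mem (mul_mem (inv_mem hu) hw) hu)
        (fun r => by simp [h5])).1 (by rw [conj_pow'', h6]; simp)
      rwa [mul_assoc, inv_mul_eq_one, eq_comm, mul_eq_right] at this)
    j hj h1 h2 ha hb (fun e => by revert hax; rw [e, map_one]; decide +kernel)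
    (fun i hi e => (by decide +kernel : ∀ i < 5, x ^ i ≠ z) i hi (by rw [← hax, ← hbz, e, map_pow]))
    (hg a ha _ (pow_mem ha 2) (by rw [map_pow, hax, e1])) h5
  obtain ⟨ζ, hζ⟩ := exists_prim (hL.of_dvd (dvd_pow_self 5 two_ne_zero))
  obtain ⟨f₁, hf₁⟩ := exists_lab hζ (by decide) (h9 a ha) (by rw [← map_pow, h1 a ha, map_one])
  obtain ⟨f₂, hf₂⟩ := exists_lab hζ (by decide) (h9 b hb) (by rw [← map_pow, h1 b hb, map_one])
  obtain ⟨v, -, hv⟩ := exists_act' C j₁ g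
  obtain ⟨u, hu, h6⟩ := comb6_5 hf₂.1 (fun e => by
      revert hbz
      rw [hj₁ (((hf₂.eq_one_iff hζ).2 e).trans (map_one j₁).symm), map_one]
      decide +kernel) (hv hζ 2 hf₂ hf₂ h5)
  obtain ⟨j', -, h7⟩ := exists_conj_lab C j₁ hj₁ hu
  have hf := h7 hf₁
  have hf' := h7 hf₂
  obtain ⟨w, hw, hw'⟩ := exists_act' C j' g'
  obtain ⟨w', -, hw''⟩ := exists_act' C j' g''
  obtain ⟨c, hc, hl, hc'⟩ := exists_cube (C := C) _ (by decide) cube6
  rw [hc'.zN_eq tabOKE6 tabN6 (by decide) hf.1, z0_congr (g := fun r => f₂ (u r)) w' fun r => by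
      rw [hw'' hζ 1 hf hf' (hg'' a ha _ (pow_mem hb 1) (by rw [pow_one, hax, hbz, e5]))]; simp,
    ← h6.zN_eq tabOKE6 tabN6 (by decide) hf'.1, lev6_0.2, allL_iff.2 fun t ht => kil_iff.2
      ((hc'.dotN_eq (by revert t; decide)).trans ((stab6 hf'.1 h6 hw (by
        simpa using hw' hζ 1 hf' hf' (hg' b hb _ (pow_mem hb 1) (by rw [pow_one, hbz, e4])))).2 hf.1
        (hw' hζ 2 hf hf (hg' a ha _ (pow_mem ha 2) (by rw [map_pow, hax, e3]))) t ht))] at hc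
  have := le_of_rel (by decide) h12 j' π (rhoT chevE6 e6H e6E L) ((Nat.Prime.coprime_iff_not_dvd
    (by decide)).2 h) (h1 b hb) (lev6_spec hζ hf' rfl h6 lev6_0.1 rfl) (fun h8 => ?_) fun t => ?_
  · omega
  · obtain ⟨-, d, e, hd⟩ := id hf'
    have h10 := congrFun (congrFun (h8 (eV chevE6 L 36)) 0) 1
    rw [← e, show (C.tg L d).1.1 = chevE6.charDiag L (torChar chevE6 d) from rfl, charDiag_eV,
      map_smul, rhoT_eV (by decide), hd ⟨36, by decide⟩] at h10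
    have h11 := (zpow_eq_iff hζ (b := 0)).1 (Units.ext (by simpa [e6E] using h10.symm))
    have h12 := h6 ⟨5, by decide⟩
    rw [show C.R.simple ⟨5, by decide⟩ = ⟨36, by decide⟩ from Fin.ext (C.simple_val _), h11] at h12
    exact absurd h12 (by decide)
  · obtain ⟨g, ⟨⟨_, A⟩, hA, rfl⟩, rfl⟩ := (alt_eq_top (M := (((relG (rhoT chevE6 e6H e6E L)).map
      (MonoidHom.fst _ _)).comap j').map π) (a := 10) (b := 11) (by decide) (by decide)
      fun i _ _ t ht => by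
        obtain ⟨t, ht'⟩ := t
        obtain rfl : t = _ := ht
        rcases (by decide +kernel : ∀ i : Fin 12, cyc 10 11 i * x.1 = x.1 * cyc 10 11 i ∨
          cyc 10 11 i * z.1 = z.1 * cyc 10 11 i) i with e | e
        · obtain ⟨g, e1, e2⟩ := lift_comm hπ h (h1 a ha) (y := ⟨_, ht'⟩) (hax ▸ Subtype.ext e)
          obtain ⟨A, hA⟩ := lev6_spec hζ hf hl hc' hc (e2.map j')
          exact ⟨g, ⟨_, hA, rfl⟩, e1⟩
        · obtain ⟨g, e1, e2⟩ := lift_comm hπ h (h1 b hb) (y := ⟨_, ht'⟩) (hbz ▸ Subtype.ext e)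
          obtain ⟨A, hA⟩ := lev6_spec hζ hf' rfl h6 lev6_0.1 (e2.map j')
          exact ⟨g, ⟨_, hA, rfl⟩, e1⟩).ge (Subgroup.mem_top t)
    exact ⟨g, A, rfl, hA⟩

end Cfsg.Agent.H29
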