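import Mathlib
import Cfsg.Agent.H29.ASE8a

/-! Alternating sections of the groups of type `E₈`. -/

set_option autoImplicit false

namespace Cfsg.Agent.H29

open Equiv Cfsg.Lie H37 H40 H34 Finset

variable (C : Cert chevE8) {L Γ : Type*} [Field L] [Fintype L] [Group Γ]

/-- The element `a` is a torus element of order three given by a short coweight. -/
def Good8 (m : ℕ) (a : Γ) : Prop := ∃ (L : Type) (_ : Field L) (_ : Fintype L),
  Fintype.card L ≡ 1 [MOD m] ∧ ∃ j : Γ →* chevE8.group L, Function.Injective j ∧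
    ∃ ω, IsPrimitiveRoot ω 3 ∧ ∃ μ, (∀ r, |μ r| ≤ 2) ∧ Lab C ω (j a) μ

theorem e8_core {L : Type} [Field L] [Fintype L] (p : ℕ) [Fact p.Prime] [CharP L p] {m t : ℕ}
    (hL : Fintype.card L ≡ 1 [MOD m]) (hm : 3 ∣ m) (ht : t.Coprime 3) (hp : (3 * t).Coprime p)
    (j : Γ →* chevE8.group L) (hj : Function.Injective j) {a b g : Γ} (ha : a ^ 3 = 1)
    (hb : b ^ t = 1) (hab : Commute a b) (h1 : g * a * g⁻¹ = a ^ 1) (h2 : g * b * g⁻¹ = b ^ 2)
    {ζ : Lˣ} (hζ : IsPrimitiveRoot ζ t) {β : Fin chevE8.nroots → ℤ} (hβ : Lab C ζ (j b) β)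
    (h : ∀ f, IsAdd C.R f → ∀ w ∈ C.S.W, (∀ r, (f (w r) : ZMod 3) = (1 : ℕ) * f r) →
      (∀ r, (β (w r) : ZMod t) = (2 : ℕ) * β r) → 84 ≤ z0 3 f) : Good8 C m a := by
  obtain ⟨L', _, _, -, hL', φ, hφ, h3, h4⟩ := toral1 C inv8_ok p hL (j (a * b))
    (hp.coprime_dvd_left (orderOf_dvd_of_pow_eq_one (by
      rw [← map_pow, hab.mul_pow, pow_mul, ha, mul_comm 3, pow_mul, hb]; simp)))
  have h5 : a ∈ (C.split L').H.comap (φ.comp j) := mem_of_mul_mem hab ha hb ht h3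
  have h6 : b ∈ (C.split L').H.comap (φ.comp j) :=
    mem_of_mul_mem hab.symm hb ha ht.symm (hab.eq ▸ h3)
  obtain ⟨ζ', hζ', u, hu, h7⟩ := h4 hζ hβ h6
  obtain ⟨ω, hω⟩ := exists_prim (hL'.of_dvd hm)
  obtain ⟨f, hf⟩ := exists_lab hω (by decide) h5 (by rw [← map_pow, ha, map_one])
  obtain ⟨j', hj', h8⟩ := exists_conj_lab C (φ.comp j) (hφ.comp hj) (inv_mem hu)
  have h9 : Lab C ζ' (j' b) β := by simpa using h8 h7
  obtain ⟨w, hw, h10⟩ := exists_act' C j' g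
  obtain ⟨μ, e1, e2, e3⟩ := comb8_3 (h8 hf).1 (h _ (h8 hf).1 w hw (h10 hω 1 (h8 hf) (h8 hf) h1)
    (h10 hζ' 2 h9 h9 h2))
  exact ⟨L', _, _, hL', j', hj', ω, hω, μ, e2, (h8 hf).congr hω e1 e3⟩

theorem eq_of_cast {s b : ℕ} (hs : 2 * b < s) {x y : ℤ} (hx : |x| ≤ b) (hy : |y| ≤ b)
    (h : (x : ZMod s) = y) : x = y := by
  have h1 := abs_le.1 hx
  have h2 := abs_le.1 hy
  exact (sub_eq_zero.1 (Int.eq_zero_of_abs_lt_dvd ((ZMod.intCast_eq_intCast_iff_dvd_sub _ _ _).1 h)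
    (abs_lt.2 ⟨by omega, by omega⟩))).symm

variable {C} in
theorem commute_small {ζ ξ : Lˣ} {s t b : ℕ} (hζ : IsPrimitiveRoot ζ s) (hξ : IsPrimitiveRoot ξ t)
    {h h' x : chevE8.group L} {f : Fin chevE8.nroots → ℤ} (hl : Lab C ζ h f) (hl' : Lab C ξ h' f)
    (hs : 2 * b < s) (hb : ∀ r, |f r| ≤ b) (hx : Commute h x) : Commute h' x :=
  hl.commute_of hζ hξ hl' (fun r hr => by
      rw [eq_of_cast hs (hb r) (y := 0) (by simp) (by simpa using hr), Int.cast_zero])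
    (fun w _ hw r => by rw [eq_of_cast hs (hb _) (hb r) (hw r)]) hx

theorem e8_final {l m : ℕ} [Fact l.Prime] (hl : l = 13 ∨ l = 17) (hm : l ^ 2 ∣ m) {a e b c g : Γ}
    (h : Good8 C m a) (he : e ^ 3 = 1) (h1 : Commute a (e * a * e⁻¹))
    (hab : Commute a b) (hac : Commute a c) (heb : Commute e b) (hec : Commute e c)
    (hg : g ∈ Subgroup.normalizer (Subgroup.closure
      {a * (e * a * e⁻¹) * (e⁻¹ * a * e), e, b, c} : Set Γ)) :
    Commute (a * (e * a * e⁻¹) * (e⁻¹ * a * e)) (g ^ (8 * 42525)) := by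
  obtain ⟨L, _, _, hL, j, hj, ω, hω, μ, hμ, hX⟩ := h
  replace hL := hL.of_dvd hm
  have hW : ¬ l ∣ Nat.card C.S.W := by rw [cardW_E8]; rcases hl with rfl | rfl <;> decide
  have hL' := hL.of_dvd (dvd_pow_self l two_ne_zero)
  obtain ⟨ζ, hζ⟩ := exists_prim hL'
  obtain ⟨ξ, hξ⟩ := exists_prim hL
  obtain ⟨Z, hZ⟩ := exists_lab8 hζ hX.1
  obtain ⟨R, hR⟩ := exists_lab8 (C := C) hξ isAdd_ht
  have c0 : ∀ y, Commute (j a) y ↔ Commute Z y := fun y =>
    ⟨hX.commute_of hω hζ hZ (fun r hr => by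
      have := abs_le.1 (hμ r)
      rw [ZMod.intCast_zmod_eq_zero_iff_dvd] at hr
      rw [show μ r = 0 by omega, Int.cast_zero]) fun w hw h r => by rw [stab8_3 hX.1 hμ hw h],
    commute_small hζ hω hZ hX (b := 2) (by omega) hμ⟩
  have c1 : ∀ u y, Commute (u * j a * u⁻¹) y ↔ Commute (u * Z * u⁻¹) y := fun u y => by
    have : ∀ x, Commute (u * x * u⁻¹) y ↔ Commute x (u⁻¹ * y * u) := fun x => by
      simpa [mul_assoc] using Commute.conj_iff (a := x) (b := u⁻¹ * y * u) u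
    rw [this, this, c0]
  have c2 : ∀ u v, Commute (u * a * u⁻¹) (v * a * v⁻¹) →
      Commute (j u * Z * (j u)⁻¹) (j v * j a * (j v)⁻¹) := fun u v h => by
    simpa only [← c1, map_mul, map_inv] using h.map j
  have c3 : ∀ u v, Commute (u * a * u⁻¹) (v * a * v⁻¹) →
      Commute (j u * Z * (j u)⁻¹) (j v * Z * (j v)⁻¹) := fun u v h => ((c1 _ _).1 (c2 u v h).symm).symm
  have he' : e * e = e⁻¹ := by rw [eq_inv_iff_mul_eq_one, ← he, pow_three']
  have d : ∀ u ∈ ({1, e, e⁻¹} : Set Γ), ∀ v ∈ ({1, e, e⁻¹} : Set Γ),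
      Commute (u * a * u⁻¹) (v * a * v⁻¹) := by
    have h2 : Commute (e * a * e⁻¹) (e⁻¹ * a * e⁻¹⁻¹) := by
      simpa [← he', mul_assoc] using h1.conj e
    have h3 : Commute (e⁻¹ * a * e⁻¹⁻¹) a := by simpa [mul_assoc] using h1.conj e⁻¹
    simp only [Set.mem_insert_iff, Set.mem_singleton_iff, forall_eq_or_imp, forall_eq, one_mul,
      inv_one, mul_one, Commute.refl, h1, h1.symm, h2, h2.symm, h3, h3.symm, and_self]
  let z := (j 1 * Z * (j 1)⁻¹) * (j e * Z * (j e)⁻¹) * (j e⁻¹ * Z * (j e⁻¹)⁻¹)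
  have hz : ∀ y, (∀ u ∈ ({1, e, e⁻¹} : Set Γ), Commute (j u * Z * (j u)⁻¹) y) → Commute z y :=
    fun y h => ((h _ (by simp)).mul_left (h _ (by simp))).mul_left (h _ (by simp))
  let T := Subgroup.closure {a * (e * a * e⁻¹) * (e⁻¹ * a * e), e, b, c}
  have hzT : z ∈ Subgroup.centralizer (T.map j : Set (chevE8.group L)) := by
    rw [MonoidHom.map_closure, Subgroup.centralizer_closure]
    have k1 : ∀ b, Commute a b → Commute e b → Commute z (j b) := fun b h h' => hz _ fun u hu => by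
      have : Commute u b := by rcases hu with rfl | rfl | rfl <;> simp [h']
      simpa only [← c1, map_mul, map_inv] using ((this.mul_left h).mul_left this.inv_left).map j
    rintro _ ⟨x, rfl | rfl | rfl | rfl, rfl⟩
    · refine (hz _ fun u hu => ?_).symm.eq
      simpa using ((c2 _ _ (d u hu 1 (by simp))).mul_right (c2 _ _ (d u hu e (by simp)))).mul_right
        (c2 _ _ (d u hu e⁻¹ (by simp)))
    · have e1 := ((c3 _ _ (d 1 (by simp) x (by simp))).mul_right (c3 _ _ (d 1 (by simp) x⁻¹ (by simp)))).eq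
      refine mul_inv_eq_iff_eq_mul.1 (Eq.trans ?_ ((mul_assoc _ _ _).trans e1).symm)
      simp only [z, ← he', map_mul, map_one]
      have : j x * j x * j x = 1 := by rw [← map_mul, he', ← map_mul, inv_mul_cancel, map_one]
      calc _ = j x * Z * (j x)⁻¹ * (j x * j x * Z * (j x * j x)⁻¹) *
          (j x * j x * j x * Z * (j x * j x * j x)⁻¹) := by group
        _ = _ := by rw [this]
    · exact (k1 _ hab heb).symm.eq
    · exact (k1 _ hac hec).symm.eq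
  have hZl : ∀ u : chevE8.group L, (u * Z * u⁻¹) ^ l = 1 := fun u => by
    rw [conj_pow, hZ.pow_eq_one hζ, mul_one, mul_inv_cancel]
  have hP : IsPGroup l (Subgroup.closure ((fun u => j u * Z * (j u)⁻¹) '' {1, e, e⁻¹})) :=
    isPGroup_closure_of_comm (by rintro _ ⟨u, -, rfl⟩; exact hZl _)
      (by rintro _ ⟨u, hu, rfl⟩ _ ⟨v, hv, rfl⟩; exact c3 _ _ (d u hu v hv))
  have hmem : ∀ u ∈ ({1, e, e⁻¹} : Set Γ), j u * Z * (j u)⁻¹ ∈
      Subgroup.closure ((fun u => j u * Z * (j u)⁻¹) '' {1, e, e⁻¹}) := fun u hu =>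
    Subgroup.subset_closure ⟨u, hu, rfl⟩
  have hN : ∀ x ∈ Subgroup.centralizer (T.map j : Set (chevE8.group L)),
      j g * x * (j g)⁻¹ ∈ Subgroup.centralizer (T.map j : Set (chevE8.group L)) := by
    rintro x hx _ ⟨y, hy, rfl⟩
    have := hx _ ⟨_, (Subgroup.mem_normalizer_iff''.1 hg y).1 hy, rfl⟩
    simp only [map_mul, map_inv] at this
    calc _ = j g * ((j g)⁻¹ * j y * j g * x) * (j g)⁻¹ := by group
      _ = _ := by rw [this]; group
  obtain ⟨A, hA, hA', n, hn, h3⟩ := frattini_elt (hP.to_le (Subgroup.zpowers_le.2 (mul_mem (mul_mem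
    (hmem _ (by simp)) (hmem _ (by simp))) (hmem _ (by simp))))) (Subgroup.zpowers_le.2 hzT) hN
  have h4 := (C.autExp L hL' hW (fun _ => W8_pow) A hA' _ h3 z (hA (Subgroup.mem_zpowers z))).symm
  obtain ⟨y, hy⟩ := exists_conj_le (not_dvd_of_modEq (C.index_H L hL') hW) hP
  have key : ∀ u ∈ ({1, e, e⁻¹} : Set Γ), ∃ ν, (∀ r, |ν r| ≤ 2) ∧
      Lab C ζ (y * j u * Z * (y * j u)⁻¹) ν ∧ Lab C ω (y * j u * j a * (y * j u)⁻¹) ν := fun u hu => by
    obtain ⟨w, -, h5⟩ := exists_lab_conj C (y * j u)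
    have h6 : y * j u * Z * (y * j u)⁻¹ ∈ (C.split L).H := by
      simpa [mul_assoc] using hy _ (hmem u hu)
    exact ⟨_, fun r => hμ _, h5 hZ h6, h5 hX (hR.mem_H_of_ht hξ ht8 (by rcases hl with rfl | rfl <;> decide)
      ((c1 _ _).2 (Cert.H_comm _ h6 _ hR.mem_H)).symm)⟩
  obtain ⟨ν₁, a₁, b₁, c₁⟩ := key 1 (by simp)
  obtain ⟨ν₂, a₂, b₂, c₂⟩ := key e (by simp)
  obtain ⟨ν₃, a₃, b₃, c₃⟩ := key e⁻¹ (by simp)
  have h5 := commute_small hζ hω ((b₁.mul b₂).mul b₃) ((c₁.mul c₂).mul c₃) (b := 6) (by omega)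
    (fun r => (abs_add_three _ _ _).trans (by
      have := a₁ r; have := a₂ r; have := a₃ r; omega))
    (x := y * (n * j g) ^ (8 * 42525) * y⁻¹) (by simpa [z, mul_assoc] using h4.conj y)
  have h6 : ∀ k, (n * j g) ^ k * (j g ^ k)⁻¹ ∈
      Subgroup.centralizer (T.map j : Set (chevE8.group L)) := fun k => by
    induction k with
    | zero => simp
    | succ k ih =>
      convert mul_mem hn (hN _ ih) using 1
      rw [pow_succ', pow_succ']; group
  have h7 : Commute (j (a * (e * a * e⁻¹) * (e⁻¹ * a * e))) _ :=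
    h6 (8 * 42525) _ ⟨_, Subgroup.subset_closure (by simp), rfl⟩
  have h8 : Commute (j (a * (e * a * e⁻¹) * (e⁻¹ * a * e))) ((n * j g) ^ (8 * 42525)) := by
    simpa [mul_assoc] using h5.conj y⁻¹
  exact hj (by simpa using (h7.inv_right.mul_right h8).eq)

variable [Finite Γ]

theorem e8_no18 {l m : ℕ} [Fact l.Prime] (hl : l = 13 ∨ l = 17) (hm : l ^ 2 ∣ m)
    (π : Γ →* alternatingGroup (Fin 18)) (hπ : Function.Surjective π)
    (h : ∀ a, (π a).1 = c[0, 1, 2] → a ^ 3 = 1 → Good8 C m a) : 3 ∣ Nat.card π.ker := by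
  by_contra h3
  let x : alternatingGroup (Fin 18) := ⟨c[0, 1, 2], Perm.mem_alternatingGroup.2 (by decide +kernel)⟩
  let e : alternatingGroup (Fin 18) :=
    ⟨c[0, 3, 6] * c[1, 4, 7] * c[2, 5, 8], Perm.mem_alternatingGroup.2 (by decide +kernel)⟩
  let b : alternatingGroup (Fin 18) :=
    ⟨c[9, 10, 11] * c[12, 13, 14] * c[15, 16, 17], Perm.mem_alternatingGroup.2 (by decide +kernel)⟩
  let c : alternatingGroup (Fin 18) :=
    ⟨c[9, 12, 15] * c[10, 13, 16] * c[11, 14, 17], Perm.mem_alternatingGroup.2 (by decide +kernel)⟩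
  let y : alternatingGroup (Fin 18) :=
    ⟨c[0, 9] * c[1, 10, 4, 13, 5, 14, 6, 15, 2, 11, 8, 17, 7, 16, 3, 12],
      Perm.mem_alternatingGroup.2 (by decide +kernel)⟩
  let u : Fin 5 → alternatingGroup (Fin 18) := ![x, e * x * e⁻¹, e⁻¹ * x * e, b, c]
  have hu : ∀ i, u i ^ 3 = 1 ∧ (∃ k, u k = e * u i * e⁻¹) ∧ ∀ k, u i * u k = u k * u i := by
    decide +kernel
  have he : e ^ 3 = 1 := by decide +kernel
  have hQ := (isPGroup_zpowers he).to_sup_of_normal_right' (isPGroup_closure_of_comm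
    (S := Set.range u) (by rintro _ ⟨i, rfl⟩; exact (hu i).1)
    (by rintro _ ⟨i, rfl⟩ _ ⟨k, rfl⟩; exact (hu i).2.2 k)) (Subgroup.zpowers_le.2
    (Subgroup.mem_normalizer_fintype fun n hn => (show _ ≤ (Subgroup.closure _).comap
      (MulAut.conj e).toMonoidHom from (Subgroup.closure_le _).2 (by
        rintro _ ⟨i, rfl⟩; exact Subgroup.subset_closure (hu i).2.1)) hn))
  obtain ⟨P, hP, hPQ, -⟩ := H51.exists_isPGroup_map_normalizer hπ hQ
  obtain ⟨x', hx', ex : π x' = x⟩ := hPQ.ge (Subgroup.mem_sup_right (Subgroup.subset_closure ⟨0, rfl⟩))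
  obtain ⟨b', hb', eb : π b' = b⟩ := hPQ.ge (Subgroup.mem_sup_right (Subgroup.subset_closure ⟨3, rfl⟩))
  obtain ⟨c', hc', ec : π c' = c⟩ := hPQ.ge (Subgroup.mem_sup_right (Subgroup.subset_closure ⟨4, rfl⟩))
  obtain ⟨e', he', ee⟩ := hPQ.ge (Subgroup.mem_sup_left (Subgroup.mem_zpowers e))
  have k1 : ∀ u ∈ P, π u ^ 3 = 1 → u ^ 3 = 1 := fun u hu h =>
    lift_inj h3 hP (pow_mem hu 3) (one_mem _) (by simpa using h)
  have k2 : ∀ u ∈ P, ∀ v ∈ P, π u * π v = π v * π u → Commute u v := fun u hu v hv h =>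
    lift_inj h3 hP (mul_mem hu hv) (mul_mem hv hu) (by simpa using h)
  have h1 := mul_mem (mul_mem he' hx') (inv_mem he')
  have ht : π (x' * (e' * x' * e'⁻¹) * (e'⁻¹ * x' * e')) = x * (e * x * e⁻¹) * (e⁻¹ * x * e) := by
    simp only [map_mul, map_inv, ex, ee]
  obtain ⟨g, eg, hg⟩ := lift_gen hπ h3 hP (y := y)
    (S := {x' * (e' * x' * e'⁻¹) * (e'⁻¹ * x' * e'), e', b', c'}) (by
      rintro _ (rfl | rfl | rfl | rfl)
      exacts [mul_mem (mul_mem hx' h1) (mul_mem (mul_mem (inv_mem he') hx') he'), he', hb', hc']) (by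
      have hS := fun t (h : t ∈ _) => Subgroup.subset_closure (G := Γ)
        (k := {x' * (e' * x' * e'⁻¹) * (e'⁻¹ * x' * e'), e', b', c'}) h
      rintro _ (rfl | rfl | rfl | rfl)
      · exact ⟨b', hS _ (by simp), by rw [ht, eb]; decide +kernel⟩
      · exact ⟨c', hS _ (by simp), by rw [ee, ec]; decide +kernel⟩
      · exact ⟨_, mul_mem (hS e' (by simp)) (hS _ (Set.mem_insert _ _)), by
          rw [map_mul, ht, eb, ee]; decide +kernel⟩
      · exact ⟨_, hS _ (Set.mem_insert _ _), by rw [ht, ec]; decide +kernel⟩)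
  have := (e8_final C hl hm (h x' (by rw [ex]) (k1 _ hx' (by rw [ex]; decide +kernel)))
    (k1 _ he' (by rw [ee, he])) (k2 _ hx' _ h1 (by simp only [map_mul, map_inv, ex, ee]; decide +kernel))
    (k2 _ hx' _ hb' (by rw [ex, eb]; decide +kernel)) (k2 _ hx' _ hc' (by rw [ex, ec]; decide +kernel))
    (k2 _ he' _ hb' (by rw [ee, eb]; decide +kernel)) (k2 _ he' _ hc' (by rw [ee, ec]; decide +kernel))
    (Subgroup.mem_normalizer_fintype fun n hn => (hg n hn).1)).map π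
  rw [ht, map_pow, eg, show 8 * 42525 = 16 * 21262 + 8 from rfl, pow_add, pow_mul,
    show y ^ 16 = 1 by decide +kernel, one_pow, one_mul] at this
  exact absurd this.eq (by decide +kernel)

include C in
theorem e8_no19 (j : Γ →* chevE8.group L) (hj : Function.Injective j)
    (hL : Fintype.card L ≡ 1 [MOD 17]) (π : Γ →* alternatingGroup (Fin 19))
    (hπ : Function.Surjective π) : 17 ∣ Nat.card π.ker := by
  by_contra h
  let x : alternatingGroup (Fin 19) := ⟨c[0, 1, 2, 3, 4, 5, 6, 7, 8, 9, 10, 11, 12, 13, 14, 15, 16],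
    Perm.mem_alternatingGroup.2 (by decide +kernel)⟩
  let y : alternatingGroup (Fin 19) :=
    ⟨c[1, 3, 9, 10, 13, 5, 15, 11, 16, 14, 8, 7, 4, 12, 2, 6] * c[17, 18],
      Perm.mem_alternatingGroup.2 (by decide +kernel)⟩
  have e1 : y * x * y⁻¹ = x ^ 3 := by decide +kernel
  obtain ⟨P, h1, h2, h3, h4⟩ := lift_elab hπ h (S := {x})
    (by simp only [Set.mem_singleton_iff, forall_eq]; decide +kernel) (by simp)
  obtain ⟨a, ha, hax⟩ := h3 x rfl
  obtain ⟨g, -, hg⟩ := h4 y (by simp [e1, pow_mem (Subgroup.mem_closure_singleton_self x)])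
  obtain ⟨j', hj', h9⟩ := toral0 C hL (by rw [cardW_E8]; decide) j hj (P := P)
    fun x => ⟨1, Subtype.ext (by simpa using h1 x x.2)⟩
  obtain ⟨ζ, hζ⟩ := exists_prim hL
  obtain ⟨f, hf⟩ := exists_lab hζ (by decide) (h9 a ha) (by rw [← map_pow, h1 a ha, map_one])
  obtain ⟨w, -, hw'⟩ := exists_act' C j' g
  have := (hf.eq_one_iff hζ).2 (comb8_17 hf.1 (hw' hζ 3 hf hf
    (hg a ha _ (pow_mem ha 3) (by rw [map_pow, hax, e1]))))
  revert hax
  rw [hj' (this.trans (map_one j').symm), map_one]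
  decide +kernel

variable {K : Type} [Field K] [Fintype K] (p : ℕ) [Fact p.Prime] [CharP K p] {m : ℕ}
  (hL : Fintype.card K ≡ 1 [MOD m]) (j : Γ →* chevE8.group K) (hj : Function.Injective j)
  (π : Γ →* alternatingGroup (Fin 18)) (hπ : Function.Surjective π) (h3 : ¬ 3 ∣ Nat.card π.ker)
include hL hj hπ h3

theorem good8_11 (hm : 33 ∣ m) (hp : (3 * 11).Coprime p) (h11 : ¬ 11 ∣ Nat.card π.ker) (a : Γ)
    (ha : (π a).1 = c[0, 1, 2]) (ha3 : a ^ 3 = 1) : Good8 C m a := by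
  let v : alternatingGroup (Fin 18) := ⟨c[3, 4, 5, 6, 7, 8, 9, 10, 11, 12, 13],
    Perm.mem_alternatingGroup.2 (by decide +kernel)⟩
  let y : alternatingGroup (Fin 18) := ⟨c[4, 5, 7, 11, 8, 13, 12, 10, 6, 9] * c[14, 15],
    Perm.mem_alternatingGroup.2 (by decide +kernel)⟩
  obtain ⟨b, g, hb, h1, h2, h4, h5⟩ := lift_comm2 hπ h3 h11 ha3 (v := v) (y := y) (by decide +kernel)
    (Subtype.ext (by simp only [Subgroup.coe_mul, Subgroup.coe_inv, ha]; decide +kernel)) (k := 2) (l := 1)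
    (Subtype.ext (by simp only [Subgroup.coe_mul, Subgroup.coe_inv, pow_one, ha]; decide +kernel))
    (by decide +kernel)
  have hL' := hL.of_dvd ((by decide : 11 ∣ 33).trans hm)
  obtain ⟨j₁, hj₁, h6⟩ := toral0 C hL' (by rw [cardW_E8]; decide) j hj (isPGroup_zpowers h1)
  obtain ⟨ζ, hζ⟩ := exists_prim hL'
  obtain ⟨f, hf⟩ := exists_lab hζ (by decide) (h6 b (Subgroup.mem_zpowers b))
    (by rw [← map_pow, h1, map_one])
  obtain ⟨w, -, hw⟩ := exists_act' C j₁ g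
  obtain ⟨u, hu, _, h7, -, h8⟩ := alc_rat tabOKE8 tabN8 (by decide) hf.1 (hw hζ 2 hf hf h5) (fun e => by
    revert hb
    rw [hj₁ (((hf.eq_one_iff hζ).2 e).trans (map_one j₁).symm), map_one]
    decide +kernel) (by decide) _ thE8 alc8_11
  obtain rfl := List.mem_singleton.1 h7
  obtain ⟨j₂, hj₂, h9⟩ := exists_conj_lab C j₁ hj₁ hu
  exact e8_core C p hL ((by decide : 3 ∣ 33).trans hm) (by decide) hp j₂ hj₂ ha3 h1 h2 h4 h5 hζ (h9 hf)
    fun f' hf' w hw => good8_of (by decide) rfl (by decide) (by decide) cos8_11 cube8_11 hf' (h9 hf).1 h8 hw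

theorem good8_13 (hm : 195 ∣ m) (hp : (195).Coprime p) (h5 : ¬ 5 ∣ Nat.card π.ker)
    (h13 : ¬ 13 ∣ Nat.card π.ker) (a : Γ) (ha : (π a).1 = c[0, 1, 2]) (ha3 : a ^ 3 = 1) :
    Good8 C m a := by
  let v : alternatingGroup (Fin 18) := ⟨c[5, 6, 7, 8, 9, 10, 11, 12, 13, 14, 15, 16, 17],
    Perm.mem_alternatingGroup.2 (by decide +kernel)⟩
  let y : alternatingGroup (Fin 18) := ⟨c[6, 7, 9, 13, 8, 11, 17, 16, 14, 10, 15, 12] * c[3, 4],
    Perm.mem_alternatingGroup.2 (by decide +kernel)⟩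
  let z : alternatingGroup (Fin 18) := ⟨c[0, 1, 2, 3, 4], Perm.mem_alternatingGroup.2 (by decide +kernel)⟩
  let y' : alternatingGroup (Fin 18) := ⟨c[6, 7, 9, 13, 8, 11, 17, 16, 14, 10, 15, 12] * c[1, 2, 4, 3],
    Perm.mem_alternatingGroup.2 (by decide +kernel)⟩
  obtain ⟨b, g, hb, h1, h2, h4, h6⟩ := lift_comm2 hπ h3 h13 ha3 (v := v) (y := y) (by decide +kernel)
    (Subtype.ext (by simp only [Subgroup.coe_mul, Subgroup.coe_inv, ha]; decide +kernel)) (k := 2) (l := 1)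
    (Subtype.ext (by simp only [Subgroup.coe_mul, Subgroup.coe_inv, pow_one, ha]; decide +kernel))
    (by decide +kernel)
  obtain ⟨c, g', hc, e1, e2, e4, e6⟩ := lift_comm2 hπ h13 h5 h1 (v := z) (y := y') (by decide +kernel)
    (by rw [hb]; decide +kernel) (k := 2) (l := 2) (by rw [hb]; decide +kernel) (by decide +kernel)
  obtain ⟨L', _, _, _, hL', φ, hφ, h7, -⟩ := toral1 C inv8_ok p hL (j (b * c))
    (hp.coprime_dvd_left (orderOf_dvd_of_pow_eq_one (by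
      rw [← map_pow, e2.mul_pow, show 195 = 13 * 15 from rfl, pow_mul, h1,
        show 13 * 15 = 5 * 39 from rfl, pow_mul, e1]; simp)))
  have h8 : b ∈ (C.split L').H.comap (φ.comp j) := mem_of_mul_mem e2 h1 e1 (by decide) h7
  have h9 : c ∈ (C.split L').H.comap (φ.comp j) :=
    mem_of_mul_mem e2.symm e1 h1 (by decide) (e2.eq ▸ h7)
  have hj₁ : Function.Injective (φ.comp j) := hφ.comp hj
  obtain ⟨ζ, hζ⟩ := exists_prim (hL'.of_dvd ((by decide : 13 ∣ 195).trans hm))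
  obtain ⟨ξ, hξ⟩ := exists_prim (hL'.of_dvd ((by decide : 5 ∣ 195).trans hm))
  obtain ⟨f, hf⟩ := exists_lab hζ (by decide) h8 (by rw [← map_pow, h1, map_one])
  obtain ⟨f', hf'⟩ := exists_lab hξ (by decide) h9 (by rw [← map_pow, e1, map_one])
  obtain ⟨w, hw, hw'⟩ := exists_act' C (φ.comp j) g'
  obtain ⟨u, hu, h10⟩ := comb8_13 hf.1 hf'.1 hw (fun e => by
      revert hb
      rw [hj₁ (((hf.eq_one_iff hζ).2 e).trans (map_one _).symm), map_one]
      decide +kernel) (fun e => by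
      revert hc
      rw [hj₁ (((hf'.eq_one_iff hξ).2 e).trans (map_one _).symm), map_one]
      decide +kernel) (hw' hζ 2 hf hf e4) (hw' hξ 2 hf' hf' e6)
  obtain ⟨j₂, hj₂, h11⟩ := exists_conj_lab C _ hj₁ hu
  exact e8_core C p hL' ((by decide : 3 ∣ 195).trans hm) (by decide) (hp.coprime_dvd_left (by decide))
    j₂ hj₂ ha3 h1 h2 h4 h6 hζ (h11 hf) fun f' hf' w hw =>
      good8_of (by decide) rfl (by decide) (by decide) cos8_13 cube8_13 hf' (h11 hf).1 h10 hw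

end Cfsg.Agent.H29
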