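import Cfsg.Agent.H63.AnDefs2

/-!
# Project AN, piece W7L: lifting the wreath base over an odd normal subgroup
-/

set_option autoImplicit false

namespace Cfsg.Agent.H29.AnW7l

open Cfsg Cfsg.Agent.H63 Cfsg.Agent.H63.AN Subgroup
open Cfsg.Agent.H7.AA
open Equiv (Perm)
open Equiv.Perm (sign)

universe u

section

variable {G : Type u} [Group G] (Y : Subgroup G) [Y.Normal]

/-- `x` is a lift of `b` which centralises `Y` and has square one. -/
def Lf (x : G) (b : G ⧸ Y) : Prop :=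
  x ∈ centralizer (Y : Set G) ∧ x * x = 1 ∧ QuotientGroup.mk' Y x = b

variable {Y}

theorem Lf.uniq (ho : Odd (Nat.card Y)) {x y : G} {b : G ⧸ Y} (hx : Lf Y x b) (hy : Lf Y y b) :
    x = y := by
  have hz : x⁻¹ * y ∈ Y := QuotientGroup.eq.1 (hx.2.2.trans hy.2.2.symm)
  obtain ⟨z, rfl⟩ : ∃ z, y = x * z := ⟨x⁻¹ * y, by group⟩
  rw [inv_mul_cancel_left] at hz
  have c : z * x = x * z := hx.1 z hz
  have z2 : z ^ 2 = 1 := by
    have := hy.2.1
    rwa [mul_assoc, ← mul_assoc z, c, mul_assoc, ← mul_assoc, hx.2.1, one_mul, ← pow_two] at this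
  have zc : z ^ Nat.card Y = 1 := congrArg Subtype.val (pow_card_eq_one' (x := (⟨z, hz⟩ : Y)))
  obtain ⟨m, hm⟩ := ho
  rw [hm, pow_succ, pow_mul, z2, one_pow, one_mul] at zc
  rw [zc, mul_one]

theorem exists_lf (ho : Odd (Nat.card Y)) {b : G ⧸ Y}
    (hb : b ∈ (centralizer (Y : Set G)).map (QuotientGroup.mk' Y)) (b2 : b * b = 1) :
    ∃ x, Lf Y x b := by
  obtain ⟨n, hn, rfl⟩ := hb
  have h2 : n * n ∈ Y := by
    rw [← map_mul] at b2
    exact (QuotientGroup.eq_one_iff _).1 b2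
  refine ⟨n ^ Nat.card Y, pow_mem hn _, ?_, ?_⟩
  · rw [← (Commute.refl n).mul_pow]
    exact congrArg Subtype.val (pow_card_eq_one' (x := (⟨n * n, h2⟩ : Y)))
  · obtain ⟨m, hm⟩ := ho
    rw [map_pow, hm, pow_succ, pow_mul, pow_two, b2, one_pow, one_mul]

theorem Lf.conj {x : G} {b : G ⧸ Y} (hx : Lf Y x b) (g : G) :
    Lf Y (g * x * g⁻¹) (QuotientGroup.mk' Y g * b * (QuotientGroup.mk' Y g)⁻¹) :=
  ⟨Normal.conj_mem inferInstance _ hx.1 g, by rw [conj_mul, hx.2.1]; group,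
    by rw [map_mul, map_mul, map_inv, hx.2.2]⟩

theorem Lf.fix (ho : Odd (Nat.card Y)) {x g : G} {b : G ⧸ Y} (hx : Lf Y x b)
    (h : Commute (QuotientGroup.mk' Y g) b) : Commute g x := by
  have := hx.conj g
  rw [h.eq, mul_inv_cancel_right] at this
  exact mul_inv_eq_iff_eq_mul.1 (this.uniq ho hx)

theorem Lf.comm (ho : Odd (Nat.card Y)) {x y : G} {b c : G ⧸ Y} (hx : Lf Y x b) (hy : Lf Y y c)
    (h : Commute b c) : Commute x y :=
  hy.fix ho (hx.2.2 ▸ h)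

theorem Lf.mul (ho : Odd (Nat.card Y)) {x y : G} {b c : G ⧸ Y} (hx : Lf Y x b) (hy : Lf Y y c)
    (h : Commute b c) : Lf Y (x * y) (b * c) :=
  ⟨mul_mem hx.1 hy.1, by
    rw [mul_assoc, ← mul_assoc y, ← (hx.comm ho hy h).eq, mul_assoc, hy.2.1, mul_one, hx.2.1],
    by rw [map_mul, hx.2.2, hy.2.2]⟩

end

theorem d2_inv {α : Type} [Fintype α] [DecidableEq α] {w : Perm α} (h : IsD2 w) :
    sign w = 1 ∧ w * w = 1 := by
  obtain ⟨a, b, c, d, hn, rfl⟩ := h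
  exact ⟨sign_d2 (nodup4.1 hn).1 (nodup4.1 hn).2.2.2.2.2, (d2_kpair hn).aa⟩

/-- **W7L** -/
theorem w7l : W7lStmt.{u} := by
  intro G _ _ α _ _ χ t h Y _ ho hY φ hd
  have hN : ∀ σ, χ σ ∈ centralizer (Y : Set G) := fun σ y hy => mem_KA.1 (hY hy) σ
  have hφ : ∀ σ, φ σ ∈ (centralizer (Y : Set G)).map (QuotientGroup.mk' Y) := fun σ => by
    haveI : ((centralizer (Y : Set G)).map (QuotientGroup.mk' Y)).Normal :=
      Normal.map inferInstance _ (QuotientGroup.mk'_surjective Y)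
    refine normalClosure_le_normal ?_ (hd.le ⟨σ, rfl⟩)
    rintro _ ⟨τ, rfl⟩
    exact ⟨χ τ, hN τ, rfl⟩
  have ex : ∀ w : Perm α, ∃ x, sign w = 1 ∧ w * w = 1 → Lf Y x (ev φ w) := fun w => by
    by_cases hw : sign w = 1 ∧ w * w = 1
    · obtain ⟨x, hx⟩ := exists_lf ho (b := ev φ w) (by rw [ev_of hw.1]; exact hφ _)
        (by rw [← ev_mul hw.1 hw.1, hw.2, ev_one])
      exact ⟨x, fun _ => hx⟩
    · exact ⟨1, fun h => absurd h hw⟩
  choose f hf using ex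
  have ti : t⁻¹ = t := inv_eq_of_mul_eq_one_right h.t2
  set T := QuotientGroup.mk' Y t with hT
  have Ti : T⁻¹ = T := by rw [hT, ← map_inv, ti]
  have dg : ∀ σ, sign σ = 1 → QuotientGroup.mk' Y (ev χ σ) = ev φ σ * (T * ev φ σ * T) :=
    fun σ hσ => by rw [ev_of hσ, ev_of hσ]; exact hd.dg _
  have cm : ∀ σ τ, sign σ = 1 → sign τ = 1 → Commute (ev φ σ) (T * ev φ τ * T) :=
    fun σ τ hσ hτ => by rw [ev_of hσ, ev_of hτ]; exact hd.cm _ _
  have ht : ∀ w, sign w = 1 ∧ w * w = 1 → Lf Y (t * f w * t) (T * ev φ w * T) := fun w hw => by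
    have := (hf w hw).conj t
    rwa [← hT, ti, Ti] at this
  have key : ∀ w, sign w = 1 ∧ w * w = 1 → f w * (t * f w * t) = ev χ w := fun w hw =>
    ((hf w hw).mul ho (ht w hw) (cm w w hw.1 hw.1)).uniq ho
      ⟨by rw [ev_of hw.1]; exact hN _, by rw [← ev_mul hw.1 hw.1, hw.2, ev_one], dg w hw.1⟩
  refine ⟨f, fun w hw => (hf w (d2_inv hw.1)).2.1, fun w hw => ?_, fun w hw a ha => ?_,
    fun v v' hv hv' hvv c => ?_, fun w w' hw hw' => ?_, fun w hw k hk kt ko => ?_⟩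
  · have hw := d2_inv hw.1
    rw [KA_ev h.tK, ← key w hw, inv_eq_of_mul_eq_one_right (hf w hw).2.1, mul_assoc (f w),
      mul_assoc (f w), mul_assoc (t * f w), h.t2, mul_one]
  · have hw := d2_inv hw.1
    have ha : sign a = 1 := Equiv.Perm.mem_alternatingGroup.1 ha.2
    refine ((hf w hw).conj _).uniq ho ?_
    rw [dg a ha, show ∀ x y z : G ⧸ Y, x * y * z * (x * y)⁻¹ = x * (y * z * y⁻¹) * x⁻¹ from
      fun _ _ _ => by group, ← (cm w a hw.1 ha).eq, mul_inv_cancel_right, ← ev_conj ha hw.1]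
    exact hf _ ⟨by rw [sign_conj', hw.1], by rw [conj_mul, hw.2]; group⟩
  · have hv := d2_inv hv.1
    have hv' := d2_inv hv'.1
    refine (hf _ (d2_inv hvv.1)).uniq ho ?_
    rw [ev_mul hv.1 hv'.1]
    exact (hf v hv).mul ho (hf v' hv') (ev_comm hv.1 hv'.1 c.eq)
  · have hw := d2_inv hw.1
    have hw' := d2_inv hw'.1
    rw [← key w' hw', ← mul_assoc, (hf w' hw').2.1, one_mul]
    exact (hf w hw).comm ho (ht w' hw') (cm w w' hw.1 hw'.1)
  · have hw := d2_inv hw.1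
    refine ((hf w hw).fix ho ?_).symm
    rw [ev_of hw.1]
    refine hd.cO _ (mem_KA.2 fun σ => ?_) (kt.map _) (ko.of_dvd_nat (orderOf_map_dvd _ k)) _
    rw [MonoidHom.comp_apply, ← map_mul, ← map_mul, mem_KA.1 hk σ]

end Cfsg.Agent.H29.AnW7l
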