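import Mathlib

/-! Coverings of a group by the conjugates of two proper subgroups: general tools. -/

set_option autoImplicit false

namespace Cfsg.Agent.H29.Cv

open Module Polynomial

section Grp

/-- `G` is the union of the conjugates of two proper subgroups. -/
def Cov (G : Type*) [Group G] : Prop :=
  ∃ H K : Subgroup G, H ≠ ⊤ ∧ K ≠ ⊤ ∧ ∀ g : G, ∃ x : G, x * g * x⁻¹ ∈ H ∨ x * g * x⁻¹ ∈ K

/-- The same with both subgroups containing `Z`. -/
def CovZ {G : Type*} [Group G] (Z : Set G) : Prop :=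
  ∃ H K : Subgroup G, Z ⊆ H ∧ Z ⊆ K ∧ H ≠ ⊤ ∧ K ≠ ⊤ ∧
    ∀ g : G, ∃ x : G, x * g * x⁻¹ ∈ H ∨ x * g * x⁻¹ ∈ K

variable {G G' : Type*} [Group G] [Group G']

theorem CovZ.quot (e : G ≃* G') {Z : Set G'} (h : CovZ Z) (N : Subgroup G) [N.Normal]
    (hN : ∀ z ∈ N, e z ∈ Z) : Cov (G ⧸ N) := by
  obtain ⟨H, K, a, b, c, d, f⟩ := h
  have key : ∀ H : Subgroup G', Z ⊆ H → H ≠ ⊤ →
      (H.comap e.toMonoidHom).map (QuotientGroup.mk' N) ≠ ⊤ := fun H h1 h2 h3 => by
    apply h2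
    rw [eq_top_iff]
    intro y _
    obtain ⟨x, rfl⟩ := e.surjective y
    obtain ⟨w, hw, h4⟩ : QuotientGroup.mk' N x ∈ (H.comap e.toMonoidHom).map (QuotientGroup.mk' N) :=
      h3 ▸ Subgroup.mem_top _
    have h5 := H.mul_mem (show e w ∈ H from hw) (h1 (hN _ (QuotientGroup.eq.1 h4)))
    rwa [← map_mul, mul_inv_cancel_left] at h5
  refine ⟨_, _, key H a c, key K b d, fun g => ?_⟩
  obtain ⟨g, rfl⟩ := QuotientGroup.mk'_surjective N g
  obtain ⟨x, hx⟩ := f (e g)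
  obtain ⟨x, rfl⟩ := e.surjective x
  refine ⟨QuotientGroup.mk' N x, ?_⟩
  rw [← map_inv, ← map_mul, ← map_mul] at hx ⊢
  exact hx.imp (fun h => ⟨_, h, rfl⟩) fun h => ⟨_, h, rfl⟩

theorem CovZ.cov (e : G ≃* G') {Z : Set G'} (h : CovZ Z) : Cov G := by
  obtain ⟨H, K, -, -, c, d, f⟩ := h
  have key : ∀ H : Subgroup G', H ≠ ⊤ → H.comap e.toMonoidHom ≠ ⊤ := fun H h2 h3 => by
    apply h2
    rw [eq_top_iff]
    intro y _
    obtain ⟨x, rfl⟩ := e.surjective y
    exact (h3 ▸ Subgroup.mem_top x : x ∈ H.comap e.toMonoidHom)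
  refine ⟨_, _, key H c, key K d, fun g => ?_⟩
  obtain ⟨x, hx⟩ := f (e g)
  obtain ⟨x, rfl⟩ := e.surjective x
  refine ⟨x, ?_⟩
  rw [← map_inv, ← map_mul, ← map_mul] at hx
  exact hx

/-- A family of pairwise conjugate proper subgroups containing `Z`. -/
structure Cls {I : Type*} (Z : Set G) (P : I → Prop) (H : I → Subgroup G) : Prop where
  conj : ∀ i j, P i → P j → ∃ x : G, ∀ g ∈ H i, x * g * x⁻¹ ∈ H j
  ne : ∀ i, P i → H i ≠ ⊤
  sc : ∀ i, P i → Z ⊆ H i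

theorem covZ_of {I J : Type*} {Z : Set G} {P : I → Prop} {H : I → Subgroup G} {Q : J → Prop}
    {K : J → Subgroup G} (h1 : Cls Z P H) (h2 : Cls Z Q K)
    (h : ∀ g, (∃ i, P i ∧ g ∈ H i) ∨ ∃ j, Q j ∧ g ∈ K j) : CovZ Z := by
  by_cases a : ∃ i, P i
  · obtain ⟨i, hi⟩ := a
    by_cases b : ∃ j, Q j
    · obtain ⟨j, hj⟩ := b
      refine ⟨H i, K j, h1.sc i hi, h2.sc j hj, h1.ne i hi, h2.ne j hj, fun g => ?_⟩
      rcases h g with ⟨k, hk, hg⟩ | ⟨k, hk, hg⟩
      · obtain ⟨x, hx⟩ := h1.conj k i hk hi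
        exact ⟨x, Or.inl (hx g hg)⟩
      · obtain ⟨x, hx⟩ := h2.conj k j hk hj
        exact ⟨x, Or.inr (hx g hg)⟩
    · refine ⟨H i, H i, h1.sc i hi, h1.sc i hi, h1.ne i hi, h1.ne i hi, fun g => ?_⟩
      rcases h g with ⟨k, hk, hg⟩ | ⟨k, hk, hg⟩
      · obtain ⟨x, hx⟩ := h1.conj k i hk hi
        exact ⟨x, Or.inl (hx g hg)⟩
      · exact absurd ⟨k, hk⟩ b
  · obtain ⟨j, hj, -⟩ := (h 1).resolve_left fun ⟨i, hi, _⟩ => a ⟨i, hi⟩
    refine ⟨K j, K j, h2.sc j hj, h2.sc j hj, h2.ne j hj, h2.ne j hj, fun g => ?_⟩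
    rcases h g with ⟨k, hk, hg⟩ | ⟨k, hk, hg⟩
    · exact absurd ⟨k, hk⟩ a
    · obtain ⟨x, hx⟩ := h2.conj k j hk hj
      exact ⟨x, Or.inr (hx g hg)⟩

/-- A submonoid of a finite group as a subgroup. -/
def finSub [Finite G] (S : Submonoid G) : Subgroup G where
  toSubmonoid := S
  inv_mem' {x} hx := by
    have h : x⁻¹ ∈ Submonoid.powers x := mem_powers_iff_mem_zpowers.2 (inv_mem (Subgroup.mem_zpowers x))
    exact (Submonoid.powers_le.2 hx) h

end Grp

section Lin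

variable {F V : Type*} [Field F] [AddCommGroup V] [Module F V]

/-- The scalar elements of a linear group. -/
def Sc (Γ : Subgroup (V ≃ₗ[F] V)) : Set Γ := {z | ∃ c : F, ∀ v, z.1 v = c • v}

/-- The stabiliser of a set of vectors. -/
def stW (Γ : Subgroup (V ≃ₗ[F] V)) [Finite Γ] (W : Set V) : Subgroup Γ :=
  finSub
    { carrier := {g | ∀ v ∈ W, g.1 v ∈ W}
      mul_mem' := fun ha hb v hv => ha _ (hb v hv)
      one_mem' := fun _ hv => hv }

/-- The normaliser of a set of endomorphisms. -/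
def stE (Γ : Subgroup (V ≃ₗ[F] V)) [Finite Γ] (S : Set (End F V)) : Subgroup Γ :=
  finSub
    { carrier := {g | ∀ f ∈ S, ∃ f' ∈ S, ∀ v, g.1 (f v) = f' (g.1 v)}
      mul_mem' := fun {a b} ha hb f hf => by
        obtain ⟨f1, h1, e1⟩ := hb f hf
        obtain ⟨f2, h2, e2⟩ := ha f1 h1
        exact ⟨f2, h2, fun v => by
          change a.1 (b.1 (f v)) = f2 (a.1 (b.1 v))
          rw [e1, e2]⟩
      one_mem' := fun f hf => ⟨f, hf, fun _ => rfl⟩ }

variable {Γ : Subgroup (V ≃ₗ[F] V)} [Finite Γ]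

theorem mem_stW {W : Set V} {g : Γ} : g ∈ stW Γ W ↔ ∀ v ∈ W, g.1 v ∈ W := Iff.rfl

theorem mem_stE {S : Set (End F V)} {g : Γ} :
    g ∈ stE Γ S ↔ ∀ f ∈ S, ∃ f' ∈ S, ∀ v, g.1 (f v) = f' (g.1 v) := Iff.rfl

theorem conj_apply (x g : Γ) (v : V) : (x * g * x⁻¹).1 v = x.1 (g.1 (x.1.symm v)) := rfl

theorem stW_conj {W W' : Set V} (x : Γ) (h : x.1 '' W = W') {g : Γ} (hg : g ∈ stW Γ W) :
    x * g * x⁻¹ ∈ stW Γ W' := by
  subst h
  rintro _ ⟨v, hv, rfl⟩
  rw [conj_apply, LinearEquiv.symm_apply_apply]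
  exact ⟨_, hg v hv, rfl⟩

theorem stW_conj' {W W' : Submodule F V} (x : Γ) (h : W.map (x.1 : V →ₗ[F] V) = W') {g : Γ}
    (hg : g ∈ stW Γ (W : Set V)) : x * g * x⁻¹ ∈ stW Γ (W' : Set V) :=
  stW_conj x (by rw [← h]; rfl) hg

theorem sc_stW (W : Submodule F V) : Sc Γ ⊆ stW Γ (W : Set V) := by
  rintro z ⟨c, hc⟩ v hv
  rw [hc]
  exact W.smul_mem c hv

theorem sc_stE (S : Set (End F V)) : Sc Γ ⊆ stE Γ S := by
  rintro z ⟨c, hc⟩ f hf
  exact ⟨f, hf, fun v => by rw [hc, hc, map_smul]⟩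

theorem stE_conj {E : Type*} {ι ι' : E → End F V} (x : Γ)
    (h : ∀ e v, x.1 (ι e v) = ι' e (x.1 v)) {g : Γ} (hg : g ∈ stE Γ (Set.range ι)) :
    x * g * x⁻¹ ∈ stE Γ (Set.range ι') := by
  rintro _ ⟨e, rfl⟩
  obtain ⟨_, ⟨e', rfl⟩, h1⟩ := hg _ ⟨e, rfl⟩
  refine ⟨_, ⟨e', rfl⟩, fun v => ?_⟩
  obtain ⟨v, rfl⟩ := x.1.surjective v
  rw [← h, conj_apply, conj_apply, LinearEquiv.symm_apply_apply, LinearEquiv.symm_apply_apply, h1, h]

theorem mem_stW_span {g : Γ} {v : V} {c : F} (h : g.1 v = c • v) :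
    g ∈ stW Γ ((F ∙ v : Submodule F V) : Set V) := by
  intro w hw
  obtain ⟨a, rfl⟩ := Submodule.mem_span_singleton.1 hw
  rw [map_smul, h, smul_smul]
  exact Submodule.smul_mem _ _ (Submodule.mem_span_singleton_self v)

variable {E : Type*} [Field E] [Algebra F E]

theorem hom_eq_zero (ι : E →ₐ[F] End F V) {e : E} {v : V} (h : ι e v = 0) (hv : v ≠ 0) : e = 0 := by
  by_contra he
  apply hv
  have : ι (e⁻¹ * e) v = 0 := by rw [map_mul, End.mul_apply, h, map_zero]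
  rwa [inv_mul_cancel₀ he, map_one] at this

theorem hom_algebraMap (ι : E →ₐ[F] End F V) (c : F) (v : V) : ι (algebraMap F E c) v = c • v := by
  rw [ι.commutes, Module.algebraMap_end_apply]

theorem exists_not_mem_range (h : finrank F E ≠ 1) : ∃ e : E, ∀ c, algebraMap F E c ≠ e := by
  by_contra! h1
  exact h (Module.finrank_of_bijective_algebraMap ⟨(algebraMap F E).injective, h1⟩)

/-- An element commuting with a rank one perturbation of a scalar is a scalar. -/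
theorem scalar_of_comm (ι : E →ₐ[F] End F V) {t : V → V} {l : F} {φ : Dual F V} {u : V}
    (ht : ∀ v, t v = l • v + φ v • u) (hu : u ≠ 0) (hφ : φ ≠ 0) {e : E}
    (h : ∀ v, t (ι e v) = ι e (t v)) : ∃ c, algebraMap F E c = e := by
  obtain ⟨v, hv⟩ : ∃ v, φ v ≠ 0 := by
    by_contra! h1
    exact hφ (LinearMap.ext h1)
  have h1 := h v
  rw [ht, ht, map_add, map_smul, map_smul, add_right_inj] at h1
  refine ⟨φ (ι e v) / φ v, (sub_eq_zero.1 (hom_eq_zero ι (v := φ v • u) ?_ (smul_ne_zero hv hu)))⟩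
  rw [map_sub, LinearMap.sub_apply, hom_algebraMap, map_smul, ← h1, smul_smul,
    div_mul_cancel₀ _ hv, sub_self]

theorem not_mem_stE [FiniteDimensional F V] (h3 : 3 ≤ finrank F V) (hE : finrank F E ≠ 1)
    (ι : E →ₐ[F] End F V) {t : Γ} {l : F} {φ : Dual F V} {u : V}
    (ht : ∀ v, t.1 v = l • v + φ v • u) (hu : u ≠ 0) (hφ : φ ≠ 0) :
    t ∉ stE Γ (Set.range ι) := by
  intro h
  obtain ⟨e, he⟩ := exists_not_mem_range hE
  obtain ⟨_, ⟨e', rfl⟩, h1⟩ := h _ ⟨e, rfl⟩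
  obtain ⟨v, hv, hv0⟩ : ∃ v ∈ LinearMap.ker (φ.prod (φ ∘ₗ ι e)), v ≠ 0 := by
    apply Submodule.exists_mem_ne_zero_of_ne_bot
    apply LinearMap.ker_ne_bot_of_finrank_lt
    simp only [finrank_prod, finrank_self]
    omega
  obtain ⟨a, b⟩ : φ v = 0 ∧ φ (ι e v) = 0 := by simpa using hv
  have h2 := h1 v
  rw [ht, ht, a, b, zero_smul, add_zero, add_zero] at h2
  have h3 : l • v ≠ 0 := by
    have := t.1.map_ne_zero_iff.2 hv0
    rwa [ht, a, zero_smul, add_zero] at this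
  obtain rfl : e = e' := sub_eq_zero.1 (hom_eq_zero ι (by
    rw [map_sub, LinearMap.sub_apply, ← h2, map_smul, sub_self]) h3)
  obtain ⟨c, hc⟩ := scalar_of_comm ι ht hu hφ h1
  exact he c hc

/-- The space `V` as a vector space over the bigger field. -/
@[nolint unusedArguments]
def MV (_ι : E →ₐ[F] End F V) : Type _ := V

instance (ι : E →ₐ[F] End F V) : AddCommGroup (MV ι) := inferInstanceAs (AddCommGroup V)
instance (ι : E →ₐ[F] End F V) : Module F (MV ι) := inferInstanceAs (Module F V)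
instance (ι : E →ₐ[F] End F V) : Module E (MV ι) := Module.compHom V ι.toRingHom

/-- The identity map. -/
def toMV (ι : E →ₐ[F] End F V) : V ≃ₗ[F] MV ι := LinearEquiv.refl F V

theorem smul_toMV (ι : E →ₐ[F] End F V) (e : E) (v : V) : e • toMV ι v = toMV ι (ι e v) := rfl

instance (ι : E →ₐ[F] End F V) : IsScalarTower F E (MV ι) :=
  ⟨fun c e v => by
    change ι (c • e) v = c • ι e v
    rw [map_smul]; rfl⟩

theorem finrank_MV (ι : E →ₐ[F] End F V) : finrank F E * finrank E (MV ι) = finrank F V :=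
  (finrank_mul_finrank F E (MV ι)).trans (toMV ι).finrank_eq.symm

instance [FiniteDimensional F V] (ι : E →ₐ[F] End F V) : FiniteDimensional F (MV ι) :=
  inferInstanceAs (FiniteDimensional F V)

instance [FiniteDimensional F V] (ι : E →ₐ[F] End F V) : FiniteDimensional E (MV ι) :=
  Module.Finite.of_restrictScalars_finite F E _

theorem exists_conj_det [Finite E] [FiniteDimensional F V] [Nontrivial V]
    (ι ι' : E →ₐ[F] End F V) : ∃ x : V ≃ₗ[F] V, LinearEquiv.det x = 1 ∧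
      ∀ e v, x (ι e v) = ι' e (x v) := by
  have h0 : 0 < finrank F E := finrank_pos
  have h1 : finrank E (MV ι) = finrank E (MV ι') :=
    Nat.eq_of_mul_eq_mul_left h0 ((finrank_MV ι).trans (finrank_MV ι').symm)
  let y : MV ι ≃ₗ[E] MV ι' := LinearEquiv.ofFinrankEq _ _ h1
  let x : V ≃ₗ[F] V := (toMV ι).trans ((y.restrictScalars F).trans (toMV ι').symm)
  have hx : ∀ e v, x (ι e v) = ι' e (x v) := fun e v => y.map_smul e (toMV ι v)
  obtain ⟨r, hr⟩ := FiniteField.norm_surjective F E ((LinearEquiv.det x)⁻¹ : Fˣ)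
  have hr0 : r ≠ 0 := by
    rintro rfl
    rw [Algebra.norm_zero] at hr
    exact Units.ne_zero _ hr.symm
  obtain ⟨v, hv⟩ := exists_ne (0 : V)
  obtain ⟨φ, hφ⟩ := Module.Projective.exists_dual_eq_one E (show toMV ι v ≠ 0 from hv)
  let z : MV ι →ₗ[E] MV ι := LinearMap.transvection ((r - 1) • φ) (toMV ι v)
  have hz : LinearMap.det z = r := by
    rw [LinearMap.transvection.det, LinearMap.smul_apply, hφ, smul_eq_mul]; ring
  let z' : End F V := z.restrictScalars F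
  have hz' : LinearMap.det z' = ((LinearEquiv.det x)⁻¹ : Fˣ) := by
    rw [← hr, ← hz]
    exact LinearMap.det_restrictScalars (R := F) (f := z)
  let w : V ≃ₗ[F] V := LinearMap.equivOfIsUnitDet (f := z') (by rw [hz']; exact Units.isUnit _)
  have hw : (w : V →ₗ[F] V) = z' := LinearMap.coe_equivOfIsUnitDet _
  refine ⟨x * w, ?_, fun e v => ?_⟩
  · rw [map_mul, mul_eq_one_iff_eq_inv, eq_comm, inv_eq_iff_eq_inv]
    ext
    rw [LinearEquiv.coe_det, hw, hz']
  · rw [LinearEquiv.mul_apply, LinearEquiv.mul_apply, ← hx]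
    congr 1
    change (w : V →ₗ[F] V) _ = ι e ((w : V →ₗ[F] V) v)
    rw [hw]
    exact z.map_smul e (toMV ι v)

/-- A copy of the field `E` inside `F[g]`. -/
theorem exists_hom [Finite E] (g : End F V) {χ : F[X]} (h0 : χ ≠ 0) (hχ : aeval g χ = 0)
    (h : ∀ f : F[X], Irreducible f → f ∣ χ → finrank F E ∣ f.natDegree) :
    ∃ ι : E →ₐ[F] End F V, ∀ e, ∃ p : F[X], ι e = aeval g p := by
  have : Finite F := Finite.of_injective _ (algebraMap F E).injective
  have : Module.Finite F (AdjoinRoot χ) := (AdjoinRoot.powerBasis h0).finite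
  have : IsArtinianRing (AdjoinRoot χ) := IsArtinianRing.of_finite F _
  have : Finite (AdjoinRoot χ) := Module.finite_of_finite F
  have key : ∀ m : MaximalSpectrum (AdjoinRoot χ), Nonempty (E →ₐ[F] AdjoinRoot χ ⧸ m.asIdeal) := by
    intro m
    have := m.isMaximal
    letI := Ideal.Quotient.field m.asIdeal
    have : Finite (AdjoinRoot χ ⧸ m.asIdeal) := Finite.of_surjective _ Ideal.Quotient.mk_surjective
    let a := Ideal.Quotient.mkₐ F m.asIdeal (AdjoinRoot.root χ)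
    have ha : IsIntegral F a := Algebra.IsIntegral.isIntegral a
    refine FiniteField.nonempty_algHom_of_finrank_dvd ((h _ (minpoly.irreducible ha)
      (minpoly.dvd F a ?_)).trans (minpoly.degree_dvd ha))
    rw [aeval_algHom_apply, AdjoinRoot.aeval_eq, AdjoinRoot.mk_self, map_zero]
  have : Algebra.FormallyEtale F E := Algebra.FormallyEtale.of_isSeparable F E
  let f1 : E →ₐ[F] ∀ m : MaximalSpectrum (AdjoinRoot χ), AdjoinRoot χ ⧸ m.asIdeal :=
    AlgHom.pi fun m => (key m).some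
  let f2 : E →ₐ[F] AdjoinRoot χ := Algebra.FormallySmooth.lift _
    IsArtinianRing.isNilpotent_nilradical
    (((IsArtinianRing.quotNilradicalEquivPi (AdjoinRoot χ)).symm.restrictScalars F).toAlgHom.comp f1)
  let f3 : AdjoinRoot χ →ₐ[F] End F V := Ideal.Quotient.liftₐ (Ideal.span {χ}) (aeval g) (by
    intro a ha
    obtain ⟨b, rfl⟩ := Ideal.mem_span_singleton.1 ha
    rw [map_mul, hχ, zero_mul])
  refine ⟨f3.comp f2, fun e => ?_⟩
  obtain ⟨p, hp⟩ := AdjoinRoot.mk_surjective (f2 e)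
  exact ⟨p, by rw [AlgHom.comp_apply, ← hp]; rfl⟩

end Lin

end Cfsg.Agent.H29.Cv
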