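import Cfsg.Agent.H29.CvA
import Cfsg.Agent.H26.SLTrans

/-! Two classes of subgroups cover `PSL₂`, `PSL₃`, `PSL₄`. -/

set_option autoImplicit false

namespace Cfsg.Agent.H29.Cv

open Module Polynomial Matrix

section Poly

variable {F : Type*} [Field F]

theorem exists_root_of_deg_one {f χ : F[X]} (h : f ∣ χ) (h1 : f.natDegree = 1) :
    ∃ a, χ.IsRoot a := by
  obtain ⟨a, ha⟩ := exists_root_of_degree_eq_one (p := f)
    ((degree_eq_iff_natDegree_eq_of_pos one_pos).2 h1)
  exact ⟨a, ha.dvd h⟩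

theorem deg_factor {f χ : F[X]} (h0 : χ ≠ 0) (hr : ∀ a, ¬ χ.IsRoot a) (hf : Irreducible f)
    (h : f ∣ χ) : 2 ≤ f.natDegree ∧ f.natDegree ≤ χ.natDegree ∧ f.natDegree + 1 ≠ χ.natDegree := by
  have h1 := hf.natDegree_pos
  have h2 : f.natDegree ≠ 1 := fun e => by
    obtain ⟨a, ha⟩ := exists_root_of_deg_one h e
    exact hr a ha
  refine ⟨by omega, natDegree_le_of_dvd h h0, fun e => ?_⟩
  obtain ⟨g, rfl⟩ := h
  rw [natDegree_mul (left_ne_zero_of_mul h0) (right_ne_zero_of_mul h0)] at e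
  obtain ⟨a, ha⟩ := exists_root_of_deg_one (dvd_mul_left g f) (by omega)
  exact hr a ha

end Poly

section Lin

variable {F V : Type*} [Field F] [AddCommGroup V] [Module F V]
  {Γ : Subgroup (V ≃ₗ[F] V)} [Finite Γ] {E : Type*} [Field E] [Algebra F E]

theorem aeval_comm (g : End F V) (p : F[X]) (v : V) : g (aeval g p v) = aeval g p (g v) := by
  have : g * aeval g p = aeval g p * g := by
    have h := congrArg (aeval g) (mul_comm X p)
    rwa [map_mul, map_mul, aeval_X] at h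
  exact LinearMap.congr_fun this v

theorem eig_or_hom [Finite E] [FiniteDimensional F V] (g : End F V)
    (h : ∀ d, 2 ≤ d → d ≤ finrank F V → d + 1 ≠ finrank F V → finrank F E ∣ d) :
    (∃ v, v ≠ 0 ∧ ∃ c : F, g v = c • v) ∨
      ∃ ι : E →ₐ[F] End F V, ∀ e, ∃ p : F[X], ι e = aeval g p := by
  by_cases hr : ∃ a, g.charpoly.IsRoot a
  · obtain ⟨a, ha⟩ := hr
    obtain ⟨v, hv⟩ := ((g.hasEigenvalue_iff_isRoot_charpoly a).2 ha).exists_hasEigenvector
    exact Or.inl ⟨v, hv.2, a, hv.apply_eq_smul⟩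
  · refine Or.inr (exists_hom g g.charpoly_monic.ne_zero g.aeval_self_charpoly fun f hf hd => ?_)
    obtain ⟨a, b, c⟩ := deg_factor g.charpoly_monic.ne_zero (not_exists.1 hr) hf hd
    rw [g.charpoly_natDegree] at b c
    exact h _ a b c

theorem mem_stE_of_poly {g : Γ} {ι : E → End F V}
    (h : ∀ e, ∃ p : F[X], ι e = aeval (g.1 : End F V) p) : g ∈ stE Γ (Set.range ι) := by
  rintro _ ⟨e, rfl⟩
  refine ⟨_, ⟨e, rfl⟩, fun v => ?_⟩
  obtain ⟨p, hp⟩ := h e
  rw [hp]
  exact aeval_comm (g.1 : End F V) p v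

theorem sq_rel (hE : finrank F E = 2) {e : E} (he : ∀ c, algebraMap F E c ≠ e) :
    ∃ a b : F, e * e = a • e + b • (1 : E) := by
  have : FiniteDimensional F E := Module.finite_of_finrank_pos (by omega)
  have hli : LinearIndependent F ![e, 1] := LinearIndependent.pair_iff.2 fun s t h => by
    by_cases hs : s = 0
    · simpa [hs] using h
    · exfalso
      apply he (-t / s)
      rw [Algebra.algebraMap_eq_smul_one, div_eq_inv_mul, mul_smul, neg_smul,
        ← eq_neg_of_add_eq_zero_left h, smul_smul, inv_mul_cancel₀ hs, one_smul]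
  have h1 := hli.span_eq_top_of_card_eq_finrank' (by simp [hE])
  have h2 : e * e ∈ Submodule.span F {e, 1} := by
    have : Set.range ![e, 1] = {e, 1} := Matrix.range_cons_cons_empty _ _ _
    rw [← this, h1]; trivial
  obtain ⟨a, b, h⟩ := Submodule.mem_span_pair.1 h2
  exact ⟨a, b, h.symm⟩

theorem not_mem_stE_two (hE : finrank F E = 2) (ι : E →ₐ[F] End F V) {t t' : Γ} {c c' : F}
    {φ : Dual F V} {u : V} (ht : ∀ v, t.1 v = v + (c * φ v) • u)
    (ht' : ∀ v, t'.1 v = v + (c' * φ v) • u) (hu : u ≠ 0) (hφ : φ ≠ 0) (hc : c ≠ 0) (hc' : c' ≠ 0)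
    (hcc : c ≠ c') : ¬ (t ∈ stE Γ (Set.range ι) ∧ t' ∈ stE Γ (Set.range ι)) := by
  rintro ⟨h, h'⟩
  obtain ⟨e, he⟩ := exists_not_mem_range (F := F) (E := E) (by omega)
  obtain ⟨a, b, hab⟩ := sq_rel hE he
  have key : ∀ {t : Γ} {c : F}, (∀ v, t.1 v = v + (c * φ v) • u) → c ≠ 0 →
      t ∈ stE Γ (Set.range ι) → ∀ v, t.1 (ι e v) = ι (a • (1 : E) - e) (t.1 v) := by
    intro t c ht hc h
    obtain ⟨_, ⟨e', rfl⟩, h1⟩ := h _ ⟨e, rfl⟩
    have h2 : e' * e' - (a • e' + b • (1 : E)) = 0 := by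
      refine hom_eq_zero ι (v := t.1 u) ?_ (t.1.map_ne_zero_iff.2 hu)
      rw [map_sub, map_mul, LinearMap.sub_apply, End.mul_apply, ← h1, ← h1, ← End.mul_apply,
        ← map_mul, hab]
      simp [h1]
    have h3 : (e' - e) * (e' - (a • (1 : E) - e)) = 0 := by
      rw [Algebra.smul_def] at h2 hab ⊢
      linear_combination h2 - hab
    rcases mul_eq_zero.1 h3 with h4 | h4
    · rw [sub_eq_zero.1 h4] at h1
      obtain ⟨d, hd⟩ := scalar_of_comm ι (l := 1) (φ := c • φ) (u := u)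
        (fun v => by rw [ht, one_smul]; rfl) hu (smul_ne_zero hc hφ) h1
      exact absurd hd (he d)
    · rwa [sub_eq_zero.1 h4] at h1
  obtain ⟨v, hv⟩ : ∃ v, φ v ≠ 0 := by
    by_contra! h1
    exact hφ (LinearMap.ext h1)
  have h1 := key ht hc h v
  have h2 := key ht' hc' h' v
  rw [ht, ht, map_add, map_smul] at h1
  rw [ht', ht', map_add, map_smul] at h2
  have h3 : ((c - c') * φ (ι e v)) • u = ((c - c') * φ v) • ι (a • (1 : E) - e) u := by
    linear_combination (norm := module) h1 - h2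
  have h4 : (c - c') * φ v ≠ 0 := mul_ne_zero (sub_ne_zero.2 hcc) hv
  apply he (a - φ (ι e v) / φ v)
  refine sub_eq_zero.1 (hom_eq_zero ι (v := ((c - c') * φ v) • u) ?_ (smul_ne_zero h4 hu))
  have h5 : algebraMap F E (a - φ (ι e v) / φ v) - e =
      (a • (1 : E) - e) - algebraMap F E (φ (ι e v) / φ v) := by
    rw [map_sub, Algebra.smul_def]; ring
  rw [h5, map_sub, LinearMap.sub_apply, hom_algebraMap, map_smul, ← h3, smul_smul, ← sub_smul]
  convert zero_smul F u
  field_simp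
  ring

end Lin

section SL

variable {F : Type} [Field F] [Fintype F] {n : ℕ}

instance finite_equiv {F V : Type*} [Field F] [AddCommGroup V] [Module F V] [Finite V] :
    Finite (V ≃ₗ[F] V) := Finite.of_injective _ DFunLike.coe_injective

variable (n F) in
/-- The special linear group of the column space. -/
noncomputable abbrev slG : Subgroup ((Fin n → F) ≃ₗ[F] (Fin n → F)) := LinearEquiv.det.ker

theorem toLin'_mem (A : SpecialLinearGroup (Fin n) F) : SpecialLinearGroup.toLin' A ∈ slG F n := by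
  rw [MonoidHom.mem_ker]
  ext
  rw [LinearEquiv.coe_det, SpecialLinearGroup.toLin'_to_linearMap, LinearMap.det_toLin', A.2]
  rfl

variable (n F) in
/-- Matrices as linear maps. -/
noncomputable def slE : SpecialLinearGroup (Fin n) F ≃* slG F n :=
  MulEquiv.ofBijective (SpecialLinearGroup.toLin'.codRestrict _ toLin'_mem)
    ⟨fun _ _ h => SpecialLinearGroup.toLin'_injective (congrArg Subtype.val h), fun g =>
      ⟨⟨LinearMap.toMatrix' (g.1 : (Fin n → F) →ₗ[F] (Fin n → F)), by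
        rw [LinearMap.det_toMatrix', ← LinearEquiv.coe_det, g.2]; rfl⟩,
        Subtype.ext (LinearEquiv.ext fun v => LinearMap.toMatrix'_mulVec _ v)⟩⟩

theorem slE_apply (A : SpecialLinearGroup (Fin n) F) (v : Fin n → F) :
    (slE F n A).1 v = A.1 *ᵥ v := rfl

theorem cls_pt (hn : 2 ≤ n) : Cls (Sc (slG F n)) (fun v : Fin n → F => v ≠ 0)
    fun v => stW (slG F n) ((F ∙ v : Submodule F _) : Set (Fin n → F)) := by
  have : Nontrivial (Fin n) := Fin.nontrivial_iff_two_le.2 hn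
  refine ⟨fun v w hv hw => ?_, fun v hv h => ?_, fun v _ => sc_stW _⟩
  · obtain ⟨g, hg⟩ := H26.exists_sl_mulVec_eq hv hw
    refine ⟨slE F n g, fun a ha => stW_conj' _ ?_ ha⟩
    rw [Submodule.map_span, Set.image_singleton]
    exact congrArg (fun x => F ∙ x) hg
  · obtain ⟨w, hw⟩ : ∃ w, w ∉ (F ∙ v : Submodule F (Fin n → F)) := by
      by_contra! h1
      have h2 := finrank_span_singleton (K := F) hv
      rw [Submodule.eq_top_iff'.2 h1, finrank_top, finrank_fin_fun] at h2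
      omega
    obtain ⟨g, hg⟩ := H26.exists_sl_mulVec_eq (w := w) hv (fun e => hw (e ▸ Submodule.zero_mem _))
    have h3 : slE F n g ∈ stW (slG F n) ((F ∙ v : Submodule F _) : Set (Fin n → F)) :=
      h ▸ Subgroup.mem_top _
    exact hw (hg ▸ h3 v (Submodule.mem_span_singleton_self v))

/-- An elementary transvection. -/
noncomputable def tvS {i j : Fin n} (h : i ≠ j) (c : F) : slG F n :=
  ⟨LinearEquiv.transvection (f := c • LinearMap.proj i) (v := Pi.single j 1) (by simp [h]),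
    LinearEquiv.transvection.det_eq_one _⟩

theorem tvS_apply {i j : Fin n} (h : i ≠ j) (c : F) (v : Fin n → F) :
    (tvS h c).1 v = v + (c * v i) • (Pi.single j 1 : Fin n → F) := rfl

theorem proj_ne_zero (i : Fin n) : (LinearMap.proj i : Dual F (Fin n → F)) ≠ 0 := fun h => by
  simpa using LinearMap.congr_fun h (Pi.single i 1)

theorem cls_fld {E : Type*} [Field E] [Algebra F E] [Finite E] (hn : 2 ≤ n)
    (h : (3 ≤ n ∧ finrank F E ≠ 1) ∨ (finrank F E = 2 ∧ 3 ≤ Fintype.card F)) :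
    Cls (Sc (slG F n)) (fun _ : E →ₐ[F] End F (Fin n → F) => True)
      fun ι => stE (slG F n) (Set.range ι) := by
  have : Nontrivial (Fin n) := Fin.nontrivial_iff_two_le.2 hn
  refine ⟨fun ι ι' _ _ => ?_, fun ι _ ht => ?_, fun v _ => sc_stE _⟩
  · obtain ⟨x, h1, h2⟩ := exists_conj_det ι ι'
    exact ⟨⟨x, h1⟩, fun g hg => stE_conj _ h2 hg⟩
  · obtain ⟨i, j, hij⟩ := exists_pair_ne (Fin n)
    have hu : (Pi.single j 1 : Fin n → F) ≠ 0 := by simp
    rcases h with ⟨h3, hE⟩ | ⟨hE, h3⟩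
    · refine not_mem_stE (by rwa [finrank_fin_fun]) hE ι (t := tvS hij 1) (l := 1)
        (φ := LinearMap.proj i) (fun v => ?_) hu (proj_ne_zero i) (ht ▸ Subgroup.mem_top _)
      rw [tvS_apply, one_mul, one_smul]; rfl
    · classical
      obtain ⟨c, -, hc⟩ := Finset.exists_mem_notMem_of_card_lt_card
        (s := ({0, 1} : Finset F)) (t := Finset.univ)
        (lt_of_le_of_lt Finset.card_le_two (by rwa [Finset.card_univ]))
      simp only [Finset.mem_insert, Finset.mem_singleton, not_or] at hc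
      exact not_mem_stE_two hE ι (φ := LinearMap.proj i) (tvS_apply hij c) (tvS_apply hij 1) hu
        (proj_ne_zero i) hc.1 one_ne_zero hc.2 ⟨ht ▸ Subgroup.mem_top _, ht ▸ Subgroup.mem_top _⟩

theorem exists_ext (F : Type) [Field F] [Finite F] {k : ℕ} (hk : k ≠ 0) :
    ∃ (E : Type) (_ : Field E) (_ : Algebra F E) (_ : Finite E), finrank F E = k := by
  obtain ⟨p, hp⟩ := CharP.exists F
  have : Fact p.Prime := ⟨CharP.char_is_prime F p⟩
  have : NeZero k := ⟨hk⟩
  exact ⟨FiniteField.Extension F p k, inferInstance, inferInstance, inferInstance,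
    FiniteField.finrank_extension F p k⟩

theorem cov_psl {k : ℕ} (hn : 2 ≤ n) (hk : 2 ≤ k) (h : 3 ≤ n ∨ (k = 2 ∧ 3 ≤ Fintype.card F))
    (hd : ∀ d, 2 ≤ d → d ≤ n → d + 1 ≠ n → k ∣ d) :
    Cov (ProjectiveSpecialLinearGroup (Fin n) F) := by
  obtain ⟨E, _, _, _, hE⟩ := exists_ext F (k := k) (by omega)
  refine CovZ.quot (slE F n) (covZ_of (cls_pt hn) (cls_fld (E := E) hn
    (h.imp (fun a => ⟨a, by omega⟩) fun a => ⟨hE.trans a.1, a.2⟩)) fun g => ?_) _ fun z hz => ?_
  · rcases eig_or_hom (E := E) (g.1 : End F (Fin n → F)) (by rwa [finrank_fin_fun, hE]) with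
      ⟨v, hv, c, hc⟩ | ⟨ι, hι⟩
    · exact Or.inl ⟨v, hv, mem_stW_span hc⟩
    · exact Or.inr ⟨ι, trivial, mem_stE_of_poly hι⟩
  · obtain ⟨r, -, hr⟩ := Matrix.SpecialLinearGroup.mem_center_iff.1 hz
    exact ⟨r, fun v => by rw [slE_apply, ← hr]; ext i; simp [Matrix.mulVec_diagonal]⟩

theorem cov_psl2 (h : 4 ≤ Fintype.card F) : Cov (ProjectiveSpecialLinearGroup (Fin 2) F) :=
  cov_psl (k := 2) le_rfl le_rfl (Or.inr ⟨rfl, by omega⟩) fun d _ _ _ => by omega

theorem cov_psl3 : Cov (ProjectiveSpecialLinearGroup (Fin 3) F) :=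
  cov_psl (k := 3) (by omega) (by omega) (Or.inl le_rfl) fun d _ _ _ => by omega

theorem cov_psl4 : Cov (ProjectiveSpecialLinearGroup (Fin 4) F) :=
  cov_psl (k := 2) (by omega) le_rfl (Or.inl (by omega)) fun d _ _ _ => by omega

end SL

end Cfsg.Agent.H29.Cv
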