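import Cfsg.Agent.H29.CvB
import Cfsg.Agent.H27.SympSimple
import Cfsg.Agent.H29.G2Sub

/-! Two classes of subgroups cover `Sp₂ₘ(q)` and `G₂(q)` for even `q`. -/

set_option autoImplicit false

namespace Cfsg.Agent.H29.Cv

open Module Matrix Cfsg.Agent.H27 Cfsg.Agent.H24 QuadraticMap Cfsg.Lie

section Two

variable {F : Type*} [Field F] [CharP F 2]

/-- The Artin-Schreier map. -/
def wp (F : Type*) [Field F] [CharP F 2] : F →+ F :=
  AddMonoidHom.mk' (fun x => x ^ 2 + x) fun x y => by rw [add_pow_char]; ring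

theorem wp_index [Finite F] : (wp F).range.index = 2 := by
  rw [AddSubgroup.index_range]
  have : ((wp F).ker : Set F) = {0, 1} := by
    ext x
    have h2 : (2 : F) = 0 := CharTwo.two_eq_zero
    simp only [SetLike.mem_coe, AddMonoidHom.mem_ker, Set.mem_insert_iff, Set.mem_singleton_iff]
    change x ^ 2 + x = 0 ↔ _
    rw [show x ^ 2 + x = x * (x - 1) by linear_combination x * h2, mul_eq_zero, sub_eq_zero]
  rw [← SetLike.coe_sort_coe, this, Nat.card_coe_set_eq, Set.ncard_pair zero_ne_one]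

theorem wp_same [Finite F] {s t : F} (h : s ∈ (wp F).range ↔ t ∈ (wp F).range) :
    ∃ μ, μ ^ 2 + μ = s + t := (AddSubgroup.add_mem_iff_of_index_two wp_index).2 h

variable {V : Type*} [AddCommGroup V] [Module F V] {B : LinearMap.BilinForm F V}

/-- `Q` is a quadratic form with polar form `B`. -/
structure IsQ (B : LinearMap.BilinForm F V) (Q : V → F) : Prop where
  add : ∀ x y, Q (x + y) = Q x + Q y + B x y
  smul : ∀ (c : F) x, Q (c • x) = c ^ 2 * Q x

theorem IsQ.shift {Q : V → F} (h : IsQ B Q) (a : V) : IsQ B fun v => Q v + B a v ^ 2 :=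
  ⟨fun x y => by rw [h.add, map_add, add_pow_char]; ring,
    fun c x => by rw [h.smul, map_smul, smul_eq_mul]; ring⟩

omit [CharP F 2] in
theorem IsQ.tv {Q : V → F} (h : IsQ B Q) (hA : B.IsAlt) (w : V) (l : F) (x : V) :
    Q (altTv hA w l x) = Q x + (l + l ^ 2 * Q w) * B w x ^ 2 := by
  rw [altTv_apply, h.add, h.smul, map_smul, smul_eq_mul, ← hA.neg_eq x w]; ring

/-- The isometry group of a function on the space. -/
def stQ (B : LinearMap.BilinForm F V) [Finite (isomGroup B)] (Q : V → F) :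
    Subgroup (isomGroup B) :=
  finSub
    { carrier := {g | ∀ v, Q (g.1 v) = Q v}
      mul_mem' := fun {_ b} ha hb v => (ha (b.1 v)).trans (hb v)
      one_mem' := fun _ => rfl }

theorem cls_Q [Finite F] [Finite V] (hA : B.IsAlt) (hB : B.Nondegenerate) {Q : V → F}
    (hQ : IsQ B Q) {x y : V} (hx : x ≠ 0) (hy : y ≠ 0) (hxy : x + y ≠ 0) (h0 : B x y = 0)
    (P : V → Prop) (hP : ∀ a b, P a → P b → (Q a ∈ (wp F).range ↔ Q b ∈ (wp F).range)) :
    Cls (Sc (isomGroup B)) P fun a => stQ B fun v => Q v + B a v ^ 2 := by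
  have h2 : (2 : F) = 0 := CharTwo.two_eq_zero
  refine ⟨fun a b ha hb => ?_, fun a _ ht => ?_, fun a _ => ?_⟩
  · obtain ⟨μ, hμ⟩ := wp_same (hP a b ha hb)
    have h1 : Q (a + b) + B b (a + b) ^ 2 = (μ + B a b) ^ 2 + (μ + B a b) := by
      rw [hQ.add, map_add, hA.self_eq_zero, ← hA.neg_eq a b, ← hμ]
      linear_combination (-μ * B a b) * h2
    obtain ⟨l, hl⟩ : ∃ l, l + l ^ 2 * (Q (a + b) + B b (a + b) ^ 2) = 1 := by
      by_cases h3 : Q (a + b) + B b (a + b) ^ 2 = 0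
      · exact ⟨1, by rw [h3]; ring⟩
      · refine ⟨(μ + B a b) / (Q (a + b) + B b (a + b) ^ 2), ?_⟩
        field_simp
        linear_combination -h1
    have h4 : ∀ v, Q (altTv hA (a + b) l v) + B b (altTv hA (a + b) l v) ^ 2 =
        Q v + B a v ^ 2 := fun v => by
      have := (hQ.shift b).tv hA (a + b) l v
      rw [this, hl, map_add, LinearMap.add_apply]
      linear_combination (B a v * B b v + B b v ^ 2) * h2
    refine ⟨⟨_, altTv_mem_isomGroup hA (a + b) l⟩, fun g hg v => ?_⟩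
    obtain ⟨v, rfl⟩ := (altTv hA (a + b) l).surjective v
    have h5 := hg v
    rw [conj_apply, LinearEquiv.symm_apply_apply]
    exact (h4 _).trans (h5.trans (h4 v).symm)
  · have key : ∀ w, w ≠ 0 → Q w + B a w ^ 2 = -1 := fun w hw => by
      have h3 : (⟨_, altTv_mem_isomGroup hA w 1⟩ : isomGroup B) ∈
          stQ B fun v => Q v + B a v ^ 2 := ht ▸ Subgroup.mem_top _
      obtain ⟨v, hv⟩ : ∃ v, B w v ≠ 0 := by
        by_contra! h4
        exact hw (hB.1 w h4)
      have h5 := ((hQ.shift a).tv hA w 1 v).symm.trans (h3 v)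
      rw [add_eq_left, mul_eq_zero] at h5
      linear_combination h5.resolve_right (pow_ne_zero 2 hv)
    have h3 := (hQ.shift a).add x y
    rw [key _ hx, key _ hy, key _ hxy, h0] at h3
    exact one_ne_zero (α := F) (by linear_combination h3)
  · rintro z ⟨c, hc⟩ v
    by_cases hv : v = 0
    · rw [hv, map_zero]
    obtain ⟨w, hw⟩ : ∃ w, B v w ≠ 0 := by
      by_contra! h4
      exact hv (hB.1 v h4)
    have h3 := z.2 v w
    rw [hc, hc, map_smul, map_smul, LinearMap.smul_apply, smul_eq_mul, smul_eq_mul] at h3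
    have h4 : c ^ 2 = 1 := mul_right_cancel₀ hw (by linear_combination h3)
    have := (hQ.shift a).smul c v
    rw [h4, one_mul] at this
    rw [hc]
    exact this

theorem dye [Finite F] [FiniteDimensional F V] (hB : B.Nondegenerate) {Q : V → F}
    (hQ : IsQ B Q) (g : isomGroup B) :
    ∃ a, ∀ v, Q (g.1 v) + B a (g.1 v) ^ 2 = Q v + B a v ^ 2 := by
  have h2 : (2 : F) = 0 := CharTwo.two_eq_zero
  let r := (frobeniusEquiv F 2).symm
  have hr : ∀ x, r x ^ 2 = x := fun x => (frobeniusEquiv F 2).apply_symm_apply x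
  let φ : Dual F V :=
    { toFun := fun v => r (Q (g.1 v) - Q v)
      map_add' := fun x y => by
        rw [← map_add, map_add g.1, hQ.add, hQ.add, g.2]
        congr 1; ring
      map_smul' := fun c x => by
        apply (frobeniusEquiv F 2).injective
        change r _ ^ 2 = (c * r _) ^ 2
        rw [mul_pow, hr, hr, map_smul, hQ.smul, hQ.smul]; ring }
  have h3 : φ ∈ (LinearMap.ker ((g.1 : V →ₗ[F] V) - LinearMap.id)).dualAnnihilator := by
    rw [Submodule.mem_dualAnnihilator]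
    intro w hw
    have h4 : g.1 w = w := sub_eq_zero.1 hw
    change r _ = 0
    rw [h4, sub_self, map_zero]
  rw [← LinearMap.range_dualMap_eq_dualAnnihilator_ker] at h3
  obtain ⟨θ, hθ⟩ := h3
  obtain ⟨a, rfl⟩ := (B.toDual hB).surjective θ
  refine ⟨a, fun v => ?_⟩
  have h5 : B a (g.1 v - v) = r (Q (g.1 v) - Q v) := LinearMap.congr_fun hθ v
  have h6 := hr (Q (g.1 v) - Q v)
  rw [← h5, map_sub] at h6
  linear_combination -h6 + (B a (g.1 v) ^ 2 - B a (g.1 v) * B a v) * h2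

end Two

theorem cov_psp_even {F : Type} [Field F] [Fintype F] {m : ℕ} (hm : 2 ≤ m)
    (h : ¬ Odd (Fintype.card F)) : Cov (PSp m F) := by
  have h2 : (2 : F) = 0 := two_eq_zero_iff_even_card.2 (Nat.not_odd_iff_even.1 h)
  have : CharP F 2 := CharTwo.of_one_ne_zero_of_two_eq_zero one_ne_zero h2
  have : Nontrivial (Fin m) := Fin.nontrivial_iff_two_le.2 hm
  obtain ⟨i, j, hij⟩ := exists_pair_ne (Fin m)
  have hQ : IsQ (jBilin (Fin m) F) fun v => ∑ k, v (Sum.inl k) * v (Sum.inr k) := by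
    refine ⟨fun x y => ?_, fun c x => ?_⟩
    · rw [jBilin_apply_sum, ← Finset.sum_add_distrib, ← Finset.sum_add_distrib]
      refine Finset.sum_congr rfl fun k _ => ?_
      simp only [Pi.add_apply]
      linear_combination x (Sum.inl k) * y (Sum.inr k) * h2
    · rw [Finset.mul_sum]
      refine Finset.sum_congr rfl fun k _ => ?_
      simp only [Pi.smul_apply, smul_eq_mul]
      ring
  have key := cls_Q jBilin_isAlt jBilin_nondegenerate hQ (x := Pi.single (Sum.inl i) 1)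
    (y := Pi.single (Sum.inl j) 1) (by simp) (by simp)
    (fun e => by simpa [hij] using congrFun e (Sum.inl i))
    (by rw [jBilin_single_inl_left]; simp)
  refine CovZ.quot (spEquiv (Fin m) F) (covZ_of
    (key (fun a => ∑ k, a (Sum.inl k) * a (Sum.inr k) ∈ (wp F).range) fun _ _ a b => iff_of_true a b)
    (key (fun a => ∑ k, a (Sum.inl k) * a (Sum.inr k) ∉ (wp F).range) fun _ _ a b => iff_of_false a b)
    fun g => ?_) _ fun z hz => mem_center_sp_iff.1 hz
  obtain ⟨a, ha⟩ := dye jBilin_nondegenerate hQ g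
  by_cases h3 : ∑ k, a (Sum.inl k) * a (Sum.inr k) ∈ (wp F).range
  · exact Or.inl ⟨a, h3, ha⟩
  · exact Or.inr ⟨a, h3, ha⟩

section G2

variable {F : Type*} [Field F]

theorem polar_zE (x : Fin 8 → F) : polar zN zE x = zT x := by
  simp [polar_zN, zE, zT_apply, add_comm]

theorem zN_zE : zN (zE : Fin 8 → F) = 1 := by simp [zN_apply, zE]

theorem g2_fix (g : autZ F) : ∃ u, zT u = 1 ∧ ∃ l : F, g.1 u = u + l • zE := by
  let Φ := (F ∙ (zE : Fin 8 → F)).mkQ ∘ₗ ((g.1 : (Fin 8 → F) →ₗ[F] (Fin 8 → F)) - LinearMap.id)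
  obtain ⟨u, hu, h1⟩ : ∃ u ∈ LinearMap.ker Φ, zT u ≠ 0 := by
    by_contra! h1
    have h3 : zT ∈ (LinearMap.ker Φ).dualAnnihilator := (Submodule.mem_dualAnnihilator _).2 h1
    rw [← LinearMap.range_dualMap_eq_dualAnnihilator_ker] at h3
    obtain ⟨θ, hθ⟩ := h3
    obtain ⟨w, hw⟩ := (LinearMap.BilinForm.toDual _ (zN_nondegenerate (F := F))).surjective
      (θ ∘ₗ (F ∙ (zE : Fin 8 → F)).mkQ)
    have h4 : ∀ x, polar zN w x = θ ((F ∙ (zE : Fin 8 → F)).mkQ x) := fun x =>
      LinearMap.congr_fun hw x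
    have h5 : polar zN w zE = 0 := by
      rw [h4, Submodule.mkQ_apply, (Submodule.Quotient.mk_eq_zero _).2
        (Submodule.mem_span_singleton_self _), map_zero]
    obtain ⟨w', rfl⟩ := g.1.surjective w
    have h6 : w' - g.1 w' - zE = 0 := H30.eq_zero_of_polar zN_nondegenerate fun x => by
      have h7 : polar zN (g.1 w') (g.1 x - x) = zT x := (h4 _).trans (LinearMap.congr_fun hθ x)
      rw [polar_sub_right, autZ_polar] at h7
      rw [polar_sub_left, polar_sub_left, polar_zE, h7, sub_self]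
    have h8 := (autZ_zT_zN g w').2
    have h9 : w' = g.1 w' + zE := by linear_combination h6
    have h10 : zN (g.1 w' + zE) = zN (g.1 w') + zN zE + polar zN (g.1 w') zE := by
      simp only [polar]; ring
    rw [← h9, h5, zN_zE, h8] at h10
    exact one_ne_zero (α := F) (by linear_combination -h10)
  obtain ⟨l, hl⟩ := Submodule.mem_span_singleton.1 ((Submodule.Quotient.mk_eq_zero _).1 hu)
  refine ⟨(zT u)⁻¹ • u, by rw [map_smul, smul_eq_mul, inv_mul_cancel₀ h1], (zT u)⁻¹ * l, ?_⟩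
  rw [map_smul, mul_smul, hl, ← smul_add]
  congr 1
  exact (add_sub_cancel u (g.1 u)).symm

theorem g2_step3 {α β : F} {a b : Fin 3 → F} (h : a ⬝ᵥ b ≠ 0) : ∃ g : autZ F,
    g.1 (zk α a b β) = zk α (Pi.single 0 1) ((a ⬝ᵥ b) • Pi.single 0 1) β := by
  have ha : a ≠ 0 := by rintro rfl; simp at h
  obtain ⟨A, hA⟩ := H26.exists_sl_mulVec_eq (w := Pi.single 0 1) ha (by simp)
  have h1 := sl_dot A a b
  rw [hA, single_dotProduct, one_mul] at h1
  generalize hb : A.1.adjugateᵀ *ᵥ b = b' at h1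
  let C : SpecialLinearGroup (Fin 3) F :=
    ⟨!![1, b' 1 / b' 0, b' 2 / b' 0; 0, 1, 0; 0, 0, 1], by simp [det_fin_three]⟩
  refine ⟨stdHom F C * stdHom F A, ?_⟩
  rw [autZ_mul_apply, stdHom_zk, stdHom_zk, hA, hb, zk_inj, ← h1]
  rw [← h1] at h
  refine ⟨rfl, ?_, ?_, rfl⟩
  · ext i; fin_cases i <;> simp [C]
  · ext i
    fin_cases i <;> simp [C, adjugate_fin_three, mulVec, dotProduct, Fin.sum_univ_three] <;>
      field_simp <;> ring

theorem g2_step2 {α β γ : F} {a b : Fin 3 → F} (hb : b ≠ 0)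
    (h : γ * (α + β - γ) ≠ zN (zk α a b β)) : ∃ g : autZ F, g.1 (zk α a b β) =
      zk γ (Pi.single 0 1) ((γ * (α + β - γ) - zN (zk α a b β)) • Pi.single 0 1) (α + β - γ) := by
  obtain ⟨i, hi⟩ := Function.ne_iff.1 hb
  have h0 : b i ≠ 0 := hi
  let v : Fin 3 → F := Pi.single i ((γ - α) / b i)
  have hv : v ⬝ᵥ b = γ - α := by rw [single_dotProduct, div_mul_cancel₀ _ h0]
  have h1 := uV_zk v α a b β
  have h2 := (autZ_zT_zN (uV v) (zk α a b β)).2
  rw [hv, add_sub_cancel, show β - (γ - α) = α + β - γ by ring] at h1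
  rw [h1, zN_zk] at h2
  rw [← h2] at h ⊢
  obtain ⟨g, hg⟩ := g2_step3 (α := γ) (β := α + β - γ) (a := a + (β - α - (γ - α)) • v)
    (b := b + a ⨯₃ v) (fun e => h (by rw [e, sub_zero]))
  exact ⟨g * uV v, by rw [autZ_mul_apply, h1, hg, sub_sub_cancel]⟩

theorem g2_nf [CharP F 2] {γ : F} {u : Fin 8 → F} (hT : zT u = 1) (h : γ * (1 - γ) ≠ zN u) :
    ∃ g : autZ F, g.1 u =
      zk γ (Pi.single 0 1) ((γ * (1 - γ) - zN u) • Pi.single 0 1) (1 - γ) := by
  have key : ∀ (k : autZ F), zB F (k.1 u) ≠ 0 → ∃ g : autZ F, g.1 u =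
      zk γ (Pi.single 0 1) ((γ * (1 - γ) - zN u) • Pi.single 0 1) (1 - γ) := fun k hk => by
    obtain ⟨h1, h2⟩ := autZ_zT_zN k u
    rw [hT] at h1
    rw [← h2] at h ⊢
    obtain ⟨α, a, b, β, e⟩ := exists_zk (k.1 u)
    rw [e] at h1 h hk
    have h3 : α + β = 1 := h1
    obtain ⟨g, hg⟩ := g2_step2 (γ := γ) (α := α) (β := β) (a := a) (b := b) (by simpa using hk)
      (by rwa [h3])
    exact ⟨g * k, by rw [autZ_mul_apply, e, hg, h3]⟩
  obtain ⟨α, a, b, β, rfl⟩ := exists_zk u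
  by_cases hb : b = 0
  · by_cases ha : a = 0
    · refine key (tauAut F * uV (Pi.single 0 1)) ?_
      have h3 : α + β = 1 := hT
      have h4 : β - α = 1 := by rw [← h3, CharTwo.sub_eq_add, add_comm]
      rw [autZ_mul_apply, uV_zk, tauAut_zk, ha, hb]
      simp [h4]
    · exact key (tauAut F) (by rw [tauAut_zk]; simpa using ha)
  · exact key 1 (by rw [autZ_one_apply]; simpa using hb)

theorem g2_trans [CharP F 2] [Fintype F] (hF : 3 ≤ Fintype.card F) {u w : Fin 8 → F}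
    (hu : zT u = 1) (hw : zT w = 1) (h : zN u = zN w) : ∃ g : autZ F, g.1 u = w := by
  obtain ⟨γ, hγ⟩ : ∃ γ : F, γ * (1 - γ) ≠ zN u := by
    by_cases h0 : zN u = 0
    · classical
      obtain ⟨c, -, hc⟩ := Finset.exists_mem_notMem_of_card_lt_card
        (s := ({0, 1} : Finset F)) (t := Finset.univ)
        (lt_of_le_of_lt Finset.card_le_two (by rwa [Finset.card_univ]))
      simp only [Finset.mem_insert, Finset.mem_singleton, not_or] at hc
      exact ⟨c, h0 ▸ mul_ne_zero hc.1 (sub_ne_zero.2 (Ne.symm hc.2))⟩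
    · exact ⟨0, by rw [zero_mul]; exact Ne.symm h0⟩
  obtain ⟨g, hg⟩ := g2_nf hu hγ
  obtain ⟨k, hk⟩ := g2_nf hw (h ▸ hγ)
  exact ⟨k⁻¹ * g, by rw [autZ_mul_apply, hg, h, ← hk, autZ_inv_apply]⟩

theorem cls_g2 [CharP F 2] [Fintype F] (hF : 3 ≤ Fintype.card F) (P : F → Prop)
    (hP : ∀ a b, P a → P b → (a ∈ (wp F).range ↔ b ∈ (wp F).range)) :
    Cls (∅ : Set (autZ F)) (fun u : Fin 8 → F => zT u = 1 ∧ P (zN u))
      fun u => stW (autZ F) {w | ∃ l : F, w = u + l • zE} := by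
  have h2 : (2 : F) = 0 := CharTwo.two_eq_zero
  refine ⟨fun u w hu hw => ?_, fun u hu ht => ?_, fun _ _ => Set.empty_subset _⟩
  · obtain ⟨μ, hμ⟩ := wp_same (hP _ _ hu.2 hw.2)
    obtain ⟨g, hg⟩ := g2_trans hF (u := u + μ • zE) (w := w)
      (by
        rw [map_add, map_smul, hu.1, zT_apply, smul_eq_mul]
        change 1 + μ * (1 + 1) = 1
        linear_combination μ * h2) hw.1 (by
        have h3 : zN (u + μ • zE) = zN u + zN (μ • zE) + polar zN (μ • zE) u := by
          simp only [polar, add_comm u]; ring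
        rw [h3, QuadraticMap.map_smul, polar_smul_left, polar_zE, zN_zE, hu.1, smul_eq_mul, smul_eq_mul]
        linear_combination hμ + zN u * h2)
    rw [map_add, map_smul, autZ_zE] at hg
    refine ⟨g, fun k hk => stW_conj g ?_ hk⟩
    ext x
    constructor
    · rintro ⟨_, ⟨l, rfl⟩, rfl⟩
      exact ⟨l - μ, by rw [map_add, map_smul, autZ_zE, ← hg]; module⟩
    · rintro ⟨l, rfl⟩
      exact ⟨_, ⟨l + μ, rfl⟩, by rw [map_add, map_smul, autZ_zE, ← hg]; module⟩
  · have key : ∀ i : Fin 3, zA F u = Pi.single i 1 := fun i => by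
      obtain ⟨g, hg⟩ := g2_trans hF (u := u)
        (w := zk 0 (Pi.single i 1) (Pi.single i (-zN u)) 1) hu.1 (by simp [zT_apply])
        (by simp [zN_zk])
      obtain ⟨l, hl⟩ := (ht ▸ Subgroup.mem_top g : g ∈ stW (autZ F) {w | ∃ l : F, w = u + l • zE})
        u ⟨0, by simp⟩
      have h3 := congrArg (zA F) (hg.symm.trans hl)
      rw [zA_zk] at h3
      rw [h3]
      ext k; fin_cases k <;> simp [zE] <;> rfl
    simpa using congrFun ((key 0).symm.trans (key 1)) 0

theorem cov_g2 {F : Type} [Field F] [Fintype F] {a : ℕ} (ha : 2 ≤ a)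
    (hF : Fintype.card F = 2 ^ a) : Cov (Lie.G2 F) := by
  have : CharP F 2 := charP_of_card_eq_prime_pow hF
  have h3 : 3 ≤ Fintype.card F := by
    have := Nat.pow_le_pow_right (n := 2) (by norm_num) ha
    omega
  refine CovZ.cov (g2Equiv F) (covZ_of
    (cls_g2 h3 (fun a => a ∈ (wp F).range) fun _ _ a b => iff_of_true a b)
    (cls_g2 h3 (fun a => a ∉ (wp F).range) fun _ _ a b => iff_of_false a b) fun g => ?_)
  obtain ⟨u, hu, l, hl⟩ := g2_fix g
  have h4 : g ∈ stW (autZ F) {w | ∃ l : F, w = u + l • zE} := by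
    rintro _ ⟨k, rfl⟩
    exact ⟨l + k, by rw [map_add, map_smul, autZ_zE, hl]; module⟩
  by_cases h5 : zN u ∈ (wp F).range
  · exact Or.inl ⟨u, ⟨hu, h5⟩, h4⟩
  · exact Or.inr ⟨u, ⟨hu, h5⟩, h4⟩

end G2

end Cfsg.Agent.H29.Cv
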