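import Cfsg.Agent.H29.CvB
import Cfsg.Agent.H31.HermStab

/-! Two classes of subgroups cover `PSU₄(q)`. -/

set_option autoImplicit false

namespace Cfsg.Agent.H29.Cv

open Module Polynomial Cfsg.Agent.H31

section Theta

variable {F E : Type*} [Field F] [Fintype F] [Field E] [Algebra F E] [Finite E] {σ : F →+* F}

theorem exists_psi (hσ : IsInvol σ) : ∃ q : ℕ, (∀ x y : E, x ^ q = y ^ q → x = y) ∧
    ∀ θ : E →+* E, (∀ x, θ (θ x) = x) → (∀ c, θ (algebraMap F E c) = algebraMap F E (σ c)) →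
      ∃ ψ : E ≃ₐ[F] E, (∀ x, ψ x = θ x ^ q) ∧
        ψ ^ 2 = FiniteField.frobeniusAlgEquivOfAlgebraic F E := by
  obtain ⟨q, hF, hq⟩ := hσ.exists_q
  obtain ⟨p, k, hp, hc, rfl⟩ : ∃ p k : ℕ, p.Prime ∧ CharP F p ∧ q = p ^ k := by
    obtain ⟨k, -, h1, h2⟩ := exists_pow_char hF
    exact ⟨_, k, h1, ringChar.charP F, h2⟩
  have := Fact.mk hp
  have : CharP E p := charP_of_injective_algebraMap (algebraMap F E).injective p
  refine ⟨p ^ k, fun x y h => iterateFrobenius_inj E p k h, fun θ h1 h2 => ?_⟩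
  let ψ : E →ₐ[F] E :=
    { (iterateFrobenius E p k).comp θ with
      commutes' := fun c => by
        change θ (algebraMap F E c) ^ p ^ k = _
        rw [h2, ← map_pow, ← hq, hσ.invol] }
  refine ⟨AlgEquiv.ofBijective ψ ψ.bijective, fun _ => rfl, AlgEquiv.ext fun x => ?_⟩
  change θ (θ x ^ p ^ k) ^ p ^ k = x ^ Fintype.card F
  rw [map_pow, h1, ← pow_mul, hF, pow_two]

theorem odd_of_theta (hσ : IsInvol σ) {θ : E →+* E} (h1 : ∀ x, θ (θ x) = x)
    (h2 : ∀ c, θ (algebraMap F E c) = algebraMap F E (σ c)) : Odd (finrank F E) := by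
  obtain ⟨q, -, h⟩ := exists_psi (E := E) hσ
  obtain ⟨ψ, -, hψ⟩ := h θ h1 h2
  by_contra h3
  obtain ⟨k, hk⟩ := Nat.not_odd_iff_even.1 h3
  have h4 : ψ ^ finrank F E = 1 := by rw [← IsGalois.card_aut_eq_finrank, pow_card_eq_one']
  rw [hk, ← two_mul, pow_mul, hψ, ← orderOf_dvd_iff_pow_eq_one,
    FiniteField.orderOf_frobeniusAlgEquivOfAlgebraic] at h4
  have h5 : 0 < finrank F E := finrank_pos
  have := Nat.le_of_dvd (by omega) h4
  omega

theorem theta_unique (hσ : IsInvol σ) {θ θ' : E →+* E} (h1 : ∀ x, θ (θ x) = x)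
    (h2 : ∀ c, θ (algebraMap F E c) = algebraMap F E (σ c)) (h1' : ∀ x, θ' (θ' x) = x)
    (h2' : ∀ c, θ' (algebraMap F E c) = algebraMap F E (σ c)) : θ = θ' := by
  obtain ⟨k, hk⟩ := odd_of_theta hσ h1 h2
  obtain ⟨q, hq, h⟩ := exists_psi (E := E) hσ
  obtain ⟨ψ, a, hψ⟩ := h θ h1 h2
  obtain ⟨ψ', a', hψ'⟩ := h θ' h1' h2'
  have key : ∀ ψ : E ≃ₐ[F] E, ψ = (ψ ^ 2) ^ (k + 1) := fun ψ => by
    have h4 : ψ ^ finrank F E = 1 := by rw [← IsGalois.card_aut_eq_finrank, pow_card_eq_one']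
    rw [← pow_mul, show 2 * (k + 1) = finrank F E + 1 by omega, pow_succ, h4, one_mul]
  have h5 : ψ = ψ' := by rw [key ψ, key ψ', hψ, hψ']
  exact RingHom.ext fun x => hq _ _ (by rw [← a, ← a', h5])

end Theta

section Gen

variable {F V : Type*} [Field F] [AddCommGroup V] [Module F V]

theorem aeval_semiconj {W : Type*} [AddCommGroup W] [Module F W] {a : End F V} {b : End F W}
    (π : V →ₗ[F] W) (h : ∀ v, π (a v) = b (π v)) (p : F[X]) (v : V) :
    π (aeval a p v) = aeval b p (π v) := by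
  induction p using Polynomial.induction_on' with
  | add p r hp hr => simp [hp, hr]
  | monomial n c =>
    simp only [aeval_monomial, End.mul_apply, Module.algebraMap_end_apply, map_smul]
    congr 1
    induction n with
    | zero => rfl
    | succ n ih => rw [pow_succ', pow_succ', End.mul_apply, End.mul_apply, h, ih]

theorem exists_irred_ker [FiniteDimensional F V] [Nontrivial V] (g : End F V) :
    ∃ f : F[X], Irreducible f ∧ f ∣ g.charpoly ∧ ∃ v, v ≠ 0 ∧ aeval g f v = 0 := by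
  have hi : IsIntegral F g := Algebra.IsIntegral.isIntegral g
  obtain ⟨f, hf, k, hk⟩ := exists_irreducible_of_natDegree_pos (minpoly.natDegree_pos hi)
  have h0 : minpoly F g ≠ 0 := minpoly.ne_zero hi
  have h1 : aeval g k ≠ 0 := fun h => by
    have h2 := natDegree_le_of_dvd (minpoly.dvd F g h) (right_ne_zero_of_mul (hk ▸ h0))
    rw [hk, natDegree_mul hf.ne_zero (right_ne_zero_of_mul (hk ▸ h0))] at h2
    have := hf.natDegree_pos
    omega
  obtain ⟨x, hx⟩ : ∃ x, aeval g k x ≠ 0 := by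
    by_contra! h
    exact h1 (LinearMap.ext h)
  refine ⟨f, hf, (Dvd.intro k hk.symm).trans (LinearMap.minpoly_dvd_charpoly g), _, hx, ?_⟩
  rw [← End.mul_apply, ← map_mul, ← hk, minpoly.aeval, LinearMap.zero_apply]

theorem eq_zero_of_coprime {g : End F V} {f k : F[X]} (h : IsCoprime f k) {v : V}
    (h1 : aeval g f v = 0) (h2 : aeval g k v = 0) : v = 0 := by
  obtain ⟨a, b, e⟩ := h
  have := congrArg (fun p => aeval g p v) e
  simpa [h1, h2] using this.symm

theorem aeval_eig {g : End F V} {v : V} {c : F} (h : g v = c • v) (p : F[X]) :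
    aeval g p v = p.eval c • v := by
  by_cases hv : v = 0
  · simp [hv]
  · exact End.aeval_apply_of_hasEigenvector ⟨End.mem_eigenspace_iff.2 h, hv⟩

variable {σ : F →+* F} {B : V →ₛₗ[σ] V →ₗ[F] F}

theorem adj_aeval {a a' : End F V} (h : ∀ x y, B (a x) y = B x (a' y)) (p : F[X]) (x y : V) :
    B (aeval a p x) y = B x (aeval a' (p.map σ) y) := by
  induction p using Polynomial.induction_on' with
  | add p r hp hr => simp [hp, hr]
  | monomial n c =>
    rw [Polynomial.map_monomial]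
    simp only [aeval_monomial, End.mul_apply, Module.algebraMap_end_apply]
    rw [smul_left, smul_right]
    congr 1
    induction n generalizing y with
    | zero => rfl
    | succ n ih => rw [pow_succ', pow_succ, End.mul_apply, End.mul_apply, h, ih]

/-- The cyclic subspace generated by a vector. -/
noncomputable def cyc (g : End F V) (v : V) : Submodule F V :=
  LinearMap.range (LinearMap.applyₗ v ∘ₗ (aeval g : F[X] →ₐ[F] End F V).toLinearMap)

theorem mem_cyc {g : End F V} {v x : V} : x ∈ cyc g v ↔ ∃ p : F[X], aeval g p v = x := Iff.rfl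

theorem self_mem_cyc (g : End F V) (v : V) : v ∈ cyc g v := ⟨1, by simp⟩

theorem cyc_inv {g : End F V} {v x : V} (h : x ∈ cyc g v) : g x ∈ cyc g v := by
  obtain ⟨p, rfl⟩ := mem_cyc.1 h
  exact mem_cyc.2 ⟨X * p, by simp⟩

theorem coe_pow_eq {Γ : Subgroup (V ≃ₗ[F] V)} (g : Γ) (n : ℕ) :
    ((g ^ n).1 : End F V) = (g.1 : End F V) ^ n :=
  map_pow LinearEquiv.automorphismGroup.toLinearMapMonoidHom g.1 n

theorem exists_pow_inv {Γ : Subgroup (V ≃ₗ[F] V)} [Finite Γ] (g : Γ) :
    ∃ m : ℕ, (g.1 : End F V) ^ (m + 1) = 1 := by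
  refine ⟨orderOf g - 1, ?_⟩
  rw [Nat.sub_add_cancel (orderOf_pos g), ← coe_pow_eq, pow_orderOf_eq_one]
  rfl

theorem adj_pow {g : End F V} (hg : ∀ x y, B (g x) (g y) = B x y) {m : ℕ} (hm : g ^ (m + 1) = 1)
    (x y : V) : B (g x) y = B x ((g ^ m) y) := by
  rw [← hg x, ← End.mul_apply g (g ^ m), ← pow_succ', hm, End.one_apply]

theorem totIso_cyc [Fintype F] (hσ : IsInvol σ) {g : End F V} (hg : ∀ x y, B (g x) (g y) = B x y)
    {m : ℕ} (hm : g ^ (m + 1) = 1) {f : F[X]} (hf : Irreducible f) (he : Even f.natDegree)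
    {v : V} (hv : v ≠ 0) (h0 : aeval g f v = 0) : TotIso B (cyc g v) := by
  have hadj : ∀ p x y, B (aeval g p x) y = B x (aeval g ((p.map σ).comp (X ^ m)) y) := by
    intro p x y
    rw [adj_aeval (adj_pow hg hm), aeval_comp, map_pow, aeval_X]
  rcases (EuclideanDomain.dvd_or_coprime f ((f.map σ).comp (X ^ m)) hf) with h | ⟨a, b, h⟩
  · exfalso
    have := Fact.mk hf
    have : Module.Finite F (AdjoinRoot f) := (AdjoinRoot.powerBasis hf.ne_zero).finite
    have : Finite (AdjoinRoot f) := Module.finite_of_finite F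
    have h1 : AdjoinRoot.root f ^ (m + 1) = 1 := by
      have h2 : f ∣ X ^ (m + 1) - 1 := by
        refine (EuclideanDomain.dvd_or_coprime f _ hf).resolve_right fun h3 => hv (eq_zero_of_coprime h3 h0 ?_)
        simp [hm]
      have h3 := AdjoinRoot.mk_eq_zero.2 h2
      rwa [map_sub, map_pow, map_one, AdjoinRoot.mk_X, sub_eq_zero] at h3
    let θ : AdjoinRoot f →+* AdjoinRoot f :=
      AdjoinRoot.lift ((algebraMap F _).comp σ) (AdjoinRoot.root f ^ m) (by
        have h3 := AdjoinRoot.mk_eq_zero.2 h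
        rwa [← AdjoinRoot.aeval_eq, aeval_comp, map_pow, aeval_X, aeval_def, eval₂_map] at h3)
    have h2 : ∀ c, θ (algebraMap F _ c) = algebraMap F _ (σ c) := fun c => AdjoinRoot.lift_of _
    have h3 : θ (AdjoinRoot.root f) = AdjoinRoot.root f ^ m := AdjoinRoot.lift_root _
    have h4 : θ.comp θ = RingHom.id _ := by
      refine AdjoinRoot.ringHom_ext (RingHom.ext fun c => ?_) ?_
      · change θ (θ (algebraMap F _ c)) = algebraMap F _ c
        rw [h2, h2, hσ.invol]
      · change θ (θ _) = AdjoinRoot.root f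
        have h5 : AdjoinRoot.root f ^ m ≠ 0 := fun e => by
          rw [pow_succ, e, zero_mul] at h1; exact zero_ne_one h1
        apply mul_left_cancel₀ h5
        rw [h3, map_pow, h3, ← pow_succ', ← pow_succ, ← pow_mul, mul_comm, pow_mul, h1, one_pow]
    have h5 := odd_of_theta hσ (fun x => RingHom.congr_fun h4 x) h2
    rw [(AdjoinRoot.powerBasis hf.ne_zero).finrank, AdjoinRoot.powerBasis_dim] at h5
    exact Nat.not_odd_iff_even.2 he h5
  · intro x hx y hy
    obtain ⟨p, rfl⟩ := mem_cyc.1 hx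
    obtain ⟨r, rfl⟩ := mem_cyc.1 hy
    have h1 : aeval g r v = aeval g ((f.map σ).comp (X ^ m)) (aeval g (b * r) v) := by
      conv_lhs => rw [← mul_one r, ← h, mul_add, map_add, LinearMap.add_apply, ← mul_assoc,
        map_mul, End.mul_apply, h0, map_zero, zero_add]
      rw [← End.mul_apply, ← map_mul]
      congr 2; ring
    rw [h1, ← hadj, ← End.mul_apply, ← map_mul, mul_comm, map_mul, End.mul_apply, h0, map_zero,
      zero_left]

end Gen

section Uni

variable {F V : Type*} [Field F] [Fintype F] [AddCommGroup V] [Module F V] [FiniteDimensional F V]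
  [Finite V] {σ : F →+* F} {B : V →ₛₗ[σ] V →ₗ[F] F}

theorem trans_n1 (h : IsHerm B) {v w : V} (hv : B v v ≠ 0) (hw : B w w ≠ 0) :
    ∃ x : sisom B, (F ∙ v).map (x.1 : V →ₗ[F] V) = F ∙ w := by
  obtain ⟨c, hc⟩ := h.exists_smul_norm_eq hw (h.norm_fixed v)
  have h0 : c • w ≠ 0 := fun e => hv (by rw [← hc, e, map_zero])
  obtain ⟨g, hg, e⟩ := h.witt_one (fun e => hv (by rw [e, map_zero])) h0 hc.symm
  obtain ⟨g', hg', -, a, ha, e'⟩ := h.exists_sisom_of_isom hg hv
  refine ⟨⟨g', hg'⟩, ?_⟩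
  rw [Submodule.map_span, Set.image_singleton, LinearEquiv.coe_coe, e', e, smul_smul]
  exact Submodule.span_singleton_smul_eq (IsUnit.mk0 _ (mul_ne_zero
    (left_ne_zero_of_mul_eq_one ha) (left_ne_zero_of_smul h0))) w

theorem cls_n1 (h : IsHerm B) (h2 : 2 ≤ finrank F V) : Cls (Sc (sisom B)) (fun v : V => B v v ≠ 0)
    fun v => stW (sisom B) ((F ∙ v : Submodule F V) : Set V) := by
  refine ⟨fun v w hv hw => ?_, fun v hv ht => ?_, fun v _ => sc_stW _⟩
  · obtain ⟨x, hx⟩ := trans_n1 h hv hw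
    exact ⟨x, fun a ha => stW_conj' x hx ha⟩
  · have hv0 : v ≠ 0 := fun e => hv (by rw [e, map_zero])
    obtain ⟨w, hw, hw'⟩ := h.exists_norm_ne_zero (h.nondegOn_perp (nondegOn_span_singleton hv))
      (fun e => by
        have := h.finrank_add_finrank_perp (F ∙ v)
        rw [e, finrank_bot, finrank_span_singleton hv0] at this
        omega)
    obtain ⟨x, hx⟩ := trans_n1 h hv hw'
    have h3 : x ∈ stW (sisom B) ((F ∙ v : Submodule F V) : Set V) := ht ▸ Subgroup.mem_top _
    obtain ⟨y, hy, e⟩ : w ∈ (F ∙ v).map (x.1 : V →ₗ[F] V) :=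
      hx ▸ Submodule.mem_span_singleton_self w
    exact hw' (hw w (e ▸ h3 y hy))

theorem cls_ti (h : IsHerm B) {k : ℕ} (hk : k ≠ 0) :
    Cls (Sc (sisom B)) (fun W : Submodule F V => TotIso B W ∧ finrank F W = k)
      fun W => stW (sisom B) (W : Set V) := by
  refine ⟨fun U W hU hW => ?_, fun W hW ht => ?_, fun v _ => sc_stW _⟩
  · obtain ⟨g, hg, e⟩ := h.exists_map_eq_of_totIso hU.1 hW.1 (hU.2.trans hW.2.symm)
    have hd := h.det_norm hg
    obtain ⟨s, ⟨hs, hs'⟩, hs2⟩ := h.exists_stab_totIso_det hU.1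
      (by have := U.finrank_le; omega) (a := σ (LinearMap.det (g : V →ₗ[F] V)))
      (by rw [h.inv.invol, mul_comm, hd])
    refine ⟨⟨g * s, mem_sisom'.2 ⟨mul_mem hg hs', ?_⟩⟩, fun a ha => stW_conj' _ ?_ ha⟩
    · rw [← LinearEquiv.coe_det, map_mul, Units.val_mul, LinearEquiv.coe_det, LinearEquiv.coe_det,
        hs2, hd]
    · rw [← e]
      conv_rhs => rw [← mem_stab_iff_map_eq.1 hs, ← Submodule.map_comp]
      rfl
  · obtain ⟨w, hw, hw0⟩ := (Submodule.ne_bot_iff W).1 (fun e => by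
      have := hW.2
      rw [e, finrank_bot] at this
      exact hk this.symm)
    obtain ⟨f, hf, hwf⟩ := h.exists_hyperbolic' (hW.1 w hw w hw) hw0
    refine (h.stab_inf_sisom_lt hf (fun hfW => ?_) hw (h.flip_one hwf ▸ one_ne_zero)).not_ge
      fun g hg => ⟨mem_stab_of_le (ht ▸ Subgroup.mem_top (⟨g, hg⟩ : sisom B) :
        (⟨g, hg⟩ : sisom B) ∈ stW (sisom B) (W : Set V)), hg⟩
    rw [hW.1 w hw f hfW] at hwf
    exact zero_ne_one hwf

variable (B) in
/-- `g` fixes a non-isotropic point or a totally isotropic plane. -/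
def Goal4 (g : sisom B) : Prop :=
  (∃ v, B v v ≠ 0 ∧ g ∈ stW (sisom B) ((F ∙ v : Submodule F V) : Set V)) ∨
    ∃ W : Submodule F V, (TotIso B W ∧ finrank F W = 2) ∧ g ∈ stW (sisom B) (W : Set V)

theorem goal_of_even (h : IsHerm B) (h4 : finrank F V = 4) (g : sisom B) {f : F[X]}
    (hf : Irreducible f) (he : Even f.natDegree) {v : V} (hv : v ≠ 0)
    (h0 : aeval (g.1 : End F V) f v = 0) : Goal4 B g := by
  obtain ⟨m, hm⟩ := exists_pow_inv g
  have h1 := totIso_cyc h.inv (B := B) g.2.1 hm hf he hv h0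
  refine Or.inr ⟨_, ⟨h1, ?_⟩, fun x hx => cyc_inv hx⟩
  have h2 := h.two_mul_finrank_le h1
  have h3 : F ∙ v ≤ cyc (g.1 : End F V) v :=
    (Submodule.span_singleton_le_iff_mem _ _).2 (self_mem_cyc _ _)
  have h5 := Submodule.finrank_mono h3
  by_contra h6
  have h7 := Submodule.eq_of_le_of_finrank_le h3 (by rw [finrank_span_singleton hv]; omega)
  obtain ⟨c, hc⟩ := Submodule.mem_span_singleton.1 (h7 ▸ cyc_inv (self_mem_cyc _ _))
  rw [aeval_eig hc.symm, smul_eq_zero] at h0
  have h8 := natDegree_eq_of_degree_eq_some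
    (degree_eq_one_of_irreducible_of_root hf (h0.resolve_right hv))
  rw [h8] at he
  exact Nat.not_even_one he

theorem finrank_pair {w u : V} (hw : w ≠ 0) (hu : u ∉ F ∙ w) :
    finrank F (Submodule.span F {w, u}) = 2 := by
  have hli : LinearIndependent F ![w, u] := (LinearIndependent.pair_iff' hw).2 fun a e =>
    hu (Submodule.mem_span_singleton.2 ⟨a, e⟩)
  have := finrank_span_eq_card hli
  rwa [Matrix.range_cons_cons_empty] at this

theorem step4 (h : IsHerm B) {g : sisom B} {w u : V} {l μ c : F} (hw0 : w ≠ 0) (hw : B w w = 0)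
    (hl : g.1 w = l • w) (hwu : B w u = 0) (hu : u ∉ F ∙ w) (hμ : g.1 u = μ • u + c • w) :
    Goal4 B g ∨ (μ = l ∧ B u u ≠ 0) := by
  have huw := h.flip_zero hwu
  by_cases h1 : B u u = 0
  · refine Or.inl (Or.inr ⟨Submodule.span F {w, u}, ⟨?_, finrank_pair hw0 hu⟩, ?_⟩)
    · intro x hx y hy
      obtain ⟨a, b, rfl⟩ := Submodule.mem_span_pair.1 hx
      obtain ⟨a', b', rfl⟩ := Submodule.mem_span_pair.1 hy
      simp [hw, hwu, huw, h1]
    · intro x hx
      obtain ⟨a, b, rfl⟩ := Submodule.mem_span_pair.1 hx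
      exact Submodule.mem_span_pair.2 ⟨a * l + b * c, b * μ, by simp only [map_add, map_smul, hl, hμ]; module⟩
  by_cases h2 : μ = l
  · exact Or.inr ⟨h2, h1⟩
  refine Or.inl (Or.inl ⟨u + (c / (μ - l)) • w, by simpa [hw, hwu, huw] using h1,
    mem_stW_span (c := μ) ?_⟩)
  have h3 : c = μ * (c / (μ - l)) - c / (μ - l) * l := by
    have := sub_ne_zero.2 h2
    field_simp
  generalize c / (μ - l) = d at h3
  rw [map_add, map_smul, hl, hμ, h3]
  module

theorem first4 (h : IsHerm B) (h4 : finrank F V = 4) {g : sisom B} {w : V} {l : F} (hw0 : w ≠ 0)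
    (hw : B w w = 0) (hl : g.1 w = l • w) : Goal4 B g ∨
      ∃ (u : V) (μ c : F), B w u = 0 ∧ u ∉ F ∙ w ∧ g.1 u = μ • u + c • w := by
  have hP : ∀ x ∈ perp B (F ∙ w), (g.1 : End F V) x ∈ perp B (F ∙ w) := fun x hx =>
    (mem_stab_perp g.2.1 (mem_stab_of_le (mem_stW_span hl)) x).1 hx
  have hP3 : finrank F (perp B (F ∙ w)) = 3 := by
    have := h.finrank_add_finrank_perp (F ∙ w)
    rw [finrank_span_singleton hw0] at this
    omega
  let w' : perp B (F ∙ w) := ⟨w, mem_perp_span_singleton.2 hw⟩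
  have hw' : w' ≠ 0 := fun e => hw0 (congrArg Subtype.val e)
  let a : End F (perp B (F ∙ w)) := (g.1 : End F V).restrict hP
  have ha : (F ∙ w') ≤ (F ∙ w').comap a := by
    rw [Submodule.span_singleton_le_iff_mem]
    exact Submodule.mem_span_singleton.2 ⟨l, Subtype.ext hl.symm⟩
  let b := (F ∙ w').mapQ (F ∙ w') a ha
  have hQ : finrank F (perp B (F ∙ w) ⧸ (F ∙ w')) = 2 := by
    have := (F ∙ w').finrank_quotient_add_finrank
    rw [finrank_span_singleton hw'] at this
    omega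
  by_cases hr : ∃ μ, (LinearMap.charpoly b).IsRoot μ
  · obtain ⟨μ, hμ⟩ := hr
    obtain ⟨x, hx⟩ := ((End.hasEigenvalue_iff_isRoot_charpoly b μ).2 hμ).exists_hasEigenvector
    obtain ⟨u, rfl⟩ := Submodule.Quotient.mk_surjective _ x
    have h1 := hx.apply_eq_smul
    rw [Submodule.mapQ_apply, ← Submodule.Quotient.mk_smul, Submodule.Quotient.eq] at h1
    obtain ⟨c, hc⟩ := Submodule.mem_span_singleton.1 h1
    refine Or.inr ⟨u, μ, c, mem_perp_span_singleton.1 u.2, fun h2 => hx.2 ?_, ?_⟩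
    · obtain ⟨d, hd⟩ := Submodule.mem_span_singleton.1 h2
      exact (Submodule.Quotient.mk_eq_zero _).2
        (Submodule.mem_span_singleton.2 ⟨d, Subtype.ext hd⟩)
    · have h3 : c • w = g.1 u - μ • (u : V) := congrArg Subtype.val hc
      rw [h3, add_sub_cancel]
  · have hd : (LinearMap.charpoly b).natDegree = 2 := (LinearMap.charpoly_natDegree b).trans hQ
    have hf := irreducible_of_degree_le_three_of_not_isRoot (by rw [hd]; simp) (not_exists.1 hr)
    have h1 : LinearMap.range (aeval a (LinearMap.charpoly b)) ≤ F ∙ w' := by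
      rintro _ ⟨x, rfl⟩
      rw [← Submodule.Quotient.mk_eq_zero, ← Submodule.mkQ_apply,
        aeval_semiconj (b := b) (F ∙ w').mkQ (fun _ => rfl), LinearMap.aeval_self_charpoly,
        LinearMap.zero_apply]
    have h2 := Submodule.finrank_mono h1
    have h3 := (aeval a (LinearMap.charpoly b)).finrank_range_add_finrank_ker
    rw [finrank_span_singleton hw'] at h2
    obtain ⟨v, hv, hv0⟩ := (Submodule.ne_bot_iff (LinearMap.ker
      (aeval a (LinearMap.charpoly b)))).1 (fun e => by rw [e, finrank_bot] at h3; omega)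
    refine Or.inl (goal_of_even h h4 g hf (by rw [hd]; exact even_two) (v := v)
      (fun e => hv0 (Subtype.ext e)) ?_)
    have h5 := aeval_semiconj (a := a) (b := (g.1 : End F V)) (perp B (F ∙ w)).subtype
      (fun _ => rfl) (LinearMap.charpoly b) v
    rw [LinearMap.mem_ker.1 hv, map_zero] at h5
    exact h5.symm

theorem goal4 (h : IsHerm B) (h4 : finrank F V = 4) (g : sisom B) : Goal4 B g := by
  have : Nontrivial V := Module.nontrivial_of_finrank_pos (R := F) (by omega)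
  by_cases hr : ∃ l, (LinearMap.charpoly (g.1 : End F V)).IsRoot l
  swap
  · obtain ⟨f, hf, hd, v, hv, h0⟩ := exists_irred_ker (g.1 : End F V)
    obtain ⟨a, b, c⟩ := deg_factor (LinearMap.charpoly_monic _).ne_zero (not_exists.1 hr) hf hd
    rw [LinearMap.charpoly_natDegree, h4] at b c
    exact goal_of_even h h4 g hf (Nat.even_iff.2 (by omega)) hv h0
  obtain ⟨l, hl⟩ := hr
  obtain ⟨w, hw'⟩ := ((End.hasEigenvalue_iff_isRoot_charpoly _ l).2 hl).exists_hasEigenvector
  have hw0 := hw'.2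
  have hl : g.1 w = l • w := hw'.apply_eq_smul
  by_cases hw : B w w = 0
  swap
  · exact Or.inl ⟨w, hw, mem_stW_span hl⟩
  rcases first4 h h4 hw0 hw hl with h1 | ⟨u, μ, c, hwu, hu, hμ⟩
  · exact h1
  rcases step4 h hw0 hw hl hwu hu hμ with h1 | ⟨rfl, huu⟩
  · exact h1
  have hR : ∀ x ∈ perp B (Submodule.span F {w, u}), g.1 x ∈ perp B (Submodule.span F {w, u}) :=
    fun x hx => (mem_stab_perp g.2.1 (mem_stab_of_le fun y hy => by
      obtain ⟨a, b, rfl⟩ := Submodule.mem_span_pair.1 hy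
      exact Submodule.mem_span_pair.2 ⟨a * μ + b * c, b * μ, by
        simp only [map_add, map_smul, hl, hμ]; module⟩) x).1 hx
  have hR2 : finrank F (perp B (Submodule.span F {w, u})) = 2 := by
    have := h.finrank_add_finrank_perp (Submodule.span F {w, u})
    rw [finrank_pair hw0 hu] at this
    omega
  have hwR : w ∈ perp B (Submodule.span F {w, u}) := mem_perp_span.2 (by
    simp [hw, h.flip_zero hwu])
  obtain ⟨u2, hu2, hu2'⟩ : ∃ u2 ∈ perp B (Submodule.span F {w, u}), u2 ∉ F ∙ w := by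
    by_contra! h1
    have := Submodule.finrank_mono (show perp B (Submodule.span F {w, u}) ≤ F ∙ w from h1)
    rw [finrank_span_singleton hw0] at this
    omega
  have hE : Submodule.span F {w, u2} = perp B (Submodule.span F {w, u}) :=
    Submodule.eq_of_le_of_finrank_eq (Submodule.span_le.2 (by simp [Set.insert_subset_iff, hwR, hu2]))
      (by rw [finrank_pair hw0 hu2', hR2])
  obtain ⟨c2, μ2, e2⟩ := Submodule.mem_span_pair.1 (hE ▸ hR u2 hu2)
  obtain ⟨hwu2, huu2⟩ : B w u2 = 0 ∧ B u u2 = 0 := by simpa using mem_perp_span.1 hu2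
  rcases step4 h hw0 hw hl hwu2 hu2' (e2.symm.trans (add_comm _ _)) with h1 | ⟨rfl, h22⟩
  · exact h1
  obtain ⟨s, hs⟩ := h.exists_smul_norm_eq h22 (a := -B u u) (by rw [map_neg, h.norm_fixed])
  refine (step4 h hw0 hw hl (u := u + s • u2) (μ := μ2) (c := c + s * c2)
    (by simp [hwu, hwu2]) (fun h1 => huu ?_)
    (by rw [map_add, map_smul, hμ, ← e2]; module)).resolve_right fun h1 => h1.2 ?_
  · obtain ⟨d, hd⟩ := Submodule.mem_span_singleton.1 h1
    have := congrArg (B u) hd
    simpa [huu2, h.flip_zero hwu] using this.symm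
  · rw [add_left, map_add, map_add, hs]
    simp [huu2, h.flip_zero huu2]

end Uni

theorem cov_psu4 {F : Type} [Field F] [Fintype F] {q : ℕ} (hF : Fintype.card F = q ^ 2) :
    Cov (PSU 4 F q) := by
  have h := isHerm_hermB hF 4
  refine CovZ.quot (suEquiv hF 4) (covZ_of (cls_n1 h (by simp)) (cls_ti h two_ne_zero)
    (goal4 h (by simp))) _ fun z hz => ?_
  obtain ⟨a, ha⟩ := (mem_center_SU_iff hF (by norm_num)).1 hz
  exact ⟨a, fun v => by rw [suEquiv_apply, ha, Matrix.smul_mulVec, Matrix.one_mulVec]⟩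

end Cfsg.Agent.H29.Cv
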