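import Cfsg.Agent.H29.CvD

/-! Self-adjoint operators normalised by an isometry in characteristic three. -/

set_option autoImplicit false

namespace Cfsg.Agent.H29.Cv

open Module Polynomial Cfsg.Agent.H31 LinearMap

section Tr

variable {F V : Type*} [Field F] [AddCommGroup V] [Module F V] [FiniteDimensional F V]

theorem trace_eq_of {ι : Type*} [Fintype ι] (φ : ι → Dual F V) (c : ι → V)
    (h : ∀ x, ∑ i, φ i x • c i = x) (a : End F V) : trace F V a = ∑ i, φ i (a (c i)) := by
  have : a = ∑ i, (φ i).smulRight (a (c i)) := LinearMap.ext fun x => by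
    conv_lhs => rw [← h x]
    simp
  conv_lhs => rw [this]
  simp [trace_smulRight]

theorem eq_zero_of_trace {a : End F V} (h : ∀ x, trace F V (a * x) = 0) : a = 0 :=
  LinearMap.ext fun v => (forall_dual_apply_eq_zero_iff F _).1 fun φ => by
    rw [← trace_smulRight, ← h (φ.smulRight v)]
    congr 1
    ext; simp

theorem exists_shift {g : End F V} (h : ∀ a, Commute a g → trace F V a = 0) :
    ∃ e : End F V, e * g = g * e + g := by
  let T : End F V →ₗ[F] End F V := LinearMap.mulRight F g - LinearMap.mulLeft F g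
  by_contra h1
  have h2 : g ∉ range T := fun ⟨e, he⟩ => h1 ⟨e, by rw [← sub_eq_iff_eq_add']; exact he⟩
  obtain ⟨φ, h3, h4⟩ := Submodule.exists_dual_map_eq_bot_of_notMem h2 inferInstance
  let Φ : End F V →ₗ[F] Dual F (End F V) := (LinearMap.mul F (End F V)).compr₂ (trace F V)
  have h5 : Function.Injective Φ := (injective_iff_map_eq_zero Φ).2 fun a ha =>
    eq_zero_of_trace fun x => LinearMap.congr_fun ha x
  obtain ⟨a, rfl⟩ := (injective_iff_surjective_of_finrank_eq_finrank
    Subspace.dual_finrank_eq.symm).1 h5 φ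
  have h6 : g * a - a * g = 0 := eq_zero_of_trace fun x => by
    have h7 : trace F V (a * (x * g - g * x)) = 0 :=
      (Submodule.eq_bot_iff _).1 h4 _ ⟨_, ⟨x, rfl⟩, rfl⟩
    rw [← h7, sub_mul, mul_sub, map_sub, map_sub, mul_assoc, trace_mul_comm, mul_assoc, mul_assoc]
  refine h3 (h (a * g) ?_)
  exact Commute.mul_left (sub_eq_zero.1 h6).symm (Commute.refl g)

end Tr

theorem cube_add {R : Type*} [Ring R] (h3 : (3 : R) = 0) {e a b c : R} (h1 : e * a = a * e + b)
    (h2 : e * b = b * e + c) (h4 : a * b = b * a) : (e + a) ^ 3 = e ^ 3 + a ^ 3 + c := by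
  linear_combination (norm := noncomm_ring) e * h1 + 2 * (h1 * e) + h2 + h1 * a + 2 * (a * h1) - h4 +
    h3 * (a * e * e + b * e + a * a * e + a * b)

section Form

variable {F V : Type*} [Field F] [AddCommGroup V] [Module F V] {σ : F →+* F}

/-- A non-degenerate hermitian or alternating form. -/
structure EF (ε : F) (B : V →ₛₗ[σ] V →ₗ[F] F) : Prop where
  inv : ∀ a, σ (σ a) = a
  symm : ∀ x y, B x y = ε * σ (B y x)
  sep : ∀ x, (∀ y, B x y = 0) → x = 0
  rep : ∀ φ : Dual F V, ∃ e, B e = φ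

/-- `a'` is the adjoint of `a`. -/
def Adj (B : V →ₛₗ[σ] V →ₗ[F] F) (a a' : End F V) : Prop := ∀ x y, B (a x) y = B x (a' y)

variable {ε : F} {B : V →ₛₗ[σ] V →ₗ[F] F}

theorem EF.refl (h : EF ε B) {x y : V} (h1 : B x y = 0) : B y x = 0 := by
  rw [h.symm, h1, map_zero, mul_zero]

theorem EF.ext_left (h : EF ε B) {x y : V} (h1 : ∀ z, B x z = B y z) : x = y :=
  sub_eq_zero.1 (h.sep _ fun z => by rw [sub_left, h1, sub_self])

theorem EF.ext_right (h : EF ε B) {x y : V} (h1 : ∀ z, B z x = B z y) : x = y :=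
  sub_eq_zero.1 (h.sep _ fun z => h.refl (by rw [map_sub, h1, sub_self]))

theorem Adj.symm (h : EF ε B) {a a' : End F V} (h1 : Adj B a a') : Adj B a' a := fun x y => by
  rw [h.symm, ← h1, ← h.symm]

theorem Adj.unique (h : EF ε B) {a b c : End F V} (h1 : Adj B a b) (h2 : Adj B a c) : b = c :=
  LinearMap.ext fun y => h.ext_right fun z => (h1 z y).symm.trans (h2 z y)

theorem Adj.add {a a' b b' : End F V} (h1 : Adj B a a') (h2 : Adj B b b') :
    Adj B (a + b) (a' + b') := fun x y => by simp [h1 x, h2 x]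

theorem Adj.sub {a a' b b' : End F V} (h1 : Adj B a a') (h2 : Adj B b b') :
    Adj B (a - b) (a' - b') := fun x y => by simp [h1 x, h2 x]

theorem Adj.neg {a a' : End F V} (h1 : Adj B a a') : Adj B (-a) (-a') := fun x y => by
  simp [h1 x]

theorem Adj.mul {a a' b b' : End F V} (h1 : Adj B a a') (h2 : Adj B b b') :
    Adj B (a * b) (b' * a') := fun x y => by rw [End.mul_apply, End.mul_apply, h1, h2]

theorem Adj.smul {a a' : End F V} (h1 : Adj B a a') (c : F) : Adj B (c • a) (σ c • a') :=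
  fun x y => by simp [h1 x]

theorem Adj.one : Adj B 1 1 := fun _ _ => rfl

theorem Adj.pow {a a' : End F V} (h1 : Adj B a a') (n : ℕ) : Adj B (a ^ n) (a' ^ n) := by
  induction n with
  | zero => exact Adj.one
  | succ n ih => rw [pow_succ, pow_succ']; exact ih.mul h1

variable [FiniteDimensional F V]

theorem EF.exists_adj (h : EF ε B) (a : End F V) :
    ∃ a', Adj B a a' ∧ trace F V a' = σ (trace F V a) := by
  choose r hr using h.rep
  let a' : End F V :=
    { toFun := fun y => r (B y ∘ₗ a)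
      map_add' := fun x y => h.ext_left fun z => by simp [hr]
      map_smul' := fun c x => h.ext_left fun z => by simp [hr] }
  have h1 : Adj B a a' := Adj.symm h fun x y => LinearMap.congr_fun (hr (B x ∘ₗ a)) y
  refine ⟨a', h1, ?_⟩
  let b := finBasis F V
  let φ : Fin (finrank F V) → Dual F V := fun i =>
    { toFun := fun x => σ (B x (b i))
      map_add' := fun x y => by simp
      map_smul' := fun c x => by simp [h.inv] }
  have h2 : ∀ x, ∑ i, φ i x • r (b.coord i) = x := fun x => h.ext_left fun z => by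
    have h3 : B (∑ i, φ i x • r (b.coord i)) = B x := b.ext fun j => by
      simp [φ, hr, h.inv, Finsupp.single_apply]
    rw [h3]
  rw [trace_eq_of φ _ h2 a, trace_eq_of b.coord b b.sum_repr a', map_sum]
  refine Finset.sum_congr rfl fun i _ => ?_
  rw [← hr (b.coord i), ← h1, hr]
  exact (h.inv _).symm

theorem EF.fit (h : EF ε B) {b g : End F V} (hb : Adj B b b) (hc : Commute b g) :
    IsNilpotent b ∨ Function.Injective b ∨
      ∃ U : Submodule F V, U ≠ ⊥ ∧ U ≠ ⊤ ∧ NondegOn B U ∧ ∀ x ∈ U, g x ∈ U := by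
  obtain ⟨n, hn, h0⟩ := ((eventually_isCompl_ker_pow_range_pow b).and
    (Filter.eventually_ge_atTop 1)).exists
  by_cases h1 : ker (b ^ n) = ⊤
  · exact Or.inl ⟨n, ker_eq_top.1 h1⟩
  by_cases h2 : ker (b ^ n) = ⊥
  · refine Or.inr (Or.inl ((injective_iff_map_eq_zero b).2 fun x hx => ?_))
    obtain ⟨k, rfl⟩ := Nat.exists_eq_add_of_le' h0
    exact (Submodule.eq_bot_iff _).1 h2 x (by rw [mem_ker, pow_succ, End.mul_apply, hx, map_zero])
  refine Or.inr (Or.inr ⟨_, h2, h1, fun x hx h3 => h.sep x fun y => ?_, fun x hx => ?_⟩)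
  · obtain ⟨u, hu, _, ⟨w, rfl⟩, rfl⟩ := Submodule.mem_sup.1 (hn.sup_eq_top ▸ Submodule.mem_top (x := y))
    rw [map_add, h3 u hu, ← hb.pow n, mem_ker.1 hx, zero_left, add_zero]
  · rw [mem_ker, ← End.mul_apply, (hc.pow_left n).eq, End.mul_apply, mem_ker.1 hx, map_zero]

theorem semiconj_pow {R : Type*} [Ring R] {e g : R} (h : e * g = g * e + g) (n : ℕ) :
    e ^ n * g = g * (e + 1) ^ n :=
  (SemiconjBy.pow_right (a := g) (x := e + 1) (y := e) (by
    rw [SemiconjBy, mul_add, mul_one, h]) n).symm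

theorem EF.exists_as [Finite F] [CharP F 3] [Nontrivial V] (h : EF ε B) (h3 : 3 ∣ finrank F V)
    {g k : End F V} (hg : Adj B g k) (hgk : g * k = 1) (hkg : k * g = 1)
    (H : ∀ a, Adj B a a → Commute a g → ∃ l : F, σ l = l ∧ IsNilpotent (a - l • 1))
    {δ : F} (hδ : σ δ = δ) : ∃ e : End F V, Adj B e e ∧ e * g = g * e + g ∧ e ^ 3 - e = δ • 1 := by
  have : CharP (End F V) 3 := charP_of_injective_algebraMap (algebraMap F (End F V)).injective 3
  have t3 : (3 : End F V) = 0 := CharP.cast_eq_zero _ 3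
  have t3' : (3 : F) = 0 := CharP.cast_eq_zero _ 3
  have ck : ∀ {a : End F V}, Commute a g → Commute a k := fun {a} ha => by
    show a * k = k * a
    linear_combination (norm := noncomm_ring) -(k * ha.eq * k) + k * a * hgk - hkg * a * k
  have cg : ∀ {a : End F V}, Commute a k → Commute a g := fun {a} ha => by
    show a * g = g * a
    linear_combination (norm := noncomm_ring) -(g * ha.eq * g) + g * a * hkg - hgk * a * g
  have h1 : ∀ a, Adj B a a → Commute a g → trace F V a = 0 := fun a ha hc => by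
    obtain ⟨l, -, hl⟩ := H a ha hc
    have := (isNilpotent_trace_of_isNilpotent hl).eq_zero
    rwa [map_sub, map_smul, trace_one, (CharP.cast_eq_zero_iff F 3 _).2 h3, smul_zero,
      sub_zero] at this
  have h2 : ∀ a, Commute a g → trace F V a = 0 := fun a hc => by
    by_contra h0
    obtain ⟨a', ha, ht⟩ := h.exists_adj ((trace F V a)⁻¹ • a)
    have hc' : Commute ((trace F V a)⁻¹ • a) g := hc.smul_left _
    have h4 := h1 _ (by have := ha.add (ha.symm h); rwa [add_comm a'] at this)
      (hc'.add_left (cg ((hg.mul ha).unique h (hc'.eq ▸ ha.mul hg))))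
    rw [map_add, ht, map_smul, smul_eq_mul, inv_mul_cancel₀ h0, map_one] at h4
    exact one_ne_zero (α := F) (by linear_combination t3' - h4)
  obtain ⟨e0, he0⟩ := exists_shift h2
  obtain ⟨e0', he0', -⟩ := h.exists_adj e0
  have h4 : k * e0' = e0' * k + k := (he0'.mul hg).unique h (he0 ▸ (hg.mul he0').add hg)
  obtain ⟨e, he, heg⟩ : ∃ e : End F V, Adj B e e ∧ e * g = g * e + g :=
    ⟨-(e0 + e0'), Adj.neg (by have := he0'.add (he0'.symm h); rwa [add_comm e0'] at this), by
      linear_combination (norm := noncomm_ring) -he0 - g * h4 * g + hgk * e0' * g - g * e0' * hkg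
        - g * hkg - t3 * g⟩
  have hek : e * k = k * e - k := by
    linear_combination (norm := noncomm_ring) -(k * heg * k) + k * e * hgk - hkg * e * k - hkg * k
  have hcube : ∀ {e : End F V}, e * g = g * e + g → Commute (e ^ 3 - e) g := fun {e} he => by
    have := semiconj_pow he 3
    rw [add_pow_char_of_commute 3 (Commute.one_right e)] at this
    show (e ^ 3 - e) * g = g * (e ^ 3 - e)
    linear_combination (norm := noncomm_ring) this - he
  obtain ⟨y, hy, hN⟩ := H (g + k) (by have := hg.add (hg.symm h); rwa [add_comm k] at this)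
    ((Commute.refl g).add_left (hkg.trans hgk.symm))
  obtain ⟨d, hd, hn⟩ := H (e ^ 3 - e) ((he.pow 3).sub he) (hcube heg)
  obtain ⟨t, ht⟩ : ∃ t, t = δ - d := ⟨_, rfl⟩
  have hY : Adj B (g + k) (g + k) := by have := hg.add (hg.symm h); rwa [add_comm k] at this
  have hcY : Commute (g + k) (g + k - y • 1) :=
    (Commute.refl _).sub_right ((Commute.one_right _).smul_right y)
  have ha : Adj B (t • ((g + k) * (g + k - y • 1))) (t • ((g + k) * (g + k - y • 1))) := by
    have := (hY.mul (hY.sub (Adj.one.smul y))).smul t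
    rwa [hy, ← hcY.eq, ht, map_sub, hδ, hd, ← ht] at this
  have hA : (g + k) * (g + k - y • 1) = g * g + k * k + (1 + 1) - y • (g + k) := by
    rw [mul_sub, mul_smul_comm, mul_one]
    linear_combination (norm := noncomm_ring) hgk + hkg
  have c1 : ∀ {a : End F V}, Commute a g → Commute a (t • ((g + k) * (g + k - y • 1))) :=
    fun {a} ha => ((ha.add_right (ck ha)).mul_right ((ha.add_right (ck ha)).sub_right
      ((Commute.one_right _).smul_right y))).smul_right t
  have h5 : (e + t • ((g + k) * (g + k - y • 1))) ^ 3 =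
      e ^ 3 + (t • ((g + k) * (g + k - y • 1))) ^ 3 + (t • ((g + k) * (g + k - y • 1)) + t • 1) := by
    refine cube_add t3 (b := t • (2 * (g * g) - 2 * (k * k) - y • (g - k))) ?_ ?_ ?_
    · rw [hA, mul_smul_comm, smul_mul_assoc, ← smul_add]
      congr 1
      rw [mul_sub, sub_mul, mul_smul_comm, smul_mul_assoc]
      have : e * (g + k) = (g + k) * e + (g - k) := by
        linear_combination (norm := noncomm_ring) heg + hek
      rw [this, smul_add]
      linear_combination (norm := noncomm_ring) heg * g + g * heg + hek * k + k * hek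
    · rw [hA, mul_smul_comm, smul_mul_assoc, ← smul_add, ← smul_add]
      congr 1
      rw [mul_sub, sub_mul, mul_smul_comm, smul_mul_assoc]
      have : e * (g - k) = (g - k) * e + (g + k) := by
        linear_combination (norm := noncomm_ring) heg - hek
      rw [this, smul_add]
      linear_combination (norm := noncomm_ring) 2 * (heg * g + g * heg - hek * k - k * hek) +
        t3 * (g * g + k * k - 1)
    · have cgk : Commute k g := hkg.trans hgk.symm
      have c2 : Commute 2 g := (Nat.cast_commute 2 g)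
      exact (c1 ((((c2.mul_left ((Commute.refl g).mul_left (Commute.refl g))).sub_left
        (c2.mul_left (cgk.mul_left cgk))).sub_left
        (((Commute.refl g).sub_left cgk).smul_left y)).smul_left t)).symm
  have hnil : IsNilpotent ((t • ((g + k) * (g + k - y • 1))) ^ 3) :=
    ((hcY.isNilpotent_mul_left hN).smul t).pow_of_pos three_ne_zero
  have h6 := (c1 ((hcube heg).sub_left ((Commute.one_left g).smul_left d))).pow_right 3
  obtain ⟨r, hr⟩ := h6.isNilpotent_add hn hnil
  have h7 : (e + t • ((g + k) * (g + k - y • 1))) * g =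
      g * (e + t • ((g + k) * (g + k - y • 1))) + g := by
    rw [add_mul, mul_add, heg, (c1 (Commute.refl g)).eq]; abel
  have h8 : (e + t • ((g + k) * (g + k - y • 1))) ^ 3 - (e + t • ((g + k) * (g + k - y • 1))) -
      δ • 1 = e ^ 3 - e - d • 1 + (t • ((g + k) * (g + k - y • 1))) ^ 3 := by
    rw [h5, ht, sub_smul (δ) d 1]; abel
  rw [← h8] at hr
  have h9 := he.add ha
  generalize e + t • ((g + k) * (g + k - y • 1)) = f at h7 h9 hr
  have := Fintype.ofFinite F
  obtain ⟨s, -, hs⟩ := FiniteField.card F 3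
  refine ⟨f ^ 3 ^ (s * r), h9.pow _, ?_, ?_⟩
  · rw [semiconj_pow h7, add_pow_char_pow_of_commute 3 _ (Commute.one_right f), one_pow, mul_add,
      mul_one]
  · have h10 : (f ^ 3 - f - δ • 1) ^ 3 ^ (s * r) = 0 := pow_eq_zero_of_le
      ((Nat.le_mul_of_pos_left r s.2).trans (Nat.lt_pow_self (by norm_num)).le) hr
    rw [sub_pow_char_pow_of_commute 3 _ ((Commute.one_right _).smul_right δ),
      sub_pow_char_pow_of_commute 3 _ ((Commute.refl f).pow_left 3), _root_.smul_pow, one_pow, pow_mul,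
      ← hs, FiniteField.pow_card_pow, ← pow_mul, mul_comm, pow_mul, sub_eq_zero, hs,
      ← pow_mul 3] at h10
    exact h10

omit [FiniteDimensional F V] in
theorem exists_delta [Finite F] [CharP F 3] (hσ : ∀ a, σ (σ a) = a) :
    ∃ δ : F, σ δ = δ ∧ ∀ x, x ^ 3 - x ≠ δ := by
  have t3 : (3 : F) = 0 := CharP.cast_eq_zero _ 3
  by_contra! h
  let f : fixedField σ → fixedField σ := fun x => x ^ 3 - x
  have h1 : Function.Surjective f := fun d => by
    obtain ⟨x, hx⟩ := h d d.2
    have h2 : σ x ^ 3 - σ x = d := by rw [← map_pow, ← map_sub, hx]; exact d.2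
    have h3 : (σ x - x) * ((σ x - x - 1) * (σ x - x + 1)) = 0 := by
      linear_combination h2 - hx + (-σ x ^ 2 * x + σ x * x ^ 2) * t3
    have h4 : σ x = x := by
      rcases mul_eq_zero.1 h3 with h4 | h4
      · exact sub_eq_zero.1 h4
      · exfalso
        rcases mul_eq_zero.1 h4 with h5 | h5
        · have h6 := congrArg σ h5
          rw [map_sub, map_sub, hσ, map_one, map_zero] at h6
          exact one_ne_zero (α := F) (by linear_combination t3 + h5 + h6)
        · have h6 := congrArg σ h5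
          rw [map_add, map_sub, hσ, map_one, map_zero] at h6
          exact one_ne_zero (α := F) (by linear_combination t3 - h5 - h6)
    exact ⟨⟨x, h4⟩, Subtype.ext hx⟩
  exact zero_ne_one (Finite.injective_iff_surjective.2 h1 (show f 0 = f 1 by simp [f]))

omit [FiniteDimensional F V] in
theorem hom_of_irred {E : Type*} [Field E] [Algebra F E] [Finite E] {a : End F V} {f : F[X]}
    (hf : Irreducible f) (hd : f.natDegree = finrank F E) (h0 : aeval a f = 0) :
    ∃ ι : E →ₐ[F] End F V, Set.range ι = Set.range (aeval a : F[X] →ₐ[F] End F V) := by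
  have : Finite F := Finite.of_injective _ (algebraMap F E).injective
  have := Fact.mk hf
  have : Module.Finite F (AdjoinRoot f) := (AdjoinRoot.powerBasis hf.ne_zero).finite
  have : Finite (AdjoinRoot f) := Module.finite_of_finite F
  have h1 : finrank F E = finrank F (AdjoinRoot f) := by
    rw [(AdjoinRoot.powerBasis hf.ne_zero).finrank, AdjoinRoot.powerBasis_dim, hd]
  obtain ⟨ψ⟩ := FiniteField.nonempty_algHom_of_finrank_dvd (F := F) (K := E) (L := AdjoinRoot f)
    (h1 ▸ dvd_rfl)
  have h2 : Function.Surjective ψ :=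
    (injective_iff_surjective_of_finrank_eq_finrank (f := ψ.toLinearMap) h1).1 ψ.injective
  let f3 : AdjoinRoot f →ₐ[F] End F V := Ideal.Quotient.liftₐ (Ideal.span {f}) (aeval a) (by
    intro x hx
    obtain ⟨b, rfl⟩ := Ideal.mem_span_singleton.1 hx
    rw [map_mul, h0, zero_mul])
  refine ⟨f3.comp ψ, Set.ext fun x => ⟨?_, ?_⟩⟩
  · rintro ⟨e, rfl⟩
    obtain ⟨p, hp⟩ := AdjoinRoot.mk_surjective (ψ e)
    exact ⟨p, by rw [AlgHom.comp_apply, ← hp]; rfl⟩
  · rintro ⟨p, rfl⟩
    obtain ⟨e, he⟩ := h2 (AdjoinRoot.mk f p)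
    exact ⟨e, by rw [AlgHom.comp_apply, he]; rfl⟩

omit [FiniteDimensional F V] in
theorem hom_of_as {E : Type*} [Field E] [Algebra F E] [Finite E] (hE : finrank F E = 3)
    {Γ : Subgroup (V ≃ₗ[F] V)} [Finite Γ] {g : Γ} {e : End F V} {δ : F} (hδ : ∀ x, x ^ 3 - x ≠ δ)
    (h1 : e * g.1 = g.1 * e + g.1) (h2 : e ^ 3 - e = δ • 1) :
    ∃ ι : E →ₐ[F] End F V, Set.range ι = Set.range (aeval e : F[X] →ₐ[F] End F V) ∧
      g ∈ stE Γ (Set.range ι) := by
  have hd : (X ^ 3 - X - C δ : F[X]).natDegree = 3 := by compute_degree!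
  obtain ⟨ι, hι⟩ := hom_of_irred (E := E) (a := e) (f := X ^ 3 - X - C δ)
    (irreducible_of_degree_le_three_of_not_isRoot (by rw [hd]; simp) fun x hx => hδ x (by
      simpa [sub_eq_zero] using hx)) (hd.trans hE.symm) (by
      simp [h2, Algebra.algebraMap_eq_smul_one])
  refine ⟨ι, hι, ?_⟩
  rw [hι]
  rintro _ ⟨p, rfl⟩
  refine ⟨_, ⟨p.comp (X - 1), rfl⟩, fun v => ?_⟩
  rw [aeval_comp, map_sub, map_one, aeval_X]
  refine aeval_semiconj (g.1 : V →ₗ[F] V) (fun w => ?_) p v
  have := LinearMap.congr_fun h1 w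
  rw [End.mul_apply, LinearMap.add_apply, End.mul_apply] at this
  rw [LinearMap.sub_apply, this, End.one_apply, add_sub_cancel_right]

theorem EF.final {E : Type*} [Field E] [Algebra F E] [Finite E] [CharP F 3] [Nontrivial V]
    (h : EF ε B) (h3 : 3 ∣ finrank F V) (hE : finrank F E = 3) {Γ : Subgroup (V ≃ₗ[F] V)} [Finite Γ]
    (g : Γ) (hg : ∀ x y, B (g.1 x) (g.1 y) = B x y)
    (H : ∀ a, Adj B a a → Commute a (g.1 : End F V) → ∃ l : F, σ l = l ∧ IsNilpotent (a - l • 1)) :
    ∃ (e : End F V) (ι : E →ₐ[F] End F V), Adj B e e ∧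
      Set.range ι = Set.range (aeval e : F[X] →ₐ[F] End F V) ∧ g ∈ stE Γ (Set.range ι) := by
  have : Finite F := Finite.of_injective _ (algebraMap F E).injective
  obtain ⟨m, hm⟩ := exists_pow_inv g
  obtain ⟨δ, h1, h2⟩ := exists_delta h.inv
  obtain ⟨e, a, b, c⟩ := h.exists_as h3 (adj_pow hg hm) (by rw [← pow_succ', hm])
    (by rw [← pow_succ, hm]) H h1
  obtain ⟨ι, d, f⟩ := hom_of_as hE h2 b c
  exact ⟨e, ι, a, d, f⟩

omit [FiniteDimensional F V] in
theorem comm_aeval {a g : End F V} (h : Commute a g) (p : F[X]) : Commute (aeval a p) g :=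
  LinearMap.ext fun v => (aeval_semiconj g (fun w => (LinearMap.congr_fun h.eq w).symm) p v).symm

omit [FiniteDimensional F V] in
theorem mem_stE_of_comm {E : Type*} {Γ : Subgroup (V ≃ₗ[F] V)} [Finite Γ] {g : Γ} {a : End F V}
    (hc : Commute a g.1) {ι : E → End F V} (h : ∀ e, ∃ p : F[X], aeval a p = ι e) :
    g ∈ stE Γ (Set.range ι) := by
  rintro _ ⟨e, rfl⟩
  refine ⟨_, ⟨e, rfl⟩, fun v => ?_⟩
  obtain ⟨p, hp⟩ := h e
  rw [← hp]
  exact (LinearMap.congr_fun (comm_aeval hc p).eq v).symm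

end Form

section Lift

variable {F V E : Type*} [Field F] [AddCommGroup V] [Module F V] {σ : F →+* F} {ε : F}
  {B : V →ₛₗ[σ] V →ₗ[F] F} [Field E] [Algebra F E] [Finite E]

theorem ext_trace {a b : E} (h : ∀ e, Algebra.trace F E (a * e) = Algebra.trace F E (b * e)) :
    a = b := by
  have : Finite F := Finite.of_injective _ (algebraMap F E).injective
  exact sub_eq_zero.1 ((traceForm_nondegenerate F E).1 _ fun e => by
    rw [Algebra.traceForm_apply, sub_mul, map_sub, h, sub_self])

theorem exists_lift (ι : E →ₐ[F] End F V) (θ : E →+* E) (hθ : ∀ e, Adj B (ι e) (ι (θ e))) :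
    ∃ H : MV ι →ₛₗ[θ] MV ι →ₗ[E] E,
      ∀ x y e, Algebra.trace F E (H (toMV ι x) (toMV ι y) * e) = B x (ι e y) := by
  have : Finite F := Finite.of_injective _ (algebraMap F E).injective
  have key : ∀ x y : MV ι, ∃ c : E, ∀ e, Algebra.trace F E (c * e) =
      B ((toMV ι).symm x) (ι e ((toMV ι).symm y)) := fun x y => by
    obtain ⟨c, hc⟩ := (LinearMap.BilinForm.toDual _ (traceForm_nondegenerate F E)).surjective
      (B ((toMV ι).symm x) ∘ₗ LinearMap.applyₗ ((toMV ι).symm y) ∘ₗ ι.toLinearMap)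
    exact ⟨c, fun e => LinearMap.congr_fun hc e⟩
  choose c hc using key
  refine ⟨LinearMap.mk₂'ₛₗ θ (RingHom.id E) c (fun x x' y => ?_) (fun a x y => ?_)
    (fun x y y' => ?_) (fun a x y => ?_), fun x y => hc _ _⟩
  · refine ext_trace (F := F) fun e => ?_
    rw [add_mul, map_add, hc, hc, hc, map_add]
    exact add_left B _ _ _
  · refine ext_trace (F := F) fun e => ?_
    rw [smul_eq_mul, mul_comm (θ a), mul_assoc, hc, hc, map_mul]
    exact hθ a _ _
  · refine ext_trace (F := F) fun e => ?_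
    rw [add_mul, map_add, hc, hc, hc, map_add, map_add, map_add]
  · refine ext_trace (F := F) fun e => ?_
    rw [RingHom.id_apply, smul_eq_mul, mul_comm a, mul_assoc, hc, hc, mul_comm a, map_mul]
    rfl

theorem lift_symm (h : EF ε B) {ι : E →ₐ[F] End F V} {θ : E →+* E}
    (hθ : ∀ e, Adj B (ι e) (ι (θ e))) (h1 : ∀ e, θ (θ e) = e)
    (h2 : ∀ e, σ (Algebra.trace F E e) = Algebra.trace F E (θ e)) {H : MV ι →ₛₗ[θ] MV ι →ₗ[E] E}
    (hH : ∀ x y e, Algebra.trace F E (H (toMV ι x) (toMV ι y) * e) = B x (ι e y)) (x y : MV ι) :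
    H x y = algebraMap F E ε * θ (H y x) := by
  obtain ⟨x, rfl⟩ := (toMV ι).surjective x
  obtain ⟨y, rfl⟩ := (toMV ι).surjective y
  refine ext_trace (F := F) fun e => ?_
  rw [hH, h.symm, hθ, ← hH, h2, map_mul, h1, mul_assoc, ← Algebra.smul_def, map_smul, smul_eq_mul]

theorem lift_sep (h : EF ε B) {ι : E →ₐ[F] End F V} {θ : E →+* E} {H : MV ι →ₛₗ[θ] MV ι →ₗ[E] E}
    (hH : ∀ x y e, Algebra.trace F E (H (toMV ι x) (toMV ι y) * e) = B x (ι e y)) (x : MV ι)
    (hx : ∀ y, H x y = 0) : x = 0 := by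
  obtain ⟨x, rfl⟩ := (toMV ι).surjective x
  rw [h.sep x fun y => ?_, map_zero]
  have := hH x y 1
  rw [hx, zero_mul, map_zero, map_one] at this
  exact this.symm

theorem exists_theta [Nontrivial V] (h : EF ε B) (ι : E →ₐ[F] End F V)
    (hι : ∀ e, ∃ e', Adj B (ι e) (ι e')) : ∃ θ : E →+* E, (∀ e, Adj B (ι e) (ι (θ e))) ∧
      (∀ e, θ (θ e) = e) ∧ ∀ c, θ (algebraMap F E c) = algebraMap F E (σ c) := by
  choose t ht using hι
  have key : ∀ {e e'}, Adj B (ι e) (ι e') → t e = e' := fun h1 =>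
    ι.toRingHom.injective ((ht _).unique h h1)
  refine ⟨{ toFun := t
            map_one' := key (by rw [map_one]; exact Adj.one)
            map_mul' := fun a b => key (by rw [mul_comm (t a), map_mul, map_mul]; exact (ht a).mul (ht b))
            map_zero' := key (by rw [map_zero]; exact fun x y => by simp)
            map_add' := fun a b => key (by rw [map_add, map_add]; exact (ht a).add (ht b)) },
    ht, fun e => key ((ht e).symm h), fun c => key ?_⟩
  rw [ι.commutes, ι.commutes, Algebra.algebraMap_eq_smul_one, Algebra.algebraMap_eq_smul_one]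
  exact Adj.one.smul c

theorem trace_theta (hσ : ∀ a, σ (σ a) = a) {θ : E →+* E} (h1 : ∀ e, θ (θ e) = e)
    (h2 : ∀ c, θ (algebraMap F E c) = algebraMap F E (σ c)) (e : E) :
    σ (Algebra.trace F E e) = Algebra.trace F E (θ e) := by
  have := Algebra.trace_eq_of_equiv_equiv
    (RingEquiv.ofBijective σ (Function.Involutive.bijective hσ))
    (RingEquiv.ofBijective θ (Function.Involutive.bijective h1)) (RingHom.ext fun c => (h2 c).symm) e
  exact (RingEquiv.eq_symm_apply _).1 this

theorem conj_of_lift {ι ι' : E →ₐ[F] End F V} {θ : E →+* E} {H : MV ι →ₛₗ[θ] MV ι →ₗ[E] E}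
    {H' : MV ι' →ₛₗ[θ] MV ι' →ₗ[E] E}
    (h : ∀ x y e, Algebra.trace F E (H (toMV ι x) (toMV ι y) * e) = B x (ι e y))
    (h' : ∀ x y e, Algebra.trace F E (H' (toMV ι' x) (toMV ι' y) * e) = B x (ι' e y))
    (y : MV ι ≃ₗ[E] MV ι') (hy : ∀ u v, H' (y u) (y v) = H u v) :
    ∃ x : V ≃ₗ[F] V, (∀ u v, B (x u) (x v) = B u v) ∧ ∀ e v, x (ι e v) = ι' e (x v) := by
  refine ⟨(toMV ι).trans ((y.restrictScalars F).trans (toMV ι').symm), fun u v => ?_,
    fun e v => y.map_smul e (toMV ι v)⟩
  have h1 := h u v 1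
  have h2 := h' (y (toMV ι u)) (y (toMV ι v)) 1
  rw [map_one] at h1 h2
  exact h2.symm.trans ((congrArg (fun t => Algebra.trace F E (t * 1)) (hy _ _)).trans h1)

theorem finrank_MV_eq (ι ι' : E →ₐ[F] End F V) : finrank E (MV ι) = finrank E (MV ι') :=
  Nat.eq_of_mul_eq_mul_left finrank_pos ((finrank_MV ι).trans (finrank_MV ι').symm)

end Lift

end Cfsg.Agent.H29.Cv
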