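import Cfsg.Agent.H29.CvE
import Cfsg.Agent.H29.CvC
import Cfsg.Agent.H27.AltBasis

/-! Two classes of subgroups cover `PSU₃(q)` and `PSp₆(q)` in characteristic three. -/

set_option autoImplicit false

namespace Cfsg.Agent.H29.Cv

open Module Polynomial Cfsg.Agent.H31 LinearMap

section Uni

variable {F V E : Type*} [Field F] [Fintype F] [AddCommGroup V] [Module F V] [FiniteDimensional F V]
  [Finite V] {σ : F →+* F} {B : V →ₛₗ[σ] V →ₗ[F] F} [Field E] [Algebra F E] [Finite E]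

theorem ef_herm (h : IsHerm B) : EF 1 B :=
  ⟨h.inv.invol, fun x y => by rw [one_mul, h.symm], h.nondeg, h.exists_rep⟩

theorem adj_of_range {a : End F V} (ha : Adj B a a) {ι : E →ₐ[F] End F V}
    (h : Set.range ι = Set.range (aeval a : F[X] →ₐ[F] End F V)) (e : E) :
    ∃ e', Adj B (ι e) (ι e') := by
  obtain ⟨p, hp⟩ : ι e ∈ Set.range (aeval a : F[X] →ₐ[F] End F V) := h ▸ ⟨e, rfl⟩
  obtain ⟨e', he'⟩ : aeval a (p.map σ) ∈ Set.range ι := h ▸ ⟨_, rfl⟩
  exact ⟨e', by rw [← hp, he']; exact adj_aeval ha p⟩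

theorem lift_herm (h : IsHerm B) {ι : E →ₐ[F] End F V} {θ : E →+* E}
    (hθ : ∀ e, Adj B (ι e) (ι (θ e))) (h1 : ∀ e, θ (θ e) = e)
    (h2 : ∀ c, θ (algebraMap F E c) = algebraMap F E (σ c)) :
    ∃ H : MV ι →ₛₗ[θ] MV ι →ₗ[E] E, IsHerm H ∧
      ∀ x y e, Algebra.trace F E (H (toMV ι x) (toMV ι y) * e) = B x (ι e y) := by
  obtain ⟨H, hH⟩ := exists_lift ι θ hθ
  obtain ⟨a, ha⟩ := h.inv.ne_id
  refine ⟨H, ⟨⟨⟨h1, _, fun e => ha ((algebraMap F E).injective ((h2 a).symm.trans e))⟩,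
    fun x y => ?_⟩, lift_sep (ef_herm h) hH⟩, hH⟩
  rw [lift_symm (ef_herm h) hθ h1 (trace_theta h.inv.invol h1 h2) hH y x, map_one, one_mul]

theorem cls_su3 [CharP F 3] (h : IsHerm B) (h3 : finrank F V = 3) (hE : finrank F E = 3) :
    Cls (Sc (sisom B)) (fun ι : E →ₐ[F] End F V => ∀ e, ∃ e', Adj B (ι e) (ι e'))
      fun ι => stE (sisom B) (Set.range ι) := by
  have : Nontrivial V := Module.nontrivial_of_finrank_pos (R := F) (by omega)
  refine ⟨fun ι ι' hι hι' => ?_, fun ι _ ht => ?_, fun v _ => sc_stE _⟩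
  · obtain ⟨θ, a1, a2, a3⟩ := exists_theta (ef_herm h) ι hι
    obtain ⟨θ', b1, b2, b3⟩ := exists_theta (ef_herm h) ι' hι'
    obtain rfl := theta_unique h.inv a2 a3 b2 b3
    obtain ⟨H, hH, c⟩ := lift_herm h a1 a2 a3
    obtain ⟨H', hH', c'⟩ := lift_herm h b1 b2 b3
    obtain ⟨y, hy⟩ := hH.exists_isometry hH' (finrank_MV_eq ι ι')
    obtain ⟨x, hx, hx'⟩ := conj_of_lift c c' y hy
    obtain ⟨μ, hμ⟩ := (frobeniusEquiv F 3).surjective (σ (LinearMap.det (x : V →ₗ[F] V)))
    have h4 : μ ^ 3 = σ (LinearMap.det (x : V →ₗ[F] V)) := hμ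
    have h5 := h.det_norm hx
    have h6 : μ * σ μ = 1 := (frobeniusEquiv F 3).injective (by
      rw [map_one]
      change (μ * σ μ) ^ 3 = 1
      rw [mul_pow, ← map_pow, h4, h.inv.invol, mul_comm, h5])
    let z := (LinearEquiv.smulOfNeZero F V μ (left_ne_zero_of_mul_eq_one h6)) * x
    have hz : ∀ v, z v = μ • x v := fun _ => rfl
    refine ⟨⟨z, mem_sisom'.2 ⟨fun u v => ?_, ?_⟩⟩, fun g hg => stE_conj _ (fun e v => ?_) hg⟩
    · rw [hz, hz, smul_left, smul_right, hx, ← mul_assoc, mul_comm (σ μ), h6, one_mul]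
    · rw [show (z : V →ₗ[F] V) = μ • (x : V →ₗ[F] V) from LinearMap.ext hz, LinearMap.det_smul, h3,
        h4, mul_comm, h5]
    · exact (hz _).trans (by rw [hx', ← map_smul]; rfl)
  · obtain ⟨u, -, hu0, hu⟩ := h.exists_isotropic h.nondegOn_top (by rw [finrank_top]; omega)
    obtain ⟨ω, h1, h2⟩ := h.inv.exists_skew'
    refine not_mem_stE h3.ge (by omega) ι (t := ⟨_, h.tv_mem_sisom hu h2⟩) (l := 1) (φ := ω • B u)
      (fun v => ?_) hu0 (smul_ne_zero h1 fun e => hu0 (h.nondeg u fun y => by rw [e]; rfl))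
      (ht ▸ Subgroup.mem_top _)
    rw [one_smul]
    exact tv_apply hu h2 v

theorem goal3 [CharP F 3] (h : IsHerm B) (h3 : finrank F V = 3) (hE : finrank F E = 3)
    (g : sisom B) :
    (∃ v, B v v ≠ 0 ∧ g ∈ stW (sisom B) ((F ∙ v : Submodule F V) : Set V)) ∨
      ∃ ι : E →ₐ[F] End F V, (∀ e, ∃ e', Adj B (ι e) (ι e')) ∧ g ∈ stE (sisom B) (Set.range ι) := by
  have : Nontrivial V := Module.nontrivial_of_finrank_pos (R := F) (by omega)
  by_contra! hn
  obtain ⟨n1, n2⟩ := hn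
  have h1 : ∀ U : Submodule F V, finrank F U = 1 → NondegOn B U → ¬ ∀ x ∈ U, g.1 x ∈ U := by
    intro U a b c
    obtain ⟨v, hv, hv'⟩ := h.exists_norm_ne_zero b (fun e => by rw [e, finrank_bot] at a; omega)
    have d : F ∙ v = U := Submodule.eq_of_le_of_finrank_eq
      ((Submodule.span_singleton_le_iff_mem _ _).2 hv)
      (by rw [finrank_span_singleton fun e => hv' (by rw [e, map_zero]), a])
    exact n1 v hv' (d ▸ c)
  have h2 : ∀ b : End F V, Adj B b b → Commute b g.1 → ¬ Function.Injective b → IsNilpotent b := by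
    intro b a c d
    refine ((ef_herm h).fit a c).resolve_right (not_or.2 ⟨d, ?_⟩)
    rintro ⟨U, e1, e2, e3, e4⟩
    have e5 := Submodule.finrank_lt e2
    have e6 := Submodule.finrank_eq_zero.not.2 e1
    have e7 := h.finrank_add_finrank_perp U
    by_cases e8 : finrank F U = 1
    · exact h1 U e8 e3 e4
    · exact h1 _ (by omega) (h.nondegOn_perp e3) fun x hx =>
        (mem_stab_perp g.2.1 (mem_stab_of_le e4) x).1 hx
  obtain ⟨e, ι, a, b, c⟩ := (ef_herm h).final (E := E) h3.symm.dvd hE g g.2.1 fun a ha hc => by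
    by_cases hr : ∃ l, a.charpoly.IsRoot l
    swap
    · have hd : a.charpoly.natDegree = 3 := a.charpoly_natDegree.trans h3
      obtain ⟨ι, hι⟩ := hom_of_irred (E := E) (irreducible_of_degree_le_three_of_not_isRoot
        (by rw [hd]; simp) (not_exists.1 hr)) (hd.trans hE.symm) a.aeval_self_charpoly
      exact absurd (mem_stE_of_comm hc fun e => hι.le ⟨e, rfl⟩) (n2 ι (adj_of_range ha hι))
    obtain ⟨l, hl⟩ := hr
    obtain ⟨w, hw⟩ := ((End.hasEigenvalue_iff_isRoot_charpoly _ l).2 hl).exists_hasEigenvector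
    have hs : ((X - C l) * (X - C (σ l))).map σ = (X - C l) * (X - C (σ l)) := by
      simp [h.inv.invol, mul_comm]
    obtain ⟨m, hm⟩ := h2 (aeval a ((X - C l) * (X - C (σ l))))
      (by have := adj_aeval ha ((X - C l) * (X - C (σ l))); rwa [hs] at this) (comm_aeval hc _)
      fun hi => hw.2 (hi (by rw [aeval_eig hw.apply_eq_smul]; simp))
    by_cases hσ : σ l = l
    · refine ⟨l, hσ, 2 * m, ?_⟩
      rwa [hσ, ← pow_two, map_pow, ← pow_mul, map_sub, aeval_X, aeval_C,
        Algebra.algebraMap_eq_smul_one] at hm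
    exfalso
    have key : ∀ p : F[X], aeval a (p.map σ * p) = 0 → finrank F (range (aeval a p)) ≤ 1 := by
      intro p hp
      have := h.two_mul_finrank_le (W := range (aeval a p)) (by
        rintro _ ⟨x, rfl⟩ _ ⟨y, rfl⟩
        rw [adj_aeval ha, ← End.mul_apply, ← map_mul, hp, LinearMap.zero_apply, map_zero])
      omega
    rw [← map_pow, mul_pow] at hm
    have k1 := key ((X - C l) ^ m) (by rw [← hm, mul_comm]; simp)
    have k2 := key ((X - C (σ l)) ^ m) (by rw [← hm]; simp [h.inv.invol])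
    obtain ⟨u, v, huv⟩ : IsCoprime ((X - C l) ^ m) ((X - C (σ l)) ^ m) :=
      (isCoprime_X_sub_C_of_isUnit_sub (sub_ne_zero.2 (Ne.symm hσ)).isUnit).pow
    have k3 : range (aeval a ((X - C l) ^ m)) ⊔ range (aeval a ((X - C (σ l)) ^ m)) = ⊤ :=
      eq_top_iff.2 fun x _ => Submodule.mem_sup.2 ⟨_, ⟨aeval a u x, rfl⟩, _, ⟨aeval a v x, rfl⟩, by
        rw [← End.mul_apply, ← End.mul_apply, ← LinearMap.add_apply, ← map_mul, ← map_mul,
          ← map_add, mul_comm, mul_comm _ v, huv, map_one, End.one_apply]⟩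
    have k4 := Submodule.finrank_add_le_finrank_add_finrank (range (aeval a ((X - C l) ^ m)))
      (range (aeval a ((X - C (σ l)) ^ m)))
    rw [k3, finrank_top] at k4
    omega
  exact n2 ι (adj_of_range a b) c

end Uni

theorem charP_three {F : Type*} [Field F] [Fintype F] {a : ℕ} (h : Fintype.card F = 3 ^ a) :
    CharP F 3 := by
  have h1 := FiniteField.cast_card_eq_zero F
  rw [h, Nat.cast_pow] at h1
  exact (CharP.charP_iff_prime_eq_zero Nat.prime_three).2 (eq_zero_of_pow_eq_zero h1)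

theorem cov_psu3 {F : Type} [Field F] [Fintype F] {q a : ℕ} (hF : Fintype.card F = q ^ 2)
    (hq : q = 3 ^ a) : Cov (PSU 3 F q) := by
  have h := isHerm_hermB hF 3
  have := charP_three (hF.trans (by rw [hq, ← pow_mul]))
  obtain ⟨E, _, _, _, hE⟩ := exists_ext F (k := 3) (by omega)
  refine CovZ.quot (suEquiv hF 3) (covZ_of (cls_n1 h (by simp)) (cls_su3 h (by simp) hE)
    (goal3 h (by simp) hE)) _ fun z hz => ?_
  obtain ⟨a, ha⟩ := (mem_center_SU_iff hF (by norm_num)).1 hz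
  exact ⟨a, fun v => by rw [suEquiv_apply, ha, Matrix.smul_mulVec, Matrix.one_mulVec]⟩

section Alt

open Cfsg.Agent.H27

variable {F V E : Type*} [Field F] [AddCommGroup V] [Module F V] [FiniteDimensional F V]
  {B : LinearMap.BilinForm F V} [Field E] [Algebra F E] [Finite E]

theorem ef_alt (hA : B.IsAlt) (hB : B.Nondegenerate) : EF (σ := RingHom.id F) (-1) B :=
  ⟨fun _ => rfl, fun x y => by rw [neg_one_mul]; exact (hA.neg_eq y x).symm, hB.1,
    fun φ => (B.toDual hB).surjective φ⟩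

theorem lift_alt [CharP F 3] (hA : B.IsAlt) (hB : B.Nondegenerate) {ι : E →ₐ[F] End F V}
    (hι : ∀ e, Adj (σ := RingHom.id F) B (ι e) (ι e)) :
    ∃ H : LinearMap.BilinForm E (MV ι), H.IsAlt ∧ H.Nondegenerate ∧
      ∀ x y e, Algebra.trace F E (H (toMV ι x) (toMV ι y) * e) = B x (ι e y) := by
  obtain ⟨H, hH⟩ := exists_lift ι (RingHom.id E) hι
  have t3 : (3 : E) = 0 := by
    rw [← map_ofNat (algebraMap F E) 3, show (OfNat.ofNat 3 : F) = 0 from CharP.cast_eq_zero F 3,
      map_zero]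
  have h1 : LinearMap.BilinForm.IsAlt H := fun x => by
    have := lift_symm (ef_alt hA hB) hι (fun _ => rfl) (fun _ => rfl) hH x x
    rw [map_neg, map_one, RingHom.id_apply] at this
    linear_combination (H x x) * t3 - this
  exact ⟨H, h1, h1.isRefl.nondegenerate_iff_separatingLeft.2 (lift_sep (ef_alt hA hB) hH), hH⟩

variable [Finite V]

theorem cls_sp6 [CharP F 3] (hA : B.IsAlt) (hB : B.Nondegenerate) (h3 : 3 ≤ finrank F V)
    (hE : finrank F E = 3) :
    Cls (Sc (isomGroup B)) (fun ι : E →ₐ[F] End F V => ∀ e, Adj (σ := RingHom.id F) B (ι e) (ι e))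
      fun ι => stE (isomGroup B) (Set.range ι) := by
  have : Nontrivial V := Module.nontrivial_of_finrank_pos (R := F) (by omega)
  refine ⟨fun ι ι' hι hι' => ?_, fun ι _ ht => ?_, fun v _ => sc_stE _⟩
  · obtain ⟨H, a, b, c⟩ := lift_alt hA hB hι
    obtain ⟨H', a', b', c'⟩ := lift_alt hA hB hι'
    obtain ⟨y, hy⟩ := exists_equiv_of_finrank_eq b a b' a' (finrank_MV_eq ι ι')
    obtain ⟨x, hx, hx'⟩ := conj_of_lift c c' y hy
    exact ⟨⟨x, hx⟩, fun g hg => stE_conj _ hx' hg⟩
  · obtain ⟨u, hu⟩ := exists_ne (0 : V)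
    refine not_mem_stE h3 (by omega) ι (t := ⟨_, altTv_mem_isomGroup hA u 1⟩) (l := 1)
      (φ := B.flip u) (fun v => ?_) hu
      (fun e => hu (hB.2 u fun y => LinearMap.congr_fun e y)) (ht ▸ Subgroup.mem_top _)
    rw [one_smul]
    exact (altTv_apply hA u 1 v).trans (by rw [one_mul]; rfl)

theorem cls_n2 (hA : B.IsAlt) (hB : B.Nondegenerate) (h3 : 3 ≤ finrank F V) :
    Cls (Sc (isomGroup B)) (fun p : V × V => B p.1 p.2 = 1)
      fun p => stW (isomGroup B) (Submodule.span F {p.1, p.2} : Set V) := by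
  refine ⟨fun p r hp hr => ?_, fun p hp ht => ?_, fun v _ => sc_stW _⟩
  · obtain ⟨x, -, hx, h1⟩ := witt_family hB hA ⊤ (fun _ _ => trivial)
      (linearIndependent_pair_of_alt hA (hp ▸ one_ne_zero))
      (linearIndependent_pair_of_alt hA (hr ▸ one_ne_zero)) fun i j => by
        fin_cases i <;> fin_cases j <;>
          simp [hA.self_eq_zero, hp, hr, ← hA.neg_eq p.1 p.2, ← hA.neg_eq r.1 r.2]
    refine ⟨⟨x, hx⟩, fun g hg => stW_conj' _ ?_ hg⟩
    rw [Submodule.map_span, Set.image_pair]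
    exact congrArg₂ (fun a b => Submodule.span F {a, b}) (h1 0) (h1 1)
  · obtain ⟨w, hw⟩ : ∃ w, w ∉ Submodule.span F {p.1, p.2} := by
      by_contra! h1
      have h2 := finrank_span_eq_card (linearIndependent_pair_of_alt hA (hp ▸ one_ne_zero))
      rw [Matrix.range_cons_cons_empty, Submodule.eq_top_iff'.2 h1, finrank_top] at h2
      simp at h2
      omega
    have h1 : p.1 ∈ Submodule.span F {p.1, p.2} := Submodule.subset_span (by simp)
    have h2 : p.2 ∈ Submodule.span F {p.1, p.2} := Submodule.subset_span (by simp)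
    have h4 := (ht ▸ Subgroup.mem_top _ : (⟨_, altTv_mem_isomGroup hA
      (w + (1 - B p.1 w) • p.2) 1⟩ : isomGroup B) ∈ stW _ (Submodule.span F {p.1, p.2} : Set V)) _ h1
    have h5 : p.1 + (w + (1 - B p.1 w) • p.2) ∈ Submodule.span F {p.1, p.2} := by
      simpa [altTv_apply, hp] using h4
    exact hw ((Submodule.add_mem_iff_left _ (Submodule.smul_mem _ _ h2)).1
      ((Submodule.add_mem_iff_right _ h1).1 h5))

theorem goal6 [CharP F 3] (hA : B.IsAlt) (hB : B.Nondegenerate) (h6 : finrank F V = 6)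
    (hE : finrank F E = 3) (g : isomGroup B) :
    (∃ p : V × V, B p.1 p.2 = 1 ∧ g ∈ stW (isomGroup B) (Submodule.span F {p.1, p.2} : Set V)) ∨
      ∃ ι : E →ₐ[F] End F V, (∀ e, Adj (σ := RingHom.id F) B (ι e) (ι e)) ∧
        g ∈ stE (isomGroup B) (Set.range ι) := by
  have : Nontrivial V := Module.nontrivial_of_finrank_pos (R := F) (by omega)
  have : Finite F := Finite.of_injective _ (algebraMap F E).injective
  by_contra! hn
  obtain ⟨n1, n2⟩ := hn
  have sa : ∀ {a : End F V}, Adj (σ := RingHom.id F) B a a → ∀ p : F[X],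
      Adj (σ := RingHom.id F) B (aeval a p) (aeval a p) := fun ha p => by
    have := adj_aeval ha p
    rwa [Polynomial.map_id] at this
  have h1 : ∀ U : Submodule F V, finrank F U = 2 → (B.restrict U).Nondegenerate →
      ¬ ∀ x ∈ U, g.1 x ∈ U := by
    intro U a b c
    have : Nontrivial U := Module.nontrivial_of_finrank_pos (R := F) (by omega)
    obtain ⟨u, hu⟩ := exists_ne (0 : U)
    obtain ⟨v, hv⟩ : ∃ v : U, B u v ≠ 0 := by
      by_contra! h2
      exact hu (b.1 u h2)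
    have h2 : B u ((B u v)⁻¹ • (v : V)) = 1 := by rw [map_smul, smul_eq_mul, inv_mul_cancel₀ hv]
    have h3 := finrank_span_eq_card (linearIndependent_pair_of_alt hA (h2 ▸ one_ne_zero))
    rw [Matrix.range_cons_cons_empty] at h3
    have d : Submodule.span F {(u : V), (B u v)⁻¹ • (v : V)} = U := Submodule.eq_of_le_of_finrank_eq
      (Submodule.span_le.2 (Set.pair_subset u.2 (U.smul_mem _ v.2))) (by rw [h3, a]; rfl)
    exact n1 (u, (B u v)⁻¹ • (v : V)) h2 (by rw [mem_stW, d]; exact c)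
  have h2 : ∀ b : End F V, Adj (σ := RingHom.id F) B b b → Commute b g.1 →
      ¬ Function.Injective b → IsNilpotent b := by
    intro b a c d
    refine ((ef_alt hA hB).fit a c).resolve_right (not_or.2 ⟨d, ?_⟩)
    rintro ⟨U, e1, e2, e3, e4⟩
    have e5 := Submodule.finrank_lt e2
    have e6 := Submodule.finrank_eq_zero.not.2 e1
    have e7 := B.finrank_orthogonal hB U
    have e8 : (B.restrict U).Nondegenerate := B.nondegenerate_restrict_of_disjoint_orthogonal
      hA.isRefl (Submodule.disjoint_def.2 fun x a b => e3 x a fun y hy => hA.isRefl _ _ (b y hy))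
    have e9 := Nat.even_iff.1 (even_finrank_of_alt e8 fun x => hA.self_eq_zero x)
    by_cases e10 : finrank F U = 2
    · exact h1 U e10 e8 e4
    · refine h1 (B.orthogonal U) (by omega)
        (B.nondegenerate_restrict_of_disjoint_orthogonal hA.isRefl ?_)
        fun x hx => (mem_stab_perp (B := B) g.2 (mem_stab_of_le e4) x).1 hx
      rw [B.orthogonal_orthogonal hB hA.isRefl]
      exact (B.isCompl_orthogonal_of_restrict_nondegenerate hA.isRefl e8).disjoint.symm
  obtain ⟨e, ι, a, b, c⟩ := (ef_alt hA hB).final (E := E) (by omega) hE g g.2 fun a ha hc => by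
    obtain ⟨f, hf, -, v, hv, h0⟩ := exists_irred_ker a
    obtain ⟨m, hm⟩ := h2 _ (sa ha f) (comm_aeval hc f) fun hi => hv (hi (h0.trans (map_zero _).symm))
    rw [← map_pow] at hm
    have hd : ∀ k : F[X], Irreducible k → k ∣ f ^ m → k.natDegree = f.natDegree := fun k hk h =>
      natDegree_eq_of_degree_eq (degree_eq_degree_of_associated
        (hk.associated_of_dvd hf (hk.prime.dvd_of_dvd_pow h)))
    have := Fact.mk hf
    have : Module.Finite F (AdjoinRoot f) := (AdjoinRoot.powerBasis hf.ne_zero).finite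
    have : Finite (AdjoinRoot f) := Module.finite_of_finite F
    have h3 : finrank F (AdjoinRoot f) = f.natDegree := by
      rw [(AdjoinRoot.powerBasis hf.ne_zero).finrank, AdjoinRoot.powerBasis_dim]
    obtain ⟨ι, hι⟩ := exists_hom (E := AdjoinRoot f) a (pow_ne_zero m hf.ne_zero) hm
      fun k a b => by rw [h3, hd k a b]
    obtain ⟨H, a1, a2, -⟩ := lift_alt hA hB (ι := ι) fun e => by
      obtain ⟨p, hp⟩ := hι e
      exact hp ▸ sa ha p
    obtain ⟨s, hs⟩ := even_finrank_of_alt a2 a1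
    have h4 := finrank_MV ι
    rw [h3, hs, h6] at h4
    have h5 : f.natDegree ∣ 3 := ⟨s, by linarith⟩
    rcases (Nat.dvd_prime Nat.prime_three).1 h5 with h7 | h7
    · obtain ⟨l, hl⟩ := exists_root_of_deg_one dvd_rfl h7
      obtain ⟨r, hr⟩ := (irreducible_X_sub_C l).dvd_symm hf (dvd_iff_isRoot.2 hl)
      refine ⟨l, rfl, m, ?_⟩
      have h8 : aeval a ((X - C l) ^ m) = 0 := by rw [hr, mul_pow, map_mul, hm, zero_mul]
      rwa [map_pow, map_sub, aeval_X, aeval_C, Algebra.algebraMap_eq_smul_one] at h8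
    · obtain ⟨ι, hι⟩ := exists_hom (E := E) a (pow_ne_zero m hf.ne_zero) hm
        fun k a b => by rw [hE, hd k a b, h7]
      refine absurd (mem_stE_of_comm hc fun e => (hι e).imp fun _ => Eq.symm) (n2 ι fun e => ?_)
      obtain ⟨p, hp⟩ := hι e
      exact hp ▸ sa ha p
  refine n2 ι (fun x => ?_) c
  obtain ⟨p, hp⟩ : ι x ∈ Set.range (aeval e : F[X] →ₐ[F] End F V) := b ▸ ⟨x, rfl⟩
  exact hp ▸ sa a p

end Alt

theorem cov_psp6 {F : Type} [Field F] [Fintype F] {a : ℕ} (hF : Fintype.card F = 3 ^ a) :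
    Cov (PSp 3 F) := by
  have := charP_three hF
  obtain ⟨E, _, _, _, hE⟩ := exists_ext F (k := 3) (by omega)
  exact CovZ.quot (H27.spEquiv (Fin 3) F) (covZ_of
    (cls_n2 H27.jBilin_isAlt H27.jBilin_nondegenerate (by simp))
    (cls_sp6 H27.jBilin_isAlt H27.jBilin_nondegenerate (by simp) hE)
    (goal6 H27.jBilin_isAlt H27.jBilin_nondegenerate (by simp) hE)) _
    fun z hz => H27.mem_center_sp_iff.1 hz

end Cfsg.Agent.H29.Cv
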