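import Cfsg.Agent.H45.OnDefs
import Cfsg.Agent.H52.FStar

/-! Simple subnormal subgroups of a finite group without normal `p`-subgroups. -/

set_option autoImplicit false

namespace Cfsg.Agent.H45.On

open Subgroup Cfsg.Agent.H52

universe u

namespace As

variable {X : Type u} [Group X]

theorem fit_bot [Finite X]
    (h : ∀ (p : ℕ) (T : Subgroup X), p.Prime → IsPGroup p T → T.Normal → T = ⊥) :
    fittingSubgroup X = ⊥ := by
  by_contra hne
  obtain ⟨p, hp, hd⟩ := Nat.exists_prime_and_dvd (mt (card_eq_one (H := fittingSubgroup X)).1 hne)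
  have := Fact.mk hp
  have := fitting_normal (G := X)
  have := fitting_isNilpotent (G := X)
  obtain ⟨P⟩ : Nonempty (Sylow p (fittingSubgroup X)) := inferInstance
  have := P.characteristic_of_normal
    (Sylow.normal_of_normalizerCondition Group.normalizerCondition_of_isNilpotent P)
  exact P.ne_bot_of_dvd_card hd ((map_eq_bot_iff_of_injective _ (subtype_injective _)).1
    (h p _ hp (P.isPGroup'.map (fittingSubgroup X).subtype) inferInstance))

theorem comp {M : Subgroup X} (h1 : M.IsSubnormal) (h2 : IsSimpleGroup M) (h3 : ¬ Cm M M) :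
    IsComponent M :=
  ⟨h1, isQuasisimple_of_isSimpleGroup fun hc => h3 fun a ha b hb =>
    congrArg Subtype.val (hc.is_comm.comm ⟨a, ha⟩ ⟨b, hb⟩)⟩

theorem of_comp [Finite X] (hF : fittingSubgroup X = ⊥) {M : Subgroup X} (h : IsComponent M) :
    IsSimpleGroup M ∧ ¬ Cm M M := by
  refine ⟨IsQuasisimple.isSimpleGroup_of_center_eq_bot h.2 ?_, fun hc =>
    IsComponent.commutator_self_ne_bot h (commutator_eq_bot_iff_forall.2 hc)⟩
  rw [← map_eq_bot_iff_of_injective _ M.subtype_injective, map_center_subtype, ← le_bot_iff, ← hF]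
  exact IsComponent.center_le_fitting h

end As

open As in
theorem asS : AsStmt.{u} := by
  intro X _ _ _ h
  have hF := fit_bot h
  obtain ⟨M, hM⟩ : ∃ M : Subgroup X, IsComponent M := by
    by_contra hn
    refine fstar_ne_bot (G := X) ?_
    rw [generalizedFittingSubgroup, hF, sup_bot_eq, layer, sSup_eq_bot]
    exact fun L hL => (hn ⟨L, hL⟩).elim
  refine ⟨⟨M, hM.1, of_comp hF hM⟩, fun A B a1 a2 a3 b1 b2 b3 ne =>
    commutator_eq_bot_iff_forall.1
      (IsComponent.commutator_eq_bot_of_ne (comp a1 a2 a3) (comp b1 b2 b3) ne), fun hu => ?_⟩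
  have u : ∀ L : Subgroup X, IsComponent L → L = M := fun L hL =>
    hu L M hL.1 (of_comp hF hL).1 (of_comp hF hL).2 hM.1 (of_comp hF hM).1 (of_comp hF hM).2
  have e : generalizedFittingSubgroup X = M := by
    rw [generalizedFittingSubgroup, hF, sup_bot_eq]
    exact le_antisymm (sSup_le fun L hL => (u L hL).le) (IsComponent.le_layer hM)
  refine ⟨M, e ▸ fstar_normal, (of_comp hF hM).1, IsQuasisimple.not_isMulCommutative hM.2, ?_⟩
  rw [← e, ← le_bot_iff, ← hF]
  exact centralizer_fstar_le_fitting

end Cfsg.Agent.H45.On
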