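import Cfsg.Agent.H18.RfSc
import Cfsg.Agent.H49.XSDual

/-! Project RF, piece EK: elementary facts on the group `Ew`. -/

set_option autoImplicit false

namespace Cfsg.Agent.H29.RfEk

open Cfsg Subgroup Cfsg.Agent.H18.MaxOff Cfsg.Agent.H18.Rf
open Cfsg.Agent.H49 (XS LX)

universe u

section

variable {G : Type u} [Group G]

lemma mem_C1 {g a : G} : g ∈ C1 a ↔ g * a = a * g := mem_centralizer_singleton_iff

lemma mem_UU {z w : G} (hz : z * z = 1) (hw : w * w = 1) (hc : z * w = w * z) (x : G) :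
    x ∈ UU z w ↔ x = 1 ∨ x = z ∨ x = w ∨ x = z * w := by
  have e1 : z * (z * w) = w := by rw [← mul_assoc, hz, one_mul]
  have e2 : w * (z * w) = z := by rw [hc, ← mul_assoc, hw, one_mul]
  have e3 : z * w * z = w := by rw [hc, mul_assoc, hz, mul_one]
  have e4 : z * w * w = z := by rw [mul_assoc, hw, mul_one]
  have e5 : z * w * (z * w) = 1 := by rw [← mul_assoc, e3, hw]
  constructor
  · intro hx
    induction hx using closure_induction with
    | mem x hx => rcases hx with rfl | rfl <;> simp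
    | one => simp
    | mul x y _ _ hx hy =>
      rcases hx with rfl | rfl | rfl | rfl <;> rcases hy with rfl | rfl | rfl | rfl <;>
        simp [hz, hw, e1, e2, e3, e4, e5, ← hc]
    | inv x _ hx =>
      rcases hx with rfl | rfl | rfl | rfl
      · simp
      · rw [inv_eq_of_mul_eq_one_right hz]; simp
      · rw [inv_eq_of_mul_eq_one_right hw]; simp
      · rw [inv_eq_of_mul_eq_one_right e5]; simp
  · have h1 : z ∈ UU z w := subset_closure (by simp)
    have h2 : w ∈ UU z w := subset_closure (by simp)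
    rintro (rfl | rfl | rfl | rfl)
    exacts [one_mem _, h1, h2, mul_mem h1 h2]

lemma cen_UU {z w g : G} (hz : g ∈ C1 z) (hw : g ∈ C1 w) : ∀ u ∈ UU z w, g * u = u * g := by
  intro u hu
  have : UU z w ≤ C1 g := by
    rw [closure_le]
    rintro x (rfl | rfl)
    · exact mem_C1.2 (mem_C1.1 hz).symm
    · exact mem_C1.2 (mem_C1.1 hw).symm
  exact (mem_C1.1 (this hu)).symm

lemma norm_UU [Finite G] {z w g : G} (hz : g ∈ C1 z) (hw : g ∈ C1 w) : g ∈ NN (UU z w) :=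
  mem_norm_of_le fun u hu => by rw [cen_UU hz hw u hu]; simpa using hu

lemma two_le [Finite G] {V : Subgroup G} (hV : ∀ v ∈ V, v * v = 1) (wc : WC V)
    (nv : ∃ m, Odd m ∧ Nat.card (NN V) = 2 ^ 21 * m) (R : Subgroup G) (hR : IsPGroup 2 R) :
    Nat.card R ≤ 2 ^ 21 := by
  haveI : Fact (Nat.Prime 2) := ⟨Nat.prime_two⟩
  obtain ⟨S, hS⟩ := (pg_of_sq hV).exists_le_sylow
  obtain ⟨S', hS'⟩ := hR.exists_le_sylow
  have h1 : Nat.card S' = Nat.card S := by rw [S.card_eq_multiplicity, S'.card_eq_multiplicity]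
  obtain ⟨k, hk⟩ := IsPGroup.iff_card.1 S.isPGroup'
  obtain ⟨m, hm, e⟩ := nv
  have h2 := card_dvd_of_le (wc.le_norm S.isPGroup' hS)
  rw [e] at h2
  have h3 : Nat.card (S : Subgroup G) = 2 ^ k := hk
  rw [h3] at h2
  have h4 : 2 ^ k ∣ 2 ^ 21 :=
    (Nat.Coprime.pow_left k (Nat.coprime_two_left.2 hm)).dvd_of_dvd_mul_right h2
  have h5 := card_le_of_le hS'
  have h6 : Nat.card (S' : Subgroup G) = 2 ^ k := h1.trans hk
  exact h5.trans (h6.le.trans (Nat.le_of_dvd (by norm_num) h4))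

lemma wq_norm [Finite G] {Q R : Subgroup G} {z : G} (h : WQ Q z) (hR : IsPGroup 2 R)
    (hRz : R ≤ C1 z) (hQR : Q ≤ R) : R ≤ NN Q := by
  by_contra hne
  obtain ⟨r, hr, hrK, hrn⟩ := grow (K := R ⊓ NN Q) hR inf_le_left
    (fun hh => hne (le_trans hh inf_le_right))
  have h1 : cj r Q ≤ NN Q := by
    have h2 : Q ≤ R ⊓ NN Q := le_inf hQR le_normalizer
    have := cj_mono r h2
    rw [mem_norm_iff.1 hrn] at this
    exact le_trans this inf_le_right
  exact hrK ⟨hr, mem_norm_iff.2 (h r (hRz hr) h1)⟩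

theorem ek0 [Finite G] {V Q W : Subgroup G} {z w : G} (hV : ∀ v ∈ V, v * v = 1) (wc : WC V)
    (lc : LC V z Q W) (cQ : Nat.card Q = 2 ^ 9)
    (tv : ∀ y ∈ MM V z, 2 ^ 8 ≤ Nat.card ↥(Q ⊓ CM {y} (zpowers z)) → y ∈ Q) (wq : WQ Q z)
    (hw : w ∈ W) (hwz : w ∉ zpowers z) : Ek V z Q W w := by
  have xs := lc.xs
  have hWle : W ≤ Q ⊓ V := lc.qv.ge
  have wQ : w ∈ Q := (hWle hw).1
  have wV : w ∈ V := (hWle hw).2
  have w1 : w ≠ 1 := fun e => hwz (e ▸ one_mem _)
  have wz : w ≠ z := fun e => hwz (e ▸ mem_zpowers z)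
  have um := mem_UU xs.zz (hV w wV) (xs.cen w wQ).symm
  have zU : z ∈ UU z w := (um z).2 (by simp)
  have wU : w ∈ UU z w := (um w).2 (by simp)
  have ZU : zpowers z ≤ UU z w := zpowers_le.2 zU
  have UQ : UU z w ≤ Q := by
    rw [closure_le]
    rintro x (rfl | rfl)
    exacts [xs.mem, wQ]
  have UV : UU z w ≤ V := by
    rw [closure_le]
    rintro x (rfl | rfl)
    exacts [lc.zV, wV]
  have memE : ∀ g, g ∈ Ew V z Q w ↔ g ∈ MM V z ∧ g ∈ C1 w ∧
      ∀ x ∈ Q, x ∈ C1 w → g * x * g⁻¹ * x⁻¹ ∈ UU z w := fun g =>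
    ⟨fun h => ⟨h.1.1, h.1.2, fun x h1 h2 => h.2.2 x ⟨h1, h2⟩⟩,
      fun h => ⟨⟨h.1, h.2.1⟩, norm_UU h.1.2 h.2.1, fun x hx => h.2.2 x hx.1 hx.2⟩⟩
  have QZ : ∀ q ∈ Q, q ∈ NN (zpowers z) := fun q hq =>
    mem_norm_of_le fun a ha => xs.conj_mem_of_z_mem xs.Z_le (mem_zpowers z) hq ha
  have QU : ∀ q ∈ Q, q ∈ NN (UU z w) := fun q hq =>
    mem_norm_of_le fun a ha => xs.conj_mem_of_z_mem UQ zU hq ha
  have cX : Nat.card ↥(Q ⊓ C1 w) = 2 ^ 8 := by
    have := xs.card_inf_centralizer wQ w1 wz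
    rw [cQ] at this
    change 2 * Nat.card ↥(Q ⊓ C1 w) = _ at this
    omega
  have xe : Q ⊓ C1 w ≤ Ew V z Q w := fun x hx =>
    (memE x).2 ⟨lc.qm hx.1, hx.2, fun y hy _ => ZU (xs.commutator_mem hx.1 hy)⟩
  have key0 : ∀ g ∈ MM V z, (∀ x ∈ Q, x ∈ C1 w → g * x * g⁻¹ = x) → g ∈ UU z w := by
    intro g hg h
    have h' : ∀ x ∈ Q, x * w = w * x → x * g = g * x := fun x hx hxw => by
      have := h x hx (mem_C1.2 hxw)
      rw [mul_inv_eq_iff_eq_mul] at this
      exact this.symm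
    have hQ : g ∈ Q := by
      refine tv g hg (cX ▸ card_le_of_le fun x hx => ⟨hx.1, QZ x hx.1, ?_⟩)
      rintro _ rfl
      rw [h' x hx.1 (mem_C1.1 hx.2)]
      simp
    rcases xs.mem_of_centralizes_centralizer wQ hQ h' with e | e | e | e
    · exact (um g).2 (Or.inl e)
    · exact (um g).2 (Or.inr (Or.inl e))
    · exact (um g).2 (Or.inr (Or.inr (Or.inl e)))
    · exact (um g).2 (Or.inr (Or.inr (Or.inr (e.trans (xs.cen w wQ)))))
  have cenE : ∀ g ∈ Ew V z Q w, ∀ u ∈ UU z w, g * u = u * g := fun g hg =>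
    cen_UU ((memE g).1 hg).1.2 ((memE g).1 hg).2.1
  have act : ∀ a ∈ Ew V z Q w, ∀ b ∈ Ew V z Q w, ∀ x ∈ Q, x ∈ C1 w →
      a * b * x * (a * b)⁻¹ = (b * x * b⁻¹ * x⁻¹) * (a * x * a⁻¹ * x⁻¹) * x := by
    intro a ha b hb x h1 h2
    have := cenE a ha _ (((memE b).1 hb).2.2 x h1 h2)
    calc a * b * x * (a * b)⁻¹ = a * (b * x * b⁻¹ * x⁻¹) * (x * a⁻¹) := by group
      _ = _ := by rw [this]; group
  have sqE : ∀ g ∈ Ew V z Q w, g * g ∈ UU z w := fun g hg =>
    key0 _ ((memE _).1 (mul_mem hg hg)).1 fun x h1 h2 => by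
      rw [act g hg g hg x h1 h2, hV _ (UV (((memE g).1 hg).2.2 x h1 h2)), one_mul]
  have comE : ∀ g ∈ Ew V z Q w, ∀ k ∈ Ew V z Q w, g * k * g⁻¹ * k⁻¹ ∈ UU z w := by
    intro g hg k hk
    refine key0 _ ((memE _).1 (mul_mem (mul_mem (mul_mem hg hk) (inv_mem hg)) (inv_mem hk))).1
      fun x h1 h2 => ?_
    have e1 := act _ (inv_mem hg) _ (inv_mem hk) x h1 h2
    have e2 := act _ (inv_mem hk) _ (inv_mem hg) x h1 h2
    rw [comm_of_sq hV (UV (((memE _).1 (inv_mem hk)).2.2 x h1 h2))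
      (UV (((memE _).1 (inv_mem hg)).2.2 x h1 h2)), ← e2] at e1
    calc _ = g * k * (g⁻¹ * k⁻¹ * x * (g⁻¹ * k⁻¹)⁻¹) * (g * k)⁻¹ := by group
      _ = x := by rw [e1]; group
  have mh : MM V z ⊓ NN (UU z w) ≤ H2 V z Q w := by
    rintro m ⟨hm, hmU⟩
    refine ⟨⟨hm.2, hmU⟩, mem_norm_of_le fun e he => (memE _).2 ⟨?_, ?_, fun x h1 h2 => ?_⟩⟩
    · exact mul_mem (mul_mem hm ((memE e).1 he).1) (inv_mem hm)
    · have := cenE e he _ ((mem_normalizer_iff''.1 hmU w).1 wU)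
      rw [mem_C1]
      calc m * e * m⁻¹ * w = m * (e * (m⁻¹ * w * m)) * m⁻¹ := by group
        _ = _ := by rw [this]; group
    · have h3 : m⁻¹ * x * m ∈ Q := (mem_normalizer_iff''.1 (lc.mq hm) x).1 h1
      have h4 : m⁻¹ * x * m ∈ C1 w := by
        have := cen_UU (xs.le_centralizer h1) h2 _ ((mem_normalizer_iff.1 hmU w).1 wU)
        rw [mem_C1]
        calc m⁻¹ * x * m * w = m⁻¹ * (x * (m * w * m⁻¹)) * m := by group
          _ = _ := by rw [this]; group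
      have := (mem_normalizer_iff.1 hmU _).1 (((memE e).1 he).2.2 _ h3 h4)
      convert this using 1
      group
  have Vz : V ≤ C1 z := fun v hv => mem_C1.2 (comm_of_sq hV hv lc.zV)
  have Vw : V ≤ C1 w := fun v hv => mem_C1.2 (comm_of_sq hV hv wV)
  refine
    { p2 := fun g => ⟨2, Subtype.ext ?_⟩
      xe := xe
      we := fun a ha => ⟨(hWle ha).2, xe ⟨(hWle ha).1, Vw (hWle ha).2⟩⟩
      ab := fun g hg => ⟨⟨⟨⟨hg.1.1.2, hg.2.1⟩, le_normalizer hg⟩, hg.1.2⟩, hg.2.1, comE g hg⟩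
      e3 := fun t ht htw => le_antisymm ?_ fun x hx =>
        ⟨xe hx, QU x hx.1, fun y (hy : y = t) => hy ▸ ZU (xs.commutator_mem hx.1 ht)⟩
      qh := fun q hq => mh ⟨lc.qm hq, QU q hq⟩
      vh := fun v hv => mh ⟨⟨le_normalizer hv, Vz hv⟩, norm_UU (Vz hv) (Vw hv)⟩
      mh := mh
      cm := fun g hg => (memE g).2 ⟨hg.1, hg.2.1.2, fun x h1 h2 => hg.2.2.2 x (xe ⟨h1, h2⟩)⟩
      cn := fun h hh => mem_norm_of_le fun c hc => ⟨⟨?_, ?_⟩, ?_, fun e he => ?_⟩
      um := um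
      two := fun R hR _ => two_le hV wc lc.nv R hR
      qn := fun R hR h1 h2 => wq_norm wq hR h1 h2 }
  · have := hV _ (UV (sqE g g.2))
    change (g : G) ^ 2 ^ 2 = 1
    rw [← this]
    simp [pow_succ, mul_assoc]
  · rintro e ⟨he, -, het⟩
    have het' : e * t * e⁻¹ * t⁻¹ ∈ UU z w := het t rfl
    have hall : ∀ q ∈ Q, q * e * q⁻¹ * e⁻¹ ∈ UU z w := by
      intro q hq
      have h0 : e * q * e⁻¹ * q⁻¹ ∈ UU z w := by
        by_cases h : q ∈ C1 w
        · exact ((memE e).1 he).2.2 q hq h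
        · have h1 : t⁻¹ * q ∈ C1 w := mem_C1.2 (xs.mul_comm_of_ne_of_ne (inv_mem ht) hq wQ
            (fun k => htw (by simpa using inv_mem (mem_C1.2 k))) fun k => h (mem_C1.2 k))
          have h2 := (mem_normalizer_iff.1 (QU t ht) _).1
            (((memE e).1 he).2.2 _ (mul_mem (inv_mem ht) hq) h1)
          have := mul_mem het' h2
          convert this using 1
          group
      have := inv_mem h0
      convert this using 1
      group
    have memK : ∀ q ∈ Q, q ∈ CM {e} (zpowers z) ↔ q * e * q⁻¹ * e⁻¹ ∈ zpowers z := fun q hq =>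
      ⟨fun h => h.2 e rfl, fun h => ⟨QZ q hq, by rintro _ rfl; exact h⟩⟩
    have out : ∀ q ∈ Q, q ∉ CM {e} (zpowers z) → q * e * q⁻¹ * e⁻¹ * w ∈ zpowers z := by
      intro q hq h
      rw [memK q hq] at h
      rcases (um _).1 (hall q hq) with k | k | k | k
      · exact absurd (k ▸ one_mem _) h
      · exact absurd (k ▸ mem_zpowers z) h
      · rw [k, hV w wV]; exact one_mem _
      · rw [k, mul_assoc, hV w wV, mul_one]; exact mem_zpowers z
    have hidx : (CM {e} (zpowers z)).relIndex Q ∣ 2 := by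
      rw [relIndex, index_dvd_two_iff]
      by_cases h : ∃ a : Q, (a : G) ∉ CM {e} (zpowers z)
      · obtain ⟨a, ha⟩ := h
        refine ⟨a, fun b => ?_⟩
        by_cases hb : (b : G) ∈ CM {e} (zpowers z)
        · exact Or.inr hb
        · refine Or.inl (mem_subgroupOf.2 ((memK _ (b * a).2).2 ?_))
          have h1 := (mem_normalizer_iff.1 (QZ b b.2) _).1 (out a a.2 ha)
          have h2 := out b b.2 hb
          have h3 := xs.commutator_mem b.2 wQ
          have h4 : (b : G) * e * (b : G)⁻¹ * e⁻¹ * w = w * ((b : G) * e * (b : G)⁻¹ * e⁻¹) :=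
            comm_of_sq hV (UV (hall b b.2)) wV
          rw [h4] at h2
          have h5 := mul_mem (mul_mem h1 h3) h2
          have hw' : w⁻¹ = w := inv_eq_of_mul_eq_one_right (hV w wV)
          have h6 : w * w = 1 := hV w wV
          convert h5 using 1
          rw [coe_mul]
          calc (b : G) * a * e * ((b : G) * a)⁻¹ * e⁻¹
              = b * (a * e * (a : G)⁻¹ * e⁻¹) * (w * w) * (b : G)⁻¹ * (b * e * (b : G)⁻¹ * e⁻¹) := by
                rw [h6]; group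
            _ = _ := by group
      · push Not at h
        exact ⟨1, fun b => Or.inr (h b)⟩
    have h1 := H49.XS.card_mul_relIndex' (CM {e} (zpowers z)) Q
    have h2 := Nat.mul_le_mul_left (Nat.card ↥(Q ⊓ CM {e} (zpowers z))) (Nat.le_of_dvd two_pos hidx)
    exact ⟨tv e ((memE e).1 he).1 (by omega), ((memE e).1 he).2.1⟩
  · exact (H2 V z Q w).mul_mem ((H2 V z Q w).mul_mem hh hc.1.1) ((H2 V z Q w).inv_mem hh)
  · have := cen_UU hc.1.1.1.1 hc.1.2 _ ((mem_normalizer_iff''.1 hh.1.2 w).1 wU)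
    refine mem_C1.2 ?_
    calc h * c * h⁻¹ * w = h * (c * (h⁻¹ * w * h)) * h⁻¹ := by group
      _ = _ := by rw [this]; group
  · exact (NN (UU z w)).mul_mem ((NN (UU z w)).mul_mem hh.1.2 hc.2.1)
      ((NN (UU z w)).inv_mem hh.1.2)
  · have := (mem_normalizer_iff.1 hh.1.2 _).1 (hc.2.2 _ ((mem_normalizer_iff''.1 hh.2 e).1 he))
    convert this using 1
    group

end

theorem ek : EkStmt.{u} := fun _ _ _ _ _ _ _ _ _ h wq _ hw hwz =>
  ek0 h.st.el h.wc h.lc h.lg.cQ h.lg.tv wq hw hwz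

end Cfsg.Agent.H29.RfEk
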