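import Cfsg.Agent.H35.RfQ
import Cfsg.Agent.H49.XSDual

/-! Project RF, piece R5: the bound on subgroups of exponent two modulo `Q`. -/

set_option autoImplicit false

namespace Cfsg.Agent.H29.RfR5

open Cfsg Subgroup Cfsg.Agent.H18.MaxOff Cfsg.Agent.H18.Rf Cfsg.Agent.H35.RF
open scoped commutatorElement

universe u

lemma relIndex_eq {A : Type*} [Group A] {S G Y : Subgroup A} (hS : S ≤ G)
    (h : ∀ g ∈ G, ∃ z ∈ S, z⁻¹ * g ∈ Y) : Y.relIndex S = Y.relIndex G := by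
  refine Nat.card_congr (Equiv.ofBijective (quotientSubgroupOfEmbeddingOfLE Y hS)
    ⟨(quotientSubgroupOfEmbeddingOfLE Y hS).injective, fun x => ?_⟩)
  induction x using QuotientGroup.induction_on with
  | H g =>
    obtain ⟨z, hz, hzg⟩ := h g g.2
    refine ⟨QuotientGroup.mk (⟨z, hz⟩ : S), ?_⟩
    rw [quotientSubgroupOfEmbeddingOfLE_apply_mk, QuotientGroup.eq, mem_subgroupOf]
    exact hzg

theorem r5 (hL : LtaStmt.{u}) : R5Stmt.{u} := by
  intro G _ _ V z W R Q ω va ta tc td ql Y hQY hYM hsq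
  have cQ := (hL G V z W R Q ω va ta ql).1
  have QR : Q ≤ R := ql.sup ▸ le_sup_left
  have WQ : W ≤ Q := ql.inf ▸ inf_le_left
  have cj1 : ∀ m ∈ MM V z, ∀ r ∈ R, m * r * m⁻¹ ∈ R := fun m hm r hr =>
    (mem_normalizer_iff.1 (va.nR hm) r).1 hr
  have memC : ∀ m ∈ MM V z, m ∈ CM {ω} R ↔ ⁅m, ω⁆ ∈ R := fun m hm =>
    ⟨fun h => h.2 ω rfl, fun h => ⟨va.nR hm, by rintro _ rfl; exact h⟩⟩
  have RC : R ≤ CM {ω} R := fun r hr => (memC r (va.RM hr)).2 (by
    have := R.mul_mem hr (cj1 ω ta.om _ (R.inv_mem hr))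
    rw [commutatorElement_def]
    simpa [mul_assoc] using this)
  -- the subgroup of index at most two
  have hidx : (CM {ω} R).relIndex Y ∣ 2 := by
    rw [relIndex, index_dvd_two_iff]
    by_cases h : ∃ a : Y, (a : G) ∉ CM {ω} R
    · obtain ⟨a, ha⟩ := h
      refine ⟨a, fun b => ?_⟩
      by_cases hb : (b : G) ∈ CM {ω} R
      · exact Or.inr hb
      · refine Or.inl (mem_subgroupOf.2 ((memC _ (hYM (b * a).2)).2 ?_))
        rw [memC _ (hYM a.2)] at ha
        rw [memC _ (hYM b.2)] at hb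
        have h1 := cj1 _ (hYM b.2) _ ((ta.sl _ (hYM a.2)).resolve_left ha)
        have h4 := R.inv_mem ((ta.sl _ (hYM b.2)).resolve_left hb)
        have h5 := R.mul_mem h1 (cj1 _ ta.om _ h4)
        convert h5 using 1
        rw [coe_mul, commutatorElement_def]
        group
    · push Not at h
      exact ⟨1, fun b => Or.inr (h b)⟩
  have e0 := H49.XS.card_mul_relIndex' (CM {ω} R) Y
  have e1 := Nat.mul_le_mul_left (Nat.card ↥(Y ⊓ CM {ω} R)) (Nat.le_of_dvd two_pos hidx)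
  suffices Nat.card ↥(Y ⊓ CM {ω} R) ≤ 2 ^ 17 by omega
  clear e0 e1 hidx
  have WU : W ≤ Y ⊓ V := le_inf (WQ.trans hQY) va.WV
  by_cases h8 : 8 * Nat.card W ≤ Nat.card ↥(Y ⊓ V)
  · rw [← ta.cR]
    refine card_le_of_le fun y hy => ?_
    have hyM := hYM hy.1
    have h1 := tc.cen8 y hyM ((memC y hyM).1 hy.2) _ WU inf_le_right h8 fun u hu => by
      rw [← ql.inf, commutatorElement_def]
      refine ⟨?_, V.mul_mem ((mem_normalizer_iff.1 hyM.1 u).1 hu.2) (V.inv_mem hu.2)⟩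
      have h2 := hsq _ (Y.mul_mem hy.1 hu.1)
      have h3 := (mem_normalizer_iff.1 (ql.nQ (hYM hu.1)) _).1 (Q.inv_mem (hsq y hy.1))
      have h5 : u * u = 1 := va.el u hu.2
      have h6 : y * u * y⁻¹ * u⁻¹ = y * u * (y * u) * (u * (y * y)⁻¹ * u⁻¹) :=
        calc y * u * y⁻¹ * u⁻¹ = y * u * y * (u * u) * (y * y)⁻¹ * u⁻¹ := by rw [h5]; group
          _ = _ := by group
      rw [h6]
      exact Q.mul_mem h2 h3
    rw [sup_comm] at h1
    obtain ⟨a, ha, r, hr, e⟩ := mem_sup_prod (zpowers_le.2 (va.nR ta.om)) h1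
    have haM : a ∈ MM V z := zpowers_le.2 ta.om ha
    have a3 : a * a * a = 1 := by
      obtain ⟨k, rfl⟩ := ha
      have : ω ^ 3 = 1 := ta.o3 ▸ pow_orderOf_eq_one ω
      calc ω ^ k * ω ^ k * ω ^ k = (ω ^ 3) ^ k := by group
        _ = 1 := by rw [this, one_zpow]
    have h3 : y * y * y ∈ R := by
      have := R.mul_mem (R.mul_mem (cj1 a haM r hr) (cj1 _ (mul_mem haM haM) r hr)) hr
      convert this using 1
      calc y * y * y = a * r * a⁻¹ * (a * a * r * (a * a)⁻¹) * (a * a * a) * r := by rw [e]; group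
        _ = _ := by rw [a3, mul_one]
    simpa [mul_assoc] using R.mul_mem (R.inv_mem (QR (hsq y hy.1))) h3
  · have c1 : Nat.card ↥(Y ⊓ V) ≤ 2 ^ 9 := by
      have h1 := card_dvd_of_le (inf_le_right : Y ⊓ V ≤ V)
      rw [va.cV] at h1
      obtain ⟨k, -, hk⟩ := (Nat.dvd_prime_pow Nat.prime_two).1 h1
      rw [hk, ta.cW] at h8
      rw [hk]
      refine Nat.pow_le_pow_right two_pos ?_
      by_contra h
      have := Nat.pow_le_pow_right two_pos (show 10 ≤ k by omega)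
      omega
    have i1 : Q.relIndex (Y ⊓ V) = Q.relIndex (Y ⊓ R) := by
      refine relIndex_eq (inf_le_inf_left _ va.VR) fun g hg => ?_
      have h1 : g ∈ V ⊔ Q := by rw [sup_comm, ql.sup]; exact hg.2
      obtain ⟨v, hv, q, hq, rfl⟩ := mem_sup_prod (va.VR.trans (va.RM.trans ql.nQ)) h1
      exact ⟨v, ⟨by simpa using Y.mul_mem hg.1 (Y.inv_mem (hQY hq)), hv⟩, by simpa using hq⟩
    have i2 := H49.XS.card_mul_relIndex' Q (Y ⊓ V)
    have i3 := H49.XS.card_mul_relIndex' Q (Y ⊓ R)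
    have j1 : Y ⊓ V ⊓ Q = W := by
      rw [inf_assoc, inf_comm V, ql.inf]
      exact inf_eq_right.2 (WQ.trans hQY)
    rw [j1, ta.cW, i1] at i2
    rw [inf_eq_right.2 (le_inf hQY QR), cQ] at i3
    have hn : Y ⊓ CM {ω} R ≤ NN R := inf_le_left.trans (hYM.trans va.nR)
    have k1 := td.k2 (Y ⊓ CM {ω} R ⊔ R) le_sup_right (sup_le (inf_le_left.trans hYM) va.RM)
      (fun y hy => (sup_le inf_le_right RC : _ ≤ CM {ω} R) hy |>.2 ω rfl) fun g hg => by
        obtain ⟨y, hy, r, hr, rfl⟩ := mem_sup_prod hn hg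
        have := R.mul_mem (R.mul_mem (QR (hsq y hy.1)) (cj1 _ (inv_mem (hYM hy.1)) r hr)) hr
        convert this using 1
        group
    have i4 : R.relIndex (Y ⊓ CM {ω} R) = R.relIndex (Y ⊓ CM {ω} R ⊔ R) := by
      refine relIndex_eq le_sup_left fun g hg => ?_
      obtain ⟨y, hy, r, hr, rfl⟩ := mem_sup_prod hn hg
      exact ⟨y, hy, by simpa using hr⟩
    have i5 := H49.XS.card_mul_relIndex' R (Y ⊓ CM {ω} R)
    have i6 := H49.XS.card_mul_relIndex' R (Y ⊓ CM {ω} R ⊔ R)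
    rw [inf_eq_right.2 le_sup_right, ← i4, ta.cR] at i6
    rw [inf_assoc, inf_eq_right.2 RC] at i5
    rw [ta.cR] at k1
    have := Nat.mul_le_mul (show Nat.card ↥(Y ⊓ R) ≤ 2 ^ 15 by omega)
      (show R.relIndex (Y ⊓ CM {ω} R) ≤ 4 by omega)
    omega

end Cfsg.Agent.H29.RfR5
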