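import Cfsg.Agent.H18.RfDefs
import Cfsg.Agent.H10.CoB
import Cfsg.Agent.H42.Sylow2
import Cfsg.Agent.H42.Local

/-! Project RF, piece WCG: the Golay code module is weakly closed. -/

set_option autoImplicit false
set_option maxRecDepth 100000

namespace Cfsg.Agent.H29.RfWcg

open Cfsg Subgroup Cfsg.Agent.H18.MaxOff Cfsg.Agent.H18.Rf MulAction
open Cfsg.Agent.H48 (IsWord)
open Cfsg.Agent.H42 hiding cj mem_cj card_cj
open scoped symmDiff Pointwise

universe u

/-- The elements of order at most two in the Sylow subgroup of the dodecad group. -/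
def I12 : List ℕ := [610972711791184720857040928538394722,
  234127864083396158983920601914215425,
  965346966670364367458681901213092896,
  606616056642888436882462226996333569,
  596654750537752186788767474980520034,
  731113300341743120980327113948168290,
  734318709634027620545279344385197123,
  222848521963869917746636076779308099,
  601305442431200926218084222330014721,
  969202056781860934635753244362607648,
  732588243999094229886711587426796611,
  970499966350631336865513127433832480,
  595151360256427030557912619012850755,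
  735548533734033527546468929854573569,
  984573615201180725592165913404213249,
  591414355991433043804149359661024323,
  970452037038246367669431024360720385,
  735500604421669808992593446508235808,
  237088193432378916389358651429618755,
  217411764146181876636355759353921634,
  720010940336718148064555317766227969,
  726038449334658011187390141433938018,
  721309179197215149166510279720242177,
  716077585160412467072142696091060225,
  221463205168990124215892544010092642,
  984818244535754528103549039458486304,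
  235858092014725848871085848532159489,
  721064549862662597311266359538158624]

/-- Those with many commuting involutions. -/
def J12 : List ℕ := [970499966350631336865513127433832480,
  735548533734033527546468929854573569,
  721309179197215149166510279720242177,
  984818244535754528103549039458486304]

theorem chk1 : orbAll (actsOf pmul gensP12) pid 200 (fun y =>
    Bool.or (!Nat.beq (pmul y y) pid) (anyL (fun x => Nat.beq x y) I12)) = true := by
  decide +kernel

theorem chk2 : allL (fun x => Bool.and (inM x) (Bool.or (anyL (fun y => Nat.beq y x) J12)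
    (Nat.ble (I12.filter fun y => Nat.beq (pmul x y) (pmul y x)).length 12))) I12 = true := by
  decide +kernel

theorem card_le_len {E : Subgroup M24} {l : List ℕ} (h : ∀ x ∈ E, ∃ y ∈ l, toM y = x) :
    Nat.card E ≤ l.length := by
  classical
  have h1 : (E : Set M24) ⊆ ((l.map toM).toFinset : Set M24) := fun x hx => by
    obtain ⟨y, hy, rfl⟩ := h x hx
    exact Finset.mem_coe.2 (List.mem_toFinset.2 (List.mem_map.2 ⟨y, hy, rfl⟩))
  have h2 := Set.ncard_le_ncard h1 (Set.toFinite _)
  rw [Set.ncard_coe_finset] at h2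
  have h3 := List.toFinset_card_le (l.map toM)
  rw [List.length_map] at h3
  exact le_trans (le_of_eq (Nat.card_coe_set_eq (E : Set M24))) (h2.trans h3)

theorem comm_sq {H : Type*} [Group H] {E : Subgroup H} (sq : ∀ x ∈ E, x * x = 1) {a b : H}
    (ha : a ∈ E) (hb : b ∈ E) : a * b = b * a := by
  have h : ∀ x ∈ E, x⁻¹ = x := fun x hx => inv_eq_of_mul_eq_one_right (sq x hx)
  rw [← h _ (E.mul_mem ha hb), mul_inv_rev, h a ha, h b hb]

theorem card_P {E : Subgroup M24} (hE : E ≤ P12) (sq : ∀ x ∈ E, x * x = 1) : Nat.card E ≤ 12 := by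
  have ex : ∀ x ∈ E, ∃ y ∈ I12, toM y = x := by
    intro x hx
    obtain ⟨y, hy, rfl, h⟩ := forall_gen inM_gensP12 chk1 (P12_eq ▸ hE hx)
    have y2 : pmul y y = pid :=
      (toM_eq_one_iff (inM_pmul hy hy)).1 (by rw [toM_pmul hy hy]; exact sq _ hx)
    rw [beq_iff.2 y2] at h
    obtain ⟨z, hz, h⟩ := anyL_iff.1 (by simpa using h)
    exact ⟨z, hz, by rw [beq_iff.1 h]⟩
  have k := allL_iff.1 chk2
  simp only [Bool.and_eq_true, Bool.or_eq_true] at k
  by_cases hJ : ∀ x ∈ E, ∃ y ∈ J12, toM y = x
  · exact (card_le_len hJ).trans (by decide)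
  · push Not at hJ
    obtain ⟨x, hx, hJ⟩ := hJ
    obtain ⟨y, hy, rfl⟩ := ex x hx
    rcases (k y hy).2 with h | h
    · obtain ⟨z, hz, h⟩ := anyL_iff.1 h
      exact absurd (by rw [beq_iff.1 h]) (hJ z hz)
    · refine (card_le_len fun w hw => ?_).trans (Nat.le_of_ble_eq_true h)
      obtain ⟨z, hz, rfl⟩ := ex w hw
      refine ⟨z, List.mem_filter.2 ⟨hz, beq_iff.2 ?_⟩, rfl⟩
      apply toM_inj (inM_pmul (k y hy).1 (k z hz).1) (inM_pmul (k z hz).1 (k y hy).1)
      rw [toM_pmul (k y hy).1 (k z hz).1, toM_pmul (k z hz).1 (k y hy).1]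
      exact comm_sq sq hx hw

theorem card_dod {E : Subgroup M24} (sq : ∀ x ∈ E, x * x = 1) {d : Finset GolayPt}
    (hd : d ∈ dodecads) (hE : ∀ x ∈ E, x • d = d) : Nat.card E ≤ 12 := by
  haveI : Fact (Nat.Prime 2) := ⟨Nat.prime_two⟩
  obtain ⟨g, rfl⟩ := exists_smul_dod0 hd
  have h1 : cj g⁻¹ E ≤ G12 := fun x hx => by
    have := hE _ (mem_cj.1 hx)
    rw [inv_inv, mul_smul, inv_smul_smul, mul_smul] at this
    exact smul_left_cancel g this
  have sq' : ∀ (k : M24) (E : Subgroup M24), (∀ x ∈ E, x * x = 1) → ∀ x ∈ cj k E, x * x = 1 := by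
    intro k E sq x hx
    have := sq _ (mem_cj.1 hx)
    calc x * x = k * (k⁻¹ * x * k * (k⁻¹ * x * k)) * k⁻¹ := by group
      _ = 1 := by rw [this]; group
  obtain ⟨k, -, hk⟩ := exists_conj_le_of_isPGroup (p := 2) (a := 6) G12 P12 (cj g⁻¹ E)
    (fun _ h => h.1.1) (by rw [card_P12]; norm_num)
    (by rw [card_stab_dodecad dod0_mem]; norm_num) h1 (H10.Co.two_Y (sq' _ _ sq))
  rw [← card_cj g⁻¹, ← card_cj k]
  refine card_P (fun x hx => ?_) (sq' _ _ (sq' _ _ sq))
  have := hk _ (mem_cj.1 hx)
  simpa [mul_assoc] using this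

theorem fix_le_64 {y : M24} (h : y * y = 1) {c : Finset GolayPt} (hc : y • c = cᶜ) :
    {o | o ∈ codeSets ∧ y • o = o}.ncard ≤ 64 := by
  haveI : Fact (Nat.Prime 2) := ⟨Nat.prime_two⟩
  have nofix : ∀ p : GolayPt, y • p ≠ p := fun p hp => by
    have : y • p ∈ y • c ↔ p ∈ c := Finset.smul_mem_smul_finset_iff _
    rw [hp, hc, Finset.mem_compl] at this
    tauto
  have h1 : y ≠ 1 := fun e => nofix (pt 0) (by rw [e, one_smul])
  rcases invol_classes (orderOf_eq_prime (by rw [pow_two, h]) h1) with ⟨k, rfl⟩ | ⟨k, rfl⟩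
  · obtain ⟨p, hp⟩ := Finset.card_pos.1 (show 0 < (fixSet (toM z24)).card by
      rw [card_fixSet_z24]; norm_num)
    refine absurd ?_ (nofix (k • p))
    rw [mul_smul, inv_smul_smul, mul_smul, mem_fixSet.1 hp]
  · rw [ncard_fix_conj _ k _ fun _ => msmul_mem_codeSets_iff k]
    have key : {o | o ∈ codeSets ∧ toM t24 • o = o}.ncard =
        cnt (fun m => force (enc m) fun n => Nat.beq (img t24 n) n) 4096 :=
      ncard_codeSets _ _ (fun _ h => h.1) fun n hn => by
        rw [beq_iff, ← toSet_eq_iff (img_lt (inM_isPerm inM_t24) _) (isCode_lt hn),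
          toSet_img (inM_isPerm inM_t24), ← coe_toM inM_t24]
        exact and_iff_right (toSet_mem_codeSets hn)
    rw [key]
    decide +kernel

theorem no_off {Y : Subgroup M24} (hY : ∀ y ∈ Y, y * y = 1) (h1 : Y ≠ ⊥)
    (T : Finset (Finset GolayPt)) (hT : ∀ c ∈ T, IsWord c)
    (h2 : ∀ y ∈ Y, ∀ c ∈ T, y • c = c ∨ y • c = cᶜ) : T.card * Nat.card Y < 4096 := by
  classical
  by_cases hex : ∀ y ∈ Y, ∀ c ∈ T, y • c = c
  · exact H10.Co.no_offender hY h1 T hT hex
  push Not at hex
  obtain ⟨y, hy, c, hc, hne⟩ := hex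
  have hyc : y • c = cᶜ := (h2 y hy c hc).resolve_left hne
  have hc12 : c.card = 12 := by
    have := congrArg Finset.card hyc
    rw [Finset.card_smul_finset, Finset.card_compl, card_pt] at this
    omega
  have hY24 : Nat.card Y ≤ 24 := by
    have e1 := (stabilizer Y c).card_mul_index
    have e2 : (stabilizer Y c).index ≤ 2 := by
      rw [index_stabilizer]
      refine (Set.ncard_le_ncard (t := {c, cᶜ}) ?_ (Set.toFinite _)).trans
        (Set.ncard_insert_le _ _ |>.trans (by simp))
      rintro _ ⟨w, rfl⟩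
      exact h2 w w.2 c hc
    have e3 : Nat.card (stabilizer Y c) ≤ 12 := by
      rw [← card_map_of_injective Y.subtype_injective]
      refine card_dod (d := c) ?_ ⟨hT c hc, hc12⟩ ?_
      · rintro _ ⟨w, -, rfl⟩
        exact hY w w.2
      · rintro _ ⟨w, hw, rfl⟩
        exact hw
    have := Nat.mul_le_mul e3 e2
    omega
  have hT128 : T.card ≤ 128 := by
    have e1 := fix_le_64 (hY y hy) hyc
    have e2 : (T : Set (Finset GolayPt)) ⊆ {o | o ∈ codeSets ∧ y • o = o} ∪
        (fun o => o ∆ c) '' {o | o ∈ codeSets ∧ y • o = o} := by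
      intro d hd
      rcases h2 y hy d hd with e | e
      · exact Or.inl ⟨hT d hd, e⟩
      · refine Or.inr ⟨d ∆ c, ⟨(hT d hd).symmDiff (hT c hc), ?_⟩, symmDiff_symmDiff_cancel_right _ _⟩
        rw [msmul_symmDiff, e, hyc, compl_symmDiff_compl]
    have e3 := (Set.ncard_le_ncard e2 (Set.toFinite _)).trans (Set.ncard_union_le _ _)
    have e4 := Set.ncard_image_le (f := fun o => o ∆ c) (s := {o | o ∈ codeSets ∧ y • o = o})
      (Set.toFinite _)
    rw [Set.ncard_coe_finset] at e3
    omega
  have := Nat.mul_le_mul hT128 hY24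
  omega

theorem wcg : WcGStmt.{u} := by
  intro G _ _ V ρ ψ hS hG g hA
  classical
  have sqA : ∀ x ∈ cj g V, x * x = 1 := by
    intro x hx
    have := hS.el _ (mem_cj.1 hx)
    calc x * x = g * (g⁻¹ * x * g * (g⁻¹ * x * g)) * g⁻¹ := by group
      _ = 1 := by rw [this]; group
  let f : cj g V →* M24 := ρ.comp (inclusion hA)
  have hcomp : ∀ c, IsWord c → ψ cᶜ = ψ c := fun c hc => by
    have := hG.add c Finset.univ hc H48.isWord_univ
    rw [(hG.ker _ H48.isWord_univ).2 (Or.inr rfl), mul_one] at this
    rw [← this]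
    congr 1
    ext p
    simp [Finset.mem_symmDiff]
  have hb : f.range = ⊥ := by
    by_contra hb
    have h4 := no_off (Y := f.range) (by
      rintro _ ⟨x, rfl⟩
      rw [← map_mul, show x * x = 1 from Subtype.ext (sqA x x.2), map_one]) hb
      (Finset.univ.filter fun c => IsWord c ∧ ψ c ∈ cj g V)
      (fun c hc => (Finset.mem_filter.1 hc).2.1) (by
        rintro _ ⟨x, rfl⟩ c hc
        obtain ⟨hc, h4⟩ := (Finset.mem_filter.1 hc).2
        have h5 := hG.act ⟨x, hA x.2⟩ c hc
        have hw : IsWord (f x • c) := (msmul_mem_codeSets_iff (f x)).2 hc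
        have h6 : ψ (f x • c) = ψ c := by
          refine h5.symm.trans ?_
          rw [mul_inv_eq_iff_eq_mul]
          exact comm_sq sqA x.2 h4
        have h7 := hG.add _ _ hw hc
        rw [h6, hS.el _ (hG.mem c hc), hG.ker _ (hw.symmDiff hc)] at h7
        rcases h7 with e | e
        · exact Or.inl (symmDiff_eq_bot.1 e)
        · right
          rw [← symmDiff_symmDiff_cancel_right c (f x • c), e]
          ext p
          simp [Finset.mem_symmDiff])
    have h5 := f.ker.card_mul_index
    rw [index_ker, card_cj, hS.card] at h5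
    have h6 : ∀ x : f.ker, ∃ c, IsWord c ∧ ψ c = x.1.1 := fun x =>
      hG.sur _ ((hS.ker ⟨x.1, hA x.1.2⟩).1 x.2)
    choose w hw hw' using h6
    let F : f.ker × Bool → (Finset.univ.filter fun c => IsWord c ∧ ψ c ∈ cj g V) := fun x =>
      if x.2 then ⟨w x.1, Finset.mem_filter.2 ⟨Finset.mem_univ _, hw _, hw' _ ▸ x.1.1.2⟩⟩
      else ⟨(w x.1)ᶜ, Finset.mem_filter.2 ⟨Finset.mem_univ _, (hw _).compl,
        by rw [hcomp _ (hw _), hw']; exact x.1.1.2⟩⟩
    have hF : ∀ x, ψ (F x).1 = x.1.1.1 := by
      rintro ⟨x, _ | _⟩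
      · exact (hcomp _ (hw x)).trans (hw' x)
      · exact hw' x
    have hne : ∀ c : Finset GolayPt, c ≠ cᶜ := fun c e => by
      have : pt 0 ∈ c ↔ pt 0 ∈ cᶜ := by rw [← e]
      rw [Finset.mem_compl] at this
      tauto
    have h7 := Nat.card_le_card_of_injective F fun x y e => by
      have e1 : x.1 = y.1 := Subtype.ext (Subtype.ext ((hF x).symm.trans (e ▸ hF y)))
      obtain ⟨x, b⟩ := x
      obtain ⟨y, b'⟩ := y
      obtain rfl : x = y := e1
      have e2 := congrArg Subtype.val e
      cases b <;> cases b'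
      · rfl
      · exact absurd e2.symm (hne _)
      · exact absurd e2 (hne _)
      · rfl
    rw [Nat.card_eq_finsetCard, Nat.card_prod, Nat.card_eq_fintype_card (α := Bool),
      Fintype.card_bool] at h7
    have := Nat.mul_le_mul_right (Nat.card f.range) h7
    rw [mul_right_comm, h5] at this
    omega
  refine eq_of_le_of_card_ge (fun x hx => ?_) (by rw [card_cj])
  exact (hS.ker ⟨x, hA hx⟩).1 (mem_bot.1 (hb.le ⟨⟨x, hx⟩, rfl⟩))

end Cfsg.Agent.H29.RfWcg
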