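import Cfsg.Agent.H41.S6Kit2

/-!
# An involution with centralizer `2 × Sp₆(2)`: the piece PQ
-/

set_option autoImplicit false
set_option maxRecDepth 100000
set_option synthInstance.maxSize 4096
set_option linter.unusedSectionVars false

namespace Cfsg.Agent.H29.S6PQ

open Cfsg Subgroup
open Cfsg.Agent.H44 Cfsg.Agent.H55.Sp6 Cfsg.Agent.H2.L3E Cfsg.Agent.H41.S6
open scoped commutatorElement

universe u

/-- A code of a vector orthogonal to `e₁`. -/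
def Ok (v : ℕ) : Prop := v < 64 ∧ bf 1 v = 0

instance (v : ℕ) : Decidable (Ok v) := by unfold Ok; infer_instance

theorem Ok.xor {u v : ℕ} (hu : Ok u) (hv : Ok v) : Ok (u ^^^ v) := by
  have k : ∀ u < 64, bf 1 u = 0 → ∀ v < 64, bf 1 v = 0 → Ok (u ^^^ v) := by decide +kernel
  exact k u hu.1 hu.2 v hv.1 hv.2

theorem ok0 : Ok 0 := by decide

theorem bf_xor {u v w : ℕ} (hu : Ok u) (hv : Ok v) (hw : Ok w) :
    (bf u w + bf v w) % 2 = bf (u ^^^ v) w := by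
  have k : ∀ u < 64, bf 1 u = 0 → ∀ v < 64, bf 1 v = 0 → ∀ w < 64, bf 1 w = 0 →
      (bf u w + bf v w) % 2 = bf (u ^^^ v) w := by decide +kernel
  exact k u hu.1 hu.2 v hv.1 hv.2 w hw.1 hw.2

theorem bf_small {v w : ℕ} (hv : v < 2) (hw : Ok w) : bf v w = 0 := by
  have k : ∀ w < 64, bf 0 w = 0 := by decide +kernel
  interval_cases v
  exacts [k w hw.1, hw.2]

theorem bf_symm {u v : ℕ} (hu : Ok u) (hv : Ok v) : bf u v = bf v u := (bf_facts u hu.1 v hv.1).1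

theorem b2 : g 1 * g 1 = 1 := g_sq 1 (by omega)

theorem bmod (n : ℕ) : g 1 ^ (n % 2) = g 1 ^ n := by
  conv_rhs => rw [← Nat.div_add_mod n 2, pow_add, pow_mul, pow_two, b2, one_pow, one_mul]

theorem sg_small {v : ℕ} (hv : v < 2) : sg 1 v = 1 := by
  interval_cases v <;> exact weq (l' := []) (by decide +kernel)

theorem sgV {v : ℕ} (hv : Ok v) : sg 1 v ∈ V0 := sg_mem_V0 hv.1 hv.2

theorem wcj {l m n : List ℕ} (h : (l.all (· < 64) && ((l ++ m ++ l.reverse).all (· < 64) &&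
    (n.all (· < 64) && cols (wd (l ++ m ++ l.reverse)) == cols (wd n)))) = true) :
    ev g l * ev g m * (ev g l)⁻¹ = ev g n := by
  rw [Bool.and_eq_true] at h
  rw [ev_inv (by simpa using h.1), ← ev_append, ← ev_append]
  exact weq h.2

theorem id1 : g 2 * sg 1 32 * (g 2)⁻¹ = sg 1 32 := by
  rw [g_eq 2]; exact wcj (by decide +kernel)
theorem id2 : rho * a13 * rho⁻¹ = sg 1 32 := wcj (by decide +kernel)
theorem id3 : g 2 * sg 1 16 * (g 2)⁻¹ = r12 * (a12 * g 1) := by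
  rw [r12, a12, sg, sg, g_eq 2, g_eq 1, ← ev_append g _ [1], ← ev_append g [1, 16, 1 ^^^ 16] (_ ++ _)]
  exact wcj (by decide +kernel)
theorem id4 : w23 * a12 * w23⁻¹ = a13 := wcj (by decide +kernel)
theorem id5 : r32 * a12 * r32⁻¹ = a12 * a13 := by
  rw [r32, a12, a13, sg, sg, sg, ← ev_append g [1, 2, 1 ^^^ 2]]
  exact wcj (by decide +kernel)

/-- `y ∈ σ(w) ⟨b⟩` -/
def I0 (y : Sp) (w : ℕ) : Prop := ∃ n, y = sg 1 w * g 1 ^ n

theorem I0.mem {y : Sp} {w : ℕ} (hw : Ok w) (h : I0 y w) : y ∈ V0 := by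
  obtain ⟨n, rfl⟩ := h
  exact mul_mem (sgV hw) (pow_mem g1_mem_V0 n)

theorem I0.mul {x y : Sp} {u v : ℕ} (hu : Ok u) (hv : Ok v) (h : I0 x u) (h' : I0 y v) :
    I0 (x * y) (u ^^^ v) := by
  obtain ⟨n, rfl⟩ := h
  obtain ⟨m, rfl⟩ := h'
  refine ⟨bf u v + (n + m), ?_⟩
  rw [pow_add, ← mul_assoc (sg 1 (u ^^^ v)), ← sg_mul hu.1 hv.1 hu.2 hv.2, pow_add, mul_assoc, mul_assoc,
    ← mul_assoc (g 1 ^ n), V0_comm (pow_mem g1_mem_V0 n) (sgV hv), mul_assoc]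

theorem I0.cases {y : Sp} {w : ℕ} (h : I0 y w) : y = sg 1 w ∨ y = sg 1 w * g 1 := by
  obtain ⟨n, rfl⟩ := h
  rw [← bmod]
  rcases Nat.mod_two_eq_zero_or_one n with e | e <;> simp [e]

theorem I0.inj {y : Sp} {u v : ℕ} (hu : Ok u) (hv : Ok v) (h : I0 y u) (h' : I0 y v) :
    u / 2 = v / 2 := by
  rcases h.cases with e | e <;> rcases h'.cases with e' | e' <;> rw [e] at e'
  · exact (sg_inj hu.1 hv.1 hu.2 hv.2).1.1 e'
  · exact absurd e' (sg_inj hu.1 hv.1 hu.2 hv.2).2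
  · exact absurd e'.symm (sg_inj hv.1 hu.1 hv.2 hu.2).2
  · exact (sg_inj hu.1 hv.1 hu.2 hv.2).1.1 (mul_right_cancel e')

theorem I0.of_mem {y : Sp} (hy : y ∈ V0) : ∃ w, Ok w ∧ I0 y w := by
  obtain ⟨w, h1, h2, e | e⟩ := V0_par hy
  exacts [⟨w, ⟨h1, h2⟩, 0, by simpa using e⟩, ⟨w, ⟨h1, h2⟩, 1, by simpa using e⟩]

variable {G : Type u} [Group G] [Finite G] {ι : Sp →* G} {t : G}

variable (ι) in
/-- `x ∈ ι (σ(w) ⟨b⟩)` -/
def In (x : G) (w : ℕ) : Prop := ∃ y, I0 y w ∧ x = ι y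

theorem In.mul {x y : G} {u v : ℕ} (hu : Ok u) (hv : Ok v) (h : In ι x u) (h' : In ι y v) :
    In ι (x * y) (u ^^^ v) := by
  obtain ⟨a, ha, rfl⟩ := h
  obtain ⟨b, hb, rfl⟩ := h'
  exact ⟨a * b, ha.mul hu hv hb, (map_mul ι a b).symm⟩

theorem In.inv {x : G} {u : ℕ} (hu : Ok u) (h : In ι x u) : x⁻¹ = x := by
  obtain ⟨a, ha, rfl⟩ := h
  exact inv_eq_of_mul_eq_one_right (by rw [← map_mul, V0_sq (ha.mem hu), map_one])

theorem in_sg (w : ℕ) : In ι (ι (sg 1 w)) w := ⟨_, ⟨0, by simp⟩, rfl⟩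

theorem in_one : In ι (1 : G) 0 := ⟨1, ⟨0, by simp [sg_small]⟩, (map_one ι).symm⟩

theorem in_zero {x : G} : In ι x 0 ↔ x = 1 ∨ x = ι (g 1) := by
  constructor
  · rintro ⟨y, hy, rfl⟩
    rcases hy.cases with e | e <;> simp [e, sg_small]
  · rintro (rfl | rfl)
    exacts [in_one, ⟨_, ⟨1, by simp [sg_small]⟩, rfl⟩]

variable (ι t) in
/-- `PP` without the last two clauses -/
structure PW (q : G) (v : ℕ) : Prop where
  ok : Ok v
  tr : q * t * q⁻¹ = t * ι (sg 1 v)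
  sv : ∀ w < 64, bf 1 w = 0 → q * ι (sg 1 w) * q⁻¹ = ι (sg 1 w * g 1 ^ bf v w)
  b : q * ι (g 1) = ι (g 1) * q

theorem pw {q : G} {v : ℕ} (hv : Ok v) (h : PP ι t q v) : PW ι t q v := ⟨hv, h.tr, h.sv, h.b⟩

theorem PW.cb {q : G} {v : ℕ} (h : PW ι t q v) (n : ℕ) : q * ι (g 1 ^ n) * q⁻¹ = ι (g 1 ^ n) := by
  rw [map_pow, ((show Commute q (ι (g 1)) from h.b).pow_right n).eq, mul_inv_cancel_right]

theorem PW.cj {q x : G} {v w : ℕ} (h : PW ι t q v) (hw : Ok w) (hx : In ι x w) :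
    q * x * q⁻¹ = x * ι (g 1 ^ bf v w) := by
  obtain ⟨_, ⟨n, rfl⟩, rfl⟩ := hx
  rw [map_mul, ← conj_mul, h.sv w hw.1 hw.2, h.cb, ← map_mul, ← map_mul, ← map_mul, mul_assoc,
    mul_assoc, ← pow_add, ← pow_add, add_comm]

theorem PW.cin {q x : G} {v w : ℕ} (h : PW ι t q v) (hw : Ok w) (hx : In ι x w) :
    In ι (q * x * q⁻¹) w := by
  rw [h.cj hw hx]
  obtain ⟨_, ⟨n, rfl⟩, rfl⟩ := hx
  exact ⟨_, ⟨n + bf v w, rfl⟩, by rw [← map_mul, pow_add, mul_assoc]⟩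

theorem PW.mul {q q' : G} {u v : ℕ} (h : PW ι t q u) (h' : PW ι t q' v) :
    PW ι t (q * q') (u ^^^ v) where
  ok := h.ok.xor h'.ok
  tr := by
    rw [show q * q' * t * (q * q')⁻¹ = q * (q' * t * q'⁻¹) * q⁻¹ by group, h'.tr, ← conj_mul, h.tr,
      h.sv v h'.ok.1 h'.ok.2, mul_assoc, ← map_mul, ← mul_assoc (sg 1 u),
      sg_mul h.ok.1 h'.ok.1 h.ok.2 h'.ok.2, mul_assoc, ← pow_add, ← two_mul, pow_mul, pow_two, b2,
      one_pow, mul_one]
  sv := fun w h1 h2 => by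
    rw [show q * q' * ι (sg 1 w) * (q * q')⁻¹ = q * (q' * ι (sg 1 w) * q'⁻¹) * q⁻¹ by group,
      h'.sv w h1 h2, h.cj ⟨h1, h2⟩ ⟨_, ⟨_, rfl⟩, rfl⟩, ← map_mul, mul_assoc, ← pow_add, add_comm,
      ← bmod, bf_xor h.ok h'.ok ⟨h1, h2⟩]
  b := ((show Commute q (ι (g 1)) from h.b).mul_left h'.b).eq

variable (h : Hy ι t)
include h

theorem In.inj {x : G} {u v : ℕ} (hu : Ok u) (hv : Ok v) (h1 : In ι x u) (h2 : In ι x v) :
    u / 2 = v / 2 := by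
  obtain ⟨a, ha, rfl⟩ := h1
  obtain ⟨b, hb, e⟩ := h2
  exact ha.inj hu hv (h.inj e ▸ hb)

theorem In.ct {x : G} {u : ℕ} (h1 : In ι x u) : t * x = x * t := by
  obtain ⟨a, -, rfl⟩ := h1
  exact h.ct a

theorem pw_t : PW ι t t 0 where
  ok := ok0
  tr := by simp [sg_small]
  sv := fun w h1 h2 => by rw [bf_small (by omega) ⟨h1, h2⟩, h.ct]; simp
  b := h.ct _

theorem pw_in {x : G} {u v : ℕ} (hu : Ok u) (hv : v < 2) (h1 : In ι x u) : PW ι t x v := by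
  obtain ⟨a, ha, rfl⟩ := h1
  have c : ∀ y ∈ V0, ι a * ι y = ι y * ι a := fun y hy => by
    rw [← map_mul, V0_comm (ha.mem hu) hy, map_mul]
  exact ⟨by interval_cases v <;> decide, by rw [h.conj_t, sg_small hv, map_one, mul_one],
    fun w h1 h2 => by rw [c _ (sgV ⟨h1, h2⟩), bf_small hv ⟨h1, h2⟩]; simp, c _ g1_mem_V0⟩

theorem PW.small {q : G} {v : ℕ} (hq : PW ι t q v) (hv : v < 2) :
    ∃ w, Ok w ∧ ∃ e, In ι e w ∧ (q = e ∨ q = t * e) := by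
  obtain ⟨a, ha, e⟩ := h.mem_E1.1 (h.cen_E1 (x := q) (by
    have := hq.tr
    rwa [sg_small hv, map_one, mul_one, mul_inv_eq_iff_eq_mul] at this) fun a ha => by
      obtain ⟨w, hw, k⟩ := I0.of_mem ha
      have := hq.cj hw ⟨a, k, rfl⟩
      rwa [bf_small hv hw, pow_zero, map_one, mul_one, mul_inv_eq_iff_eq_mul] at this)
  obtain ⟨w, hw, k⟩ := I0.of_mem ha
  exact ⟨w, hw, _, ⟨a, k, rfl⟩, e⟩

theorem PW.small_pw {q : G} {v : ℕ} (hq : PW ι t q v) (hv : v < 2) : PW ι t q⁻¹ 0 ∧ q * q = 1 := by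
  obtain ⟨w, hw, e, he, rfl | rfl⟩ := hq.small h hv
  · exact ⟨by rw [he.inv hw]; exact pw_in h hw (by omega) he, by
      rw [← mul_inv_cancel q, he.inv hw]⟩
  · refine ⟨?_, ?_⟩
    · rw [mul_inv_rev, he.inv hw, h.tinv]
      exact (pw_in h hw (v := 0) (by omega) he).mul (pw_t h)
    · rw [mul_assoc, ← mul_assoc e, ← he.ct h, mul_assoc, h.ttx, ← mul_inv_cancel e, he.inv hw]

theorem PW.inv {q : G} {v : ℕ} (hq : PW ι t q v) : PW ι t q⁻¹ v := by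
  have := ((hq.mul hq).small_pw h (by simp)).1.mul hq
  rwa [mul_inv_rev, inv_mul_cancel_right, Nat.zero_xor] at this

omit h in
theorem sq_e {q e : G} {v a w : ℕ} (hq : PW ι t q v) (ha : Ok a) (hw : Ok w) (h1 : In ι (q * q) a)
    (he : In ι e w) : In ι (q * e * (q * e)) a := by
  have := ((hq.cin hw he).mul hw ha h1).mul (hw.xor ha) hw he
  rwa [Nat.xor_comm w, Nat.xor_assoc, Nat.xor_self, Nat.xor_zero,
    show q * e * q⁻¹ * (q * q) * e = q * e * (q * e) by group] at this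

theorem sq_t {q : G} {v a : ℕ} (hq : PW ι t q v) (ha : Ok a) (h1 : In ι (q * q) a) :
    In ι (q * t * (q * t)) (v ^^^ a) := by
  have k := (in_sg v).mul hq.ok ha h1
  rwa [show q * t * (q * t) = q * t * q⁻¹ * (q * q) * t by group, hq.tr, mul_assoc t, k.ct h,
    mul_assoc, h.tt, mul_one]

/-- The square of an element of degree `v`. -/
theorem sq_cases (ex : ∀ v < 64, bf 1 v = 0 → ∃ q, PP ι t q v) {q : G} {v : ℕ} (hq : PW ι t q v) :
    In ι (q * q) 0 ∨ In ι (q * q) v := by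
  obtain ⟨p, hp⟩ := ex v hq.ok.1 hq.ok.2
  have hp' := pw hq.ok hp
  obtain ⟨w, hw, e, he, k | k⟩ := ((hp'.inv h).mul hq).small h (by simp)
  · rw [inv_mul_eq_iff_eq_mul.1 k]
    exact Or.inl (sq_e hp' ok0 hw (in_zero.2 hp.sq) he)
  · rw [inv_mul_eq_iff_eq_mul.1 k, ← mul_assoc p]
    have := sq_e (hp'.mul (pw_t h)) (hq.ok.xor ok0) hw (sq_t h hp' ok0 (in_zero.2 hp.sq)) he
    exact Or.inr (by simpa using this)

omit h in
theorem com_in {x r : G} {v a c d : ℕ} (hr : PW ι t r v) (ha : Ok a) (hc : Ok c) (hd : Ok d)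
    (h1 : In ι (x * x) a) (h2 : In ι (r * r) c) (h3 : In ι (x * r * (x * r)) d) :
    In ι ⁅x, r⁆ (d ^^^ c ^^^ a) := by
  have k := hr.cin ha h1
  have := (h3.mul hd hc h2).mul (hd.xor hc) ha k
  rwa [← h2.inv hc, ← k.inv ha, show x * r * (x * r) * (r * r)⁻¹ * (r * (x * x) * r⁻¹)⁻¹ = ⁅x, r⁆ by
    rw [commutatorElement_def]; group] at this

theorem lemA (ex : ∀ v < 64, bf 1 v = 0 → ∃ q, PP ι t q v) {p q : G} {u v : ℕ} (hp : PW ι t p u)
    (hq : PW ι t q v) (h1 : In ι (p * p) 0) (h2 : In ι (q * q) 0) (huv : bf u v = 1) :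
    In ι (p * q * (p * q)) 0 := by
  refine (sq_cases h ex (hp.mul hq)).resolve_right fun k => ?_
  have P := hp.mul (pw_t h)
  have Q := hq.mul (pw_t h)
  have a1 := sq_t h hp ok0 h1
  have a2 := sq_t h hq ok0 h2
  rw [Nat.xor_zero] at P Q a1 a2
  have e : p * t * (q * t) = p * q * ι (sg 1 v) := by
    have := (hq.inv h).tr
    rw [inv_inv] at this
    rw [show p * t * (q * t) = p * q * (q⁻¹ * t * q * t) by group, this, h.ct, mul_assoc _ t, h.tt,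
      mul_one]
  have a3 := com_in Q hp.ok hq.ok (hp.ok.xor hq.ok) a1 a2
    (e ▸ sq_e (hp.mul hq) (hp.ok.xor hq.ok) hq.ok k (in_sg v))
  rw [Nat.xor_assoc u, Nat.xor_self, Nat.xor_zero, Nat.xor_self] at a3
  have a4 := P.cj hq.ok a2
  have a5 := (Q.inv h).cj ok0 a3
  rw [bf_symm hq.ok ok0, bf_small (by omega) hq.ok, pow_zero, map_one, mul_one, inv_inv] at a5
  have a6 := a3.inv ok0
  generalize p * t = x at *
  generalize q * t = y at *
  have a7 : x * y * x⁻¹ = ⁅x, y⁆ * y := by rw [commutatorElement_def]; group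
  have a8 : ⁅x, y⁆ * y = y * ⁅x, y⁆ := by
    conv_rhs => rw [← a5]
    group
  rw [← conj_mul, a7, mul_assoc, ← mul_assoc y, ← a8, ← mul_assoc, ← mul_assoc,
    mul_eq_one_iff_eq_inv.2 a6.symm, one_mul, left_eq_mul, huv, pow_one, ← map_one ι] at a4
  exact g_ne_one (by omega) one_ne_zero (h.inj a4)

theorem lemB (ex : ∀ v < 64, bf 1 v = 0 → ∃ q, PP ι t q v) {p q : G} {u v : ℕ} (hp : PW ι t p u)
    (hq : PW ι t q v) (h1 : In ι (p * p) 0) (h2 : In ι (q * q) 0) (hu : 2 ≤ u) (hv : 2 ≤ v)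
    (huv : 2 ≤ u ^^^ v) : In ι (p * q * (p * q)) 0 := by
  refine (sq_cases h ex (hp.mul hq)).resolve_right fun k => ?_
  have key : ∀ v < 64, bf 1 v = 0 → 2 ≤ v → ∃ w < 64, bf 1 w = 0 ∧ bf v w = 1 ∧
      ∀ u < 64, bf 1 u = 0 → 2 ≤ u → 2 ≤ u ^^^ v → ∀ x ∈ [0, u ^^^ v ^^^ w], ∀ y ∈ [0, u ^^^ w],
        (x ^^^ 0 ^^^ (u ^^^ v)) / 2 ≠ (0 ^^^ 0 ^^^ 0 ^^^ (y ^^^ 0 ^^^ 0)) / 2 := by decide +kernel
  obtain ⟨w, w1, w2, w3, w4⟩ := key v hq.ok.1 hq.ok.2 hv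
  have hw : Ok w := ⟨w1, w2⟩
  obtain ⟨r, hr⟩ := ex w w1 w2
  have h3 := in_zero.2 hr.sq
  have R := pw hw hr
  have c1 := com_in R ok0 ok0 ok0 h2 h3 (lemA h ex hq R h2 h3 w3)
  obtain ⟨y, y1, y2, y3⟩ : ∃ y ∈ [0, u ^^^ w], Ok y ∧ In ι (p * r * (p * r)) y := by
    rcases sq_cases h ex (hp.mul R) with e | e
    exacts [⟨_, by simp, ok0, e⟩, ⟨_, by simp, hp.ok.xor hw, e⟩]
  obtain ⟨x, x1, x2, x3⟩ : ∃ x ∈ [0, u ^^^ v ^^^ w], Ok x ∧ In ι (p * q * r * (p * q * r)) x := by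
    rcases sq_cases h ex ((hp.mul hq).mul R) with e | e
    exacts [⟨_, by simp, ok0, e⟩, ⟨_, by simp, (hp.ok.xor hq.ok).xor hw, e⟩]
  have c2 := com_in R ok0 ok0 y2 h1 h3 y3
  have c3 := com_in R (hp.ok.xor hq.ok) ok0 x2 k h3 x3
  have o : Ok (0 ^^^ 0 ^^^ 0) := by decide
  have c4 := (hp.cin o c1).mul o ((y2.xor ok0).xor ok0) c2
  rw [show p * ⁅q, r⁆ * p⁻¹ * ⁅p, r⁆ = ⁅p * q, r⁆ by
    simp only [commutatorElement_def]; group] at c4
  exact w4 u hp.ok.1 hp.ok.2 hu huv x x1 y y1 (c3.inj h ((x2.xor ok0).xor (hp.ok.xor hq.ok))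
    (o.xor ((y2.xor ok0).xor ok0)) c4)

theorem pp_mul (ex : ∀ v < 64, bf 1 v = 0 → ∃ q, PP ι t q v) {p q : G} {u v : ℕ} (hu : Ok u)
    (hv : Ok v) (hp : PP ι t p u) (hq : PP ι t q v) : PP ι t (p * q) (u ^^^ v) := by
  have P := pw hu hp
  have Q := pw hv hq
  have M := P.mul Q
  have h1 := in_zero.2 hp.sq
  have h2 := in_zero.2 hq.sq
  have key : ∀ u < 64, ∀ v < 64, u ^^^ v < 2 → (u < 2 ↔ v < 2) := by decide +kernel
  refine ⟨M.tr, M.sv, M.b, in_zero.1 ?_, fun k => ?_⟩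
  · by_cases k1 : v < 2
    · obtain ⟨a, ha, rfl⟩ := hq.z k1
      obtain ⟨w, hw, k⟩ := I0.of_mem ha
      exact sq_e P ok0 hw h1 ⟨a, k, rfl⟩
    by_cases k2 : u < 2
    · obtain ⟨a, ha, rfl⟩ := hp.z k2
      obtain ⟨w, hw, k⟩ := I0.of_mem ha
      have := sq_e Q ok0 hw h2 ((Q.inv h).cin hw ⟨a, k, rfl⟩)
      rwa [show q * (q⁻¹ * ι a * q⁻¹⁻¹) = ι a * q by group] at this
    by_cases k3 : u ^^^ v < 2
    · rw [(M.small_pw h k3).2]; exact in_one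
    exact lemB h ex P Q h1 h2 (by omega) (by omega) (by omega)
  · by_cases k1 : v < 2
    · exact mul_mem (hp.z ((key u hu.1 v hv.1 k).2 k1)) (hq.z k1)
    obtain ⟨w, hw, e, he, k2 | k2⟩ := M.small h k
    · obtain ⟨a, ha, rfl⟩ := he
      exact ⟨a, ha.mem hw, k2.symm⟩
    have h3 : In ι (p⁻¹ * p⁻¹) 0 := by
      rw [← mul_inv_rev, h1.inv ok0]; exact h1
    have := sq_e ((P.inv h).mul (pw_t h)) (hu.xor ok0) hw (sq_t h (P.inv h) ok0 h3) he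
    rw [mul_assoc p⁻¹ t, ← k2, inv_mul_cancel_left, Nat.xor_zero] at this
    have := this.inj h hu ok0 h2
    have := (key u hu.1 v hv.1 k).1
    omega

theorem pp_conj {q : G} {v : ℕ} (hv : Ok v) (hq : PP ι t q v) {l : Sp} (hl : l ∈ P1) :
    PP ι t (ι l * q * (ι l)⁻¹) (act l v) := by
  have e : ∀ x, ι l * q * (ι l)⁻¹ * x * (ι l * q * (ι l)⁻¹)⁻¹ =
      ι l * (q * (ι l⁻¹ * x * (ι l⁻¹)⁻¹) * q⁻¹) * (ι l)⁻¹ := fun x => by rw [map_inv]; group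
  have c : ∀ a, ι l * ι a * (ι l)⁻¹ = ι (l * a * l⁻¹) := fun a => by simp
  have cb : l * g 1 * l⁻¹ = g 1 := by rw [P1_comm hl, mul_inv_cancel_right]
  refine ⟨by rw [e, h.conj_t, hq.tr, h.conj_tl, (P1_conj_sg hl hv.1 hv.2).1], fun w h1 h2 => ?_,
    ?_, ?_, fun k => ?_⟩
  · obtain ⟨k1, k2⟩ := P1_conj_sg (inv_mem hl) h1 h2
    rw [e, ← map_inv ι l⁻¹, ← map_mul, ← map_mul, k1, hq.sv _ (act_lt _ _) k2, c, ← conj_mul,
      ← conj_pow, cb, (P1_conj_sg hl (act_lt _ _) k2).1, act_act_inv l h1,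
      ← bf_act l hv.1 (act_lt _ _), act_act_inv l h1]
  · conv_lhs => rw [← cb, ← c, conj_mul, hq.b, ← conj_mul, c, cb]
  · rw [conj_mul]
    rcases hq.sq with k | k <;> rw [k]
    · simp
    · rw [c, cb]; simp
  · obtain ⟨a, ha, rfl⟩ := hq.z (by
      by_contra k'
      rcases (by omega : act l v = 0 ∨ act l v = 1) with e | e
      · exact act_ne_zero l hv.1 (by omega) e
      · have := act_inj l hv.1 (by omega) (e.trans (mem_P1.1 hl).symm)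
        omega)
    exact ⟨_, conj_mem_V0 (mem_P1.1 hl) ha, (c a).symm⟩

theorem pp_two {s : G} (hs : Sv ι t s true) : PP ι t (s * ι (g 2)) 2 := by
  have c : ∀ x, s * ι (g 2) * ι x * (s * ι (g 2))⁻¹ = s * ι (g 2 * x * (g 2)⁻¹) * s⁻¹ := fun x => by
    simp only [map_mul, map_inv]; group
  have cA : ∀ a ∈ A, s * ι a * s⁻¹ = ι a := fun a ha => by rw [hs.cA a ha, mul_inv_cancel_right]
  have g2 : g 2 ∈ A := g_mem_A (by omega)
  have hb : s * ι (g 2) * ι (g 1) = ι (g 1) * (s * ι (g 2)) := by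
    rw [mul_assoc, ← map_mul, hs.cA _ (mul_mem g2 (g_mem_A (by omega))), hs.cA _ g2, ← mul_assoc,
      ← map_mul, A_comm g2 (g_mem_A (by omega))]
  let P : ℕ → Prop := fun w => Ok w ∧
    s * ι (g 2) * ι (sg 1 w) * (s * ι (g 2))⁻¹ = ι (sg 1 w * g 1 ^ bf 2 w)
  have cb : ∀ n, s * ι (g 2) * ι (g 1 ^ n) * (s * ι (g 2))⁻¹ = ι (g 1 ^ n) := fun n => by
    rw [map_pow, ((show Commute (s * ι (g 2)) (ι (g 1)) from hb).pow_right n).eq, mul_inv_cancel_right]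
  have px : ∀ u v, P u → P v → P (u ^^^ v) := fun u v ⟨hu, h1⟩ ⟨hv, h2⟩ => ⟨hu.xor hv, by
    have e : sg 1 (u ^^^ v) = sg 1 u * sg 1 v * g 1 ^ bf u v := by
      rw [sg_mul hu.1 hv.1 hu.2 hv.2, mul_assoc, ← pow_add, ← two_mul, pow_mul, pow_two, b2,
        one_pow, mul_one]
    have o2 : Ok 2 := by decide
    rw [e, map_mul, map_mul, ← conj_mul, ← conj_mul, h1, h2, cb, ← map_mul, ← map_mul,
      bf_symm o2 (hu.xor hv), ← bf_xor hu hv o2, bmod, bf_symm hu o2, bf_symm hv o2, pow_add]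
    refine congrArg ι ?_
    have c1 : Commute (g 1 ^ bf 2 u) (sg 1 v) := V0_comm (pow_mem g1_mem_V0 _) (sgV hv)
    rw [c1.mul_mul_mul_comm, mul_assoc, mul_assoc (_ * _), ← pow_add, ← pow_add, ← pow_add, add_comm]⟩
  have pA : ∀ w, Ok w → w < 8 → P w := fun w hw k => ⟨hw, by
    have k1 : sg 1 w ∈ A := by
      rw [sg, ev_cons, ev_cons, ev_single]
      exact mul_mem (g_mem_A (by omega)) (mul_mem (g_mem_A k) (g_mem_A (by
        interval_cases w <;> decide)))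
    have k2 : bf 2 w = 0 := by interval_cases w <;> decide
    rw [c, A_comm g2 k1, mul_inv_cancel_right, cA _ k1, k2, pow_zero, mul_one]⟩
  have p32 : P 32 := ⟨by decide, by
    have e1 : g 2 * sg 1 32 * (g 2)⁻¹ = rho * a13 * rho⁻¹ := id1.trans id2.symm
    have e2 : rho * a13 * rho⁻¹ = sg 1 32 * g 1 ^ bf 2 32 := by
      rw [show bf 2 32 = 0 by decide, pow_zero, mul_one]; exact id2
    have c1 : s * ι rho * s⁻¹ = ι rho := by rw [hs.cr, mul_inv_cancel_right]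
    rw [c, e1, map_mul, map_mul, map_inv, ← conj_mul, ← conj_mul, ← conj_inv, c1,
      cA _ (Lam_le_A a13_Lam), ← e2, map_mul, map_mul, map_inv]⟩
  have p16 : P 16 := ⟨by decide, by
    have e2 : r12 * a12 * (a12 * g 1) = sg 1 16 * g 1 ^ bf 2 16 := by
      rw [mul_assoc, ← mul_assoc a12, A_sq (Lam_le_A a12_Lam), one_mul, show bf 2 16 = 1 by decide,
        pow_one, r12]
    rw [c, id3, map_mul, ← conj_mul, hs.r, cA _ (mul_mem (Lam_le_A a12_Lam) (g_mem_A (by omega))),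
      ← map_mul, if_pos rfl, e2]⟩
  refine ⟨?_, fun w h1 h2 => ?_, hb, Or.inl ?_, fun k => by omega⟩
  · rw [show s * ι (g 2) * t * (s * ι (g 2))⁻¹ = s * (ι (g 2) * t * (ι (g 2))⁻¹) * s⁻¹ by group,
      h.conj_t, hs.tr]; rfl
  · have key : ∀ w < 64, bf 1 w = 0 → Ok (w % 8) ∧ (w = w % 8 ∨ w = w % 8 ^^^ 16 ∨
        w = w % 8 ^^^ 32 ∨ w = w % 8 ^^^ 16 ^^^ 32) := by decide +kernel
    obtain ⟨k, e⟩ := key w h1 h2
    have p := pA _ k (Nat.mod_lt _ (by omega))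
    rcases e with e | e | e | e <;> rw [e]
    exacts [p.2, (px _ _ p p16).2, (px _ _ p p32).2, (px _ _ (px _ _ p p16) p32).2]
  · rw [mul_assoc, ← mul_assoc (ι _), ← hs.cA _ g2, mul_assoc, ← map_mul, A_sq g2, map_one, mul_one,
      hs.ss]

theorem pp_ex {s : G} (hs : Sv ι t s true) (v : ℕ) (h1 : v < 64) (h2 : bf 1 v = 0) :
    ∃ q, PP ι t q v := by
  by_cases k : v < 2
  · have := pw_in h ok0 k in_one
    exact ⟨1, this.tr, this.sv, this.b, Or.inl (one_mul 1), fun _ => one_mem _⟩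
  obtain ⟨l, e1, e2⟩ := exists_fix_one h1 (by omega) h2
  have := pp_conj h (by decide) (pp_two h hs) (inv_mem (mem_P1.2 e1))
  rw [show act l⁻¹ 2 = v from (congrArg (act l⁻¹) e2.symm).trans (act_inv_act l h1)] at this
  exact ⟨_, this⟩

theorem duad {s : G} (hs : Sv ι t s true) : Duad ι s := by
  have cj : ∀ p ∈ P3, (∀ a ∈ A, ι p * s * (ι p)⁻¹ * ι a = ι a * (ι p * s * (ι p)⁻¹)) ∧
      ι p * s * (ι p)⁻¹ * (ι p * s * (ι p)⁻¹) = 1 ∧
      ι p * s * (ι p)⁻¹ * t * (ι p * s * (ι p)⁻¹)⁻¹ = t * ι (p * a12 * p⁻¹) := fun p hp => by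
    refine ⟨fun a ha => ?_, by rw [conj_mul, hs.ss]; simp, ?_⟩
    · have := hs.cA _ (P3_conj_A (inv_mem hp) ha)
      simp only [map_mul, map_inv, inv_inv] at this
      calc _ = ι p * (s * ((ι p)⁻¹ * ι a * ι p)) * (ι p)⁻¹ := by group
        _ = _ := by rw [this]; group
    · rw [← h.conj_tl, ← hs.tr]
      conv_lhs => rw [← h.conj_t p]
      group
  obtain ⟨a1, a2, a3⟩ := cj _ w23_P3
  obtain ⟨b1, b2', b3⟩ := cj _ r32_P3
  have P2 := pp_two h hs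
  have P4 := pp_conj h (by decide) P2 w23_P1
  have k1 := (pp_mul h (pp_ex h hs) (by decide) ⟨act_lt _ _, (P1_conj_sg w23_P1 (by omega)
    (by decide)).2⟩ P2 P4).sq
  rw [← conj_mul, ← map_inv, ← map_mul, ← map_mul, map_inv] at k1
  rw [id4] at a3
  rw [id5] at b3
  unfold Duad
  have g2 : g 2 ∈ A := g_mem_A (by omega)
  have g4 := P3_conj_A w23_P3 g2
  generalize ι w23 * s * (ι w23)⁻¹ = s' at *
  generalize ι r32 * s * (ι r32)⁻¹ = s'' at *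
  generalize w23 * g 2 * w23⁻¹ = c at *
  have cs : ∀ a ∈ A, Commute (s * s') (ι a) := fun a ha =>
    (show Commute s (ι a) from hs.cA a ha).mul_left (a1 a ha)
  have k2 : s * ι (g 2) * (s' * ι c) * (s * ι (g 2) * (s' * ι c)) = s * s' * (s * s') := by
    rw [(show Commute s' (ι (g 2)) from a1 _ g2).symm.mul_mul_mul_comm, ← map_mul,
      (cs _ (mul_mem g2 g4)).symm.mul_mul_mul_comm, ← map_mul, A_sq (mul_mem g2 g4), map_one, mul_one]
  rw [k2] at k1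
  have tr : s * s' * t * (s * s')⁻¹ = t * ι (a12 * a13) := by
    rw [show s * s' * t * (s * s')⁻¹ = s * (s' * t * s'⁻¹) * s⁻¹ by group, a3, ← conj_mul, hs.tr,
      hs.cA _ (Lam_le_A a13_Lam), mul_inv_cancel_right, map_mul, mul_assoc]
  obtain ⟨a, ha, e⟩ := h.mem_E3.1 (h.cen_E3 (x := s''⁻¹ * (s * s')) (by
      calc s''⁻¹ * (s * s') * t = s''⁻¹ * (s * s' * t * (s * s')⁻¹) * (s * s') := by group
        _ = _ := by rw [tr, ← b3]; group)
    fun a ha => (((show Commute s'' (ι a) from b1 a (Lam_le_A ha)).inv_left).mul_left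
      (cs a (Lam_le_A ha))).eq)
  have k3 : s * s' * (s * s') = 1 := by
    rcases e with e | e <;> rw [inv_mul_eq_iff_eq_mul] at e
    · rw [e, (show Commute s'' (ι a) from b1 a ha).symm.mul_mul_mul_comm, b2', ← map_mul, A_sq ha,
        map_one, mul_one]
    · have c1 : Commute (s'' * t) (ι a) := (show Commute s'' (ι a) from b1 a ha).mul_left (h.ct a)
      rw [e, ← mul_assoc s'', c1.symm.mul_mul_mul_comm, ← map_mul, A_sq ha, map_one, mul_one,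
        show s'' * t * (s'' * t) = s'' * t * s''⁻¹ * (s'' * s'') * t by group, b2', b3, mul_one,
        h.ct, mul_assoc, h.tt, mul_one, ← map_one ι, h.inj.eq_iff, h.inj.eq_iff, a12_ac, a13_ac,
        ac_mul (by omega) (by omega), ← ac_zero, g1_ac] at k1
      rcases k1 with k | k <;> exact absurd (ac_inj (by decide) (by omega) k) (by decide)
  have := inv_eq_of_mul_eq_one_right k3
  rwa [mul_inv_rev, inv_eq_of_mul_eq_one_right hs.ss, inv_eq_of_mul_eq_one_right a2, eq_comm] at this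

omit h in
/-- **SP6-PQ** -/
theorem pq : PQStmt.{u} := fun _ _ _ _ _ _ h _ hs =>
  ⟨⟨pp_ex h hs, fun _ hu _ hv bu bv _ _ hp hq => pp_mul h (pp_ex h hs) ⟨hu, bu⟩ ⟨hv, bv⟩ hp hq⟩,
    duad h hs⟩

end Cfsg.Agent.H29.S6PQ
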