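import Cfsg.Agent.H74.UVDefs

/-! Project UV, piece CNT: the number of central characters with a given restriction. -/

set_option autoImplicit false

namespace Cfsg.Agent.H29.UvCnt

open Cfsg Module Cfsg.Agent.H31 Cfsg.Agent.H77.Sg Cfsg.Agent.H74.UV

universe u

lemma card_ext {Z : Type*} [CommGroup Z] [Finite Z] (H : Subgroup Z) (ν : Z →* ℂˣ) :
    Nat.card {ν' : Z →* ℂˣ // ∀ z ∈ H, ν' z = ν z} = H.index := by
  haveI : NeZero (Monoid.exponent Z) := ⟨Monoid.exponent_ne_zero_of_finite⟩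
  rw [Subgroup.index_eq_card, ← CommGroup.card_domRestrictHom_ker ℂ H]
  refine Nat.card_congr ((Equiv.mulRight ν⁻¹).subtypeEquiv fun χ => ?_)
  rw [MonoidHom.mem_ker, MonoidHom.ext_iff]
  simp only [Equiv.coe_mulRight, MonoidHom.domRestrictHom_apply, MonoidHom.domRestrict_apply,
    MonoidHom.mul_apply, MonoidHom.inv_apply, MonoidHom.one_apply, mul_inv_eq_one, Subtype.forall]

lemma relIndex_eq {A : Type*} [Group A] {S G Y : Subgroup A} (hS : S ≤ G)
    (h : ∀ g ∈ G, ∃ z ∈ S, z * g ∈ Y) : Y.relIndex S = Y.relIndex G := by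
  refine Nat.card_congr (Equiv.ofBijective (Subgroup.quotientSubgroupOfEmbeddingOfLE Y hS)
    ⟨(Subgroup.quotientSubgroupOfEmbeddingOfLE Y hS).injective, fun x => ?_⟩)
  induction x using QuotientGroup.induction_on with
  | H g =>
    obtain ⟨z, hz, hzg⟩ := h g g.2
    refine ⟨QuotientGroup.mk (⟨z, hz⟩ : S)⁻¹, ?_⟩
    rw [Subgroup.quotientSubgroupOfEmbeddingOfLE_apply_mk, QuotientGroup.eq, map_inv, inv_inv,
      Subgroup.mem_subgroupOf]
    exact hzg

theorem cnt : H74.UV.CntStmt.{u} := by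
  intro E K _ _ _ _ _ σ B q R t G Y hC hY hz ν
  let f : Rt K (q + 1) →* (K ≃ₗ[E] K) := (mulH E K).comp (Rt K (q + 1)).subtype
  have h1 := card_ext (Y.comap f) ν
  rw [Subgroup.index_comap] at h1
  have h2 : Y.relIndex f.range = Y.relIndex G := by
    refine relIndex_eq ?_ fun g hg => ?_
    · rintro _ ⟨z, rfl⟩
      exact (hC.mem z).2 ⟨z, z.2, 1, one_mem _, (mul_one _).symm⟩
    · obtain ⟨z, hz1, hz2⟩ := hz g hg
      exact ⟨_, ⟨⟨z, hz1⟩, rfl⟩, hz2⟩
  rw [← h2, ← h1]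
  rfl

end Cfsg.Agent.H29.UvCnt
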